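import Mathlib
import Cfsg.Agent.Known.QuadNormal
import Cfsg.Agent.Class.OrthOrder

/-!
Quadratic forms over the field of two elements with a given polarisation.
-/

namespace Cfsg.Lib.Known

open Module Cfsg.Lib.Class QuadraticMap
open Cfsg.Lib.Class.Orth hiding orth stab mem_orth mem_orth'

variable {V : Type*} [AddCommGroup V] [Module (ZMod 2) V] {P : QuadraticForm (ZMod 2) V}

theorem zmod_two_mul_self (a : ZMod 2) : a * a = a := by revert a; decide

/-- A function polarising to the polar form of `P` is a quadratic form. -/
def binQuad (P : QuadraticForm (ZMod 2) V) (q : V → ZMod 2)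
    (hq : ∀ u v, q (u + v) = q u + q v + polar P u v) : QuadraticForm (ZMod 2) V where
  toFun := q
  toFun_smul a x := by
    have h0 : q 0 = 0 := by simpa using hq 0 0
    have : a = 0 ∨ a = 1 := by revert a; decide
    rcases this with rfl | rfl <;> simp [h0]
  exists_companion' := ⟨polarBilin P, hq⟩

theorem binQuad_nondeg (hP : (polarBilin P).Nondegenerate) {q : V → ZMod 2}
    (hq : ∀ u v, q (u + v) = q u + q v + polar P u v) :
    (polarBilin (binQuad P q hq)).Nondegenerate := by
  have : polarBilin (binQuad P q hq) = polarBilin P := by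
    ext u v
    change q (u + v) - q u - q v = polar P u v
    rw [hq]; ring
  rwa [this]

theorem translate_polar (P : QuadraticForm (ZMod 2) V) (w u v : V) :
    P (u + v) + polar P (u + v) w =
      (P u + polar P u w) + (P v + polar P v w) + polar P u v := by
  rw [polar_add_left, Q_add]; ring

variable [FiniteDimensional (ZMod 2) V]

theorem translate_equiv_iff (hP : (polarBilin P).Nondegenerate) {m : ℕ}
    (hV : finrank (ZMod 2) V = 2 * m + 2) (w : V) :
    (∃ g : V ≃ₗ[ZMod 2] V, ∀ v, P v + polar P v w = P (g v)) ↔ P w = 0 := by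
  have h2 : (2 : ZMod 2) = 0 := rfl
  refine ⟨fun ⟨g, hg⟩ => ?_, fun hw => ?_⟩
  · by_contra hw
    have h1 : ∀ v, P (g v) = 0 ↔ ¬ P (v + w) = 0 := fun v => by
      rw [← hg, Q_add]
      revert hw
      generalize P v = a, polar P v w = b, P w = c
      revert a b c
      decide
    haveI : Finite V := Module.finite_of_finite (ZMod 2)
    have h3 : Nat.card {v // ¬ P v = 0} = sing P :=
      Nat.card_congr (((Equiv.addRight w).symm.trans g.toEquiv).subtypeEquiv fun v => by
        simpa using (h1 (v + -w)).symm)
    have h4 : sing P + Nat.card {v // ¬ P v = 0} = 2 ^ (2 * m + 2) := by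
      rw [sing, ← Nat.card_sum, Nat.card_congr (Equiv.sumCompl _), Module.natCard_eq_pow_finrank
        (K := ZMod 2), hV, Nat.card_zmod]
    have h5 : (0 : ℤ) < 2 ^ m := by positivity
    zify at h3 h4
    by_cases hp : IsPlus P
    · have := sing_of_isPlus hP hV hp
      simp only [Nat.card_zmod, pow_succ, Nat.cast_ofNat] at this h4
      omega
    · have := sing_of_not_isPlus hP hV hp
      simp only [Nat.card_zmod, pow_succ, Nat.cast_ofNat] at this h4
      omega
  · let t : V →ₗ[ZMod 2] V := LinearMap.id + ((polarBilin P).flip w).smulRight w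
    have ht : ∀ v, t v = v + polar P v w • w := fun v => rfl
    refine ⟨LinearEquiv.ofInvolutive t fun v => ?_, fun v => ?_⟩
    · rw [ht, ht, polar_add_left, polar_smul_left, polar_self', h2, zero_mul, smul_zero, add_zero,
        add_assoc, ← add_smul, ← two_mul, h2, zero_mul, zero_smul, add_zero]
    · change _ = P (t v)
      rw [ht, Q_add, QuadraticMap.map_smul, hw, polar_smul_right, smul_eq_mul, smul_eq_mul,
        zmod_two_mul_self, mul_zero, add_zero]

/-- The forms polarising like `P` are the translates of `P`. -/
noncomputable def binQuadEquiv (hP : (polarBilin P).Nondegenerate) :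
    V ≃ {q : V → ZMod 2 // ∀ u v, q (u + v) = q u + q v + polar P u v} :=
  Equiv.ofBijective (fun w => ⟨fun v => P v + polar P v w, translate_polar P w⟩) <| by
    refine ⟨fun w w' h => ?_, fun ⟨q, hq⟩ => ?_⟩
    · refine sub_eq_zero.mp (hP.2 _ fun v => ?_)
      have := congrFun (congrArg Subtype.val h) v
      simp only [add_right_inj] at this
      rw [map_sub, polarBilin_apply_apply, polarBilin_apply_apply, this, sub_self]
    · let φ : V →+ ZMod 2 := AddMonoidHom.mk' (fun v => q v - P v) fun u v => by
        simp only [hq, Q_add]; ring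
      obtain ⟨w, hw⟩ := (LinearMap.BilinForm.toDual (polarBilin P) hP).surjective (φ.toZModLinearMap 2)
      refine ⟨w, Subtype.ext (funext fun v => ?_)⟩
      have : polar P w v = q v - P v := DFunLike.congr_fun hw v
      simp only [polar_comm P v w, this, add_sub_cancel]

end Cfsg.Lib.Known
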