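/-
Central extensions defined by a cocycle, and the corestriction of a cocycle from a point
stabilizer.
-/
import Cfsg.Agent.Solv.Schur
import Mathlib.Algebra.Group.MinimalAxioms
import Mathlib.Tactic.Abel

set_option autoImplicit false

namespace Cfsg.Lib.Known.Cor

open Cfsg
open scoped commutatorElement

/-- A normalized 2-cocycle with values in a trivial module. -/
structure Cocycle (G A : Type*) [Group G] [AddCommGroup A] where
  /-- the function -/
  f : G → G → A
  one : f 1 1 = 0
  assoc : ∀ x y z, f x y + f (x * y) z = f y z + f x (y * z)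

variable {G A : Type*} [Group G] [AddCommGroup A]

namespace Cocycle

variable (c : Cocycle G A)

@[simp] theorem one_left (g : G) : c.f 1 g = 0 := by
  have := c.assoc 1 1 g
  simpa [c.one] using this.symm

@[simp] theorem one_right (g : G) : c.f g 1 = 0 := by
  have := c.assoc g 1 1
  simpa [c.one] using this

/-- The extension defined by a cocycle. -/
@[ext] structure Ext (c : Cocycle G A) where
  /-- the central component -/
  a : A
  /-- the image in `G` -/
  g : G

instance extMul : Mul c.Ext := ⟨fun x y => ⟨x.a + y.a + c.f x.g y.g, x.g * y.g⟩⟩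
instance extOne : One c.Ext := ⟨⟨0, 1⟩⟩
instance extInv : Inv c.Ext := ⟨fun x => ⟨-x.a - c.f x.g⁻¹ x.g, x.g⁻¹⟩⟩

@[simp] theorem mul_a (x y : c.Ext) : (x * y).a = x.a + y.a + c.f x.g y.g := rfl
@[simp] theorem mul_g (x y : c.Ext) : (x * y).g = x.g * y.g := rfl
@[simp] theorem one_a : (1 : c.Ext).a = 0 := rfl
@[simp] theorem one_g : (1 : c.Ext).g = 1 := rfl
@[simp] theorem inv_a (x : c.Ext) : x⁻¹.a = -x.a - c.f x.g⁻¹ x.g := rfl
@[simp] theorem inv_g (x : c.Ext) : x⁻¹.g = x.g⁻¹ := rfl

instance extGroup : Group c.Ext := Group.ofLeftAxioms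
  (fun x y z => by
    ext
    · simp only [mul_a, mul_g]
      rw [add_right_comm _ _ z.a, add_assoc _ (c.f _ _), c.assoc]
      abel
    · simp [mul_assoc])
  (fun x => by ext <;> simp)
  (fun x => by
    ext
    · simp only [mul_a, inv_a, inv_g, one_a]
      abel
    · simp)

instance extFinite [Finite G] [Finite A] : Finite c.Ext :=
  Finite.of_injective (fun x : c.Ext => (x.a, x.g)) fun _ _ h =>
    Ext.ext (congrArg Prod.fst h) (congrArg Prod.snd h)

/-- The projection of the extension. -/
def proj : c.Ext →* G := MonoidHom.mk' Ext.g fun _ _ => rfl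

theorem proj_surjective : Function.Surjective c.proj := fun g => ⟨⟨0, g⟩, rfl⟩

theorem ker_le_center : c.proj.ker ≤ Subgroup.center c.Ext := by
  intro x hx
  have h : x.g = 1 := hx
  rw [Subgroup.mem_center_iff]
  intro y
  ext <;> simp [h, add_comm]

theorem commutator_eq {g h : G} (hc : Commute g h) :
    ⁅(⟨0, g⟩ : c.Ext), (⟨0, h⟩ : c.Ext)⁆ = ⟨c.f g h - c.f h g, 1⟩ := by
  rw [commutatorElement_def, mul_inv_eq_iff_eq_mul, mul_inv_eq_iff_eq_mul]
  ext <;> simp [hc.eq]

/-- A lower bound for the Schur multiplier. -/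
theorem card_le_of_commute [Finite G] {B : Type*} [CommGroup B] (hB : HasSchurMultiplier G B)
    (S : Set A) (hS : ∀ a ∈ S, ∃ g h, Commute g h ∧ a = c.f g h - c.f h g) :
    Nat.card S ≤ Nat.card B := by
  obtain ⟨ρ, hρ⟩ := Solv.exists_surjective_of_hasSchurMultiplier hB c.proj c.proj_surjective
    c.ker_le_center
  have := Solv.finite_of_hasSchurMultiplier hB
  have := Finite.of_surjective ρ hρ
  refine le_trans ?_ (Nat.card_le_card_of_surjective ρ hρ)
  refine Nat.card_le_card_of_injective (fun a => ⟨⟨a.1, 1⟩, rfl, ?_⟩) fun a b h =>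
    Subtype.ext (congrArg (fun x => x.1.a) h)
  obtain ⟨g, h, hc, ha⟩ := hS a.1 a.2
  rw [ha, ← c.commutator_eq hc]
  exact Subgroup.commutator_mem_commutator (Subgroup.mem_top _) (Subgroup.mem_top _)

end Cocycle

section Cores

variable {X : Type*} [MulAction G X] {x₀ : X} {s : X → G} (hs : ∀ x, s x • x₀ = x)

/-- the element of the stabilizer attached to `g` and `x` -/
def bb (g : G) (x : X) : MulAction.stabilizer G x₀ :=
  ⟨(s (g • x))⁻¹ * g * s x, by
    rw [MulAction.mem_stabilizer_iff, mul_smul, mul_smul, hs, inv_smul_eq_iff, hs]⟩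

theorem bb_mul (g h : G) (x : X) : bb hs (g * h) x = bb hs g (h • x) * bb hs h x :=
  Subtype.ext (by simp [bb, mul_smul, mul_assoc])

theorem bb_one (x : X) : bb hs 1 x = 1 := Subtype.ext (by simp [bb])

/-- The corestriction of a cocycle. -/
def cor [Fintype X] (c : Cocycle (MulAction.stabilizer G x₀) A) : Cocycle G A where
  f g h := ∑ x, c.f (bb hs g (h • x)) (bb hs h x)
  one := by simp [bb_one]
  assoc x y z := by
    rw [← Fintype.sum_equiv (MulAction.toPerm z)
      (fun p => c.f (bb hs x (y • z • p)) (bb hs y (z • p))) _ fun _ => rfl,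
      ← Finset.sum_add_distrib, ← Finset.sum_add_distrib]
    refine Finset.sum_congr rfl fun p _ => ?_
    rw [bb_mul, bb_mul, mul_smul]
    exact c.assoc _ _ _

theorem cor_apply [Fintype X] (c : Cocycle (MulAction.stabilizer G x₀) A) (h0 : s x₀ = 1)
    (g h : MulAction.stabilizer G x₀) (hh : ∀ x, x ≠ x₀ → s ((h : G) • x) = h * s x) :
    (cor hs c).f g h = c.f g h := by
  have h1 : ∀ k : MulAction.stabilizer G x₀, bb hs k x₀ = k := fun k =>
    Subtype.ext (by simp [bb, MulAction.mem_stabilizer_iff.mp k.2, h0])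
  change ∑ x, _ = _
  rw [Finset.sum_eq_single x₀, MulAction.mem_stabilizer_iff.mp h.2, h1, h1]
  · intro x _ hx
    have : bb hs h x = 1 := Subtype.ext (by simp [bb, hh x hx])
    rw [this, c.one_right]
  · simp

end Cores

end Cfsg.Lib.Known.Cor
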