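import Cfsg.Agent.Known.Cov2SU4

/-!
# Artin–Schreier structures in characteristic three, and `PSU₃(3ᵃ)`
-/

set_option autoImplicit false

namespace Cfsg.Lib.Known

open Module Polynomial Cfsg.Lib.Class Cfsg.Lib.Class.Form

universe u v

variable {F : Type u} {V : Type v} [Field F] [AddCommGroup V] [Module F V] {σ : F →+* F}

section Field

variable [CharP F 3]

theorem three_eq_zero' : (3 : F) = 0 := by simpa using CharP.cast_eq_zero F 3

theorem add_cube' (x y : F) : (x + y) ^ 3 = x ^ 3 + y ^ 3 := by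
  linear_combination (x ^ 2 * y + x * y ^ 2) * three_eq_zero' (F := F)

theorem exists_pow_sub_eq_cube_sub (k : ℕ) (b : F) : ∃ x : F, b ^ 3 ^ k - b = x ^ 3 - x := by
  induction k with
  | zero => exact ⟨0, by simp⟩
  | succ k ih =>
    obtain ⟨x, hx⟩ := ih
    exact ⟨b ^ 3 ^ k + x, by rw [add_cube', pow_succ, pow_mul]; linear_combination hx⟩

theorem exists_fixed_not_cube_sub [Finite F] {k : ℕ} (hσ : ∀ x, σ x = x ^ 3 ^ k)
    (hσ2 : ∀ a, σ (σ a) = a) : ∃ a : F, σ a = a ∧ ∀ x : F, x ^ 3 - x ≠ a := by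
  obtain ⟨b, hb⟩ : ∃ b : F, ∀ x : F, x ^ 3 - x ≠ b := by
    by_contra h
    push Not at h
    have := (Finite.injective_iff_surjective (f := fun x : F => x ^ 3 - x)).2 h
      (a₁ := 0) (a₂ := 1) (by simp)
    exact zero_ne_one this
  refine ⟨b + σ b, by rw [map_add, hσ2, add_comm], fun x hx => ?_⟩
  obtain ⟨y, hy⟩ := exists_pow_sub_eq_cube_sub k b
  rw [← hσ] at hy
  refine hb (y + -x) ?_
  rw [add_cube']
  linear_combination -hx - hy - b * three_eq_zero' (F := F)

theorem exists_cube_eq [Finite F] (a : F) : ∃ s : F, s ^ 3 = a :=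
  haveI : Fact (Nat.Prime 3) := ⟨Nat.prime_three⟩
  (bijective_frobenius F 3).2 a

theorem cube_inj {s t : F} (h : s ^ 3 = t ^ 3) : s = t :=
  haveI : Fact (Nat.Prime 3) := ⟨Nat.prime_three⟩
  frobenius_inj F 3 h

theorem three_eq_zero_End : (3 : End F V) = 0 := by
  have : (3 : End F V) = algebraMap F _ 3 := (map_ofNat _ 3).symm
  rw [this, three_eq_zero', map_zero]

end Field

/-- The Artin–Schreier polynomial. -/
noncomputable def asPoly (a : F) : F[X] := X ^ 3 - X - C a

theorem natDegree_asPoly (a : F) : (asPoly a).natDegree = 3 := by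
  unfold asPoly; compute_degree!

theorem monic_asPoly (a : F) : (asPoly a).Monic := by
  unfold asPoly; monicity!

theorem irreducible_asPoly {a : F} (ha : ∀ x : F, x ^ 3 - x ≠ a) : Irreducible (asPoly a) :=
  irreducible_of_degree_le_three_of_not_isRoot (by simp [natDegree_asPoly]) fun x hx =>
    ha x (by simpa [asPoly, sub_eq_zero] using hx)

theorem aeval_asPoly_eq_zero {A : Type*} [Ring A] [Algebra F A] {a : F} {J : A} :
    aeval J (asPoly a) = 0 ↔ J ^ 3 - J = algebraMap F A a := by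
  simp [asPoly, sub_eq_zero]

section Deriv

variable [FiniteDimensional F V] [CharP F 3]

theorem exists_comm_eq_one {n : End F V} (h3 : n ^ 3 = 0)
    (hr : finrank F V = 3 * finrank F (LinearMap.range (n ^ 2))) :
    ∃ S : End F V, S * n - n * S = 1 := by
  obtain ⟨W, hW⟩ := (LinearMap.ker (n ^ 2)).exists_isCompl
  have hWr : finrank F W = finrank F (LinearMap.range (n ^ 2)) := by
    have h1 := Submodule.finrank_add_eq_of_isCompl hW
    have h2 := (n ^ 2).finrank_range_add_finrank_ker
    omega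
  have h3' : ∀ x, n (n (n x)) = 0 := fun x => by
    simpa [pow_succ] using LinearMap.congr_fun h3 x
  have hW0 : ∀ w : W, n (n w) = 0 → w = 0 := fun w hw => Subtype.ext <|
    (Submodule.disjoint_def.1 hW.disjoint) w (by simpa [pow_succ] using hw) w.2
  let Φ : (W × W × W) →ₗ[F] V := W.subtype ∘ₗ LinearMap.fst _ _ _ +
    n ∘ₗ W.subtype ∘ₗ LinearMap.fst _ _ _ ∘ₗ LinearMap.snd _ _ _ +
    n ∘ₗ n ∘ₗ W.subtype ∘ₗ LinearMap.snd _ _ _ ∘ₗ LinearMap.snd _ _ _
  have hΦ : ∀ a b c : W, Φ (a, b, c) = a + n b + n (n c) := fun _ _ _ => rfl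
  have hinj : Function.Injective Φ := (injective_iff_map_eq_zero _).2 fun ⟨a, b, c⟩ h => by
    rw [hΦ] at h
    have ha : a = 0 := hW0 a (by simpa [h3'] using congrArg (fun x => n (n x)) h)
    subst ha
    have hb : b = 0 := hW0 b (by simpa [h3'] using congrArg n h)
    subst hb
    have hc : c = 0 := hW0 c (by simpa using h)
    subst hc
    rfl
  let e : (W × W × W) ≃ₗ[F] V := LinearEquiv.ofInjectiveOfFinrankEq Φ hinj (by
    simp only [Module.finrank_prod]; omega)
  have he : ∀ x, e x = Φ x := fun _ => rfl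
  let S0 : End F (W × W × W) := (LinearMap.fst _ _ _ ∘ₗ LinearMap.snd _ _ _).prod
    (((2 : F) • (LinearMap.snd _ _ _ ∘ₗ LinearMap.snd _ _ _)).prod 0)
  have hS0 : ∀ a b c : W, S0 (a, b, c) = (b, (2 : F) • c, 0) := fun _ _ _ => rfl
  refine ⟨e.conj S0, LinearMap.ext fun v => ?_⟩
  obtain ⟨⟨a, b, c⟩, rfl⟩ := e.surjective v
  have hn : n (e (a, b, c)) = e (0, a, b) := by simp [he, hΦ, h3']
  simp only [LinearMap.sub_apply, End.mul_apply, hn, LinearEquiv.conj_apply_apply,
    LinearEquiv.symm_apply_apply, hS0, End.one_apply]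
  simp only [he, hΦ, Submodule.coe_smul, map_smul, map_add, Submodule.coe_zero, map_zero]
  have : (3 : F) • n (n c) = 0 := by rw [three_eq_zero', zero_smul]
  linear_combination (norm := module) -this

omit [CharP F 3] in
theorem exists_trace_mul_eq (φ : Dual F (End F V)) :
    ∃ c : End F V, ∀ x, LinearMap.trace F V (c * x) = φ x := by
  let T : LinearMap.BilinForm F (End F V) := LinearMap.mk₂ F
    (fun c x => LinearMap.trace F V (c * x)) (fun _ _ _ => by rw [add_mul, map_add])
    (fun _ _ _ => by rw [smul_mul_assoc, map_smul]) (fun _ _ _ => by rw [mul_add, map_add])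
    (fun _ _ _ => by rw [mul_smul_comm, map_smul])
  have hs : ∀ c x, T c x = T x c := fun c x => LinearMap.trace_mul_comm F c x
  have hsep : ∀ c, (∀ x, T c x = 0) → c = 0 := fun c hc => LinearMap.ext fun v =>
    (Module.forall_dual_apply_eq_zero_iff F _).1 fun f => by
      have h1 : c * f.smulRight v = f.smulRight (c v) := LinearMap.ext fun x => by simp
      have := hc (f.smulRight v)
      change LinearMap.trace F V (c * _) = 0 at this
      rwa [h1, LinearMap.trace_smulRight] at this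
  exact (hform_of_isSymm (B := T) ⟨hsep, fun c hc => hsep c fun x => by rw [hs, hc]⟩
    hs).exists_eq_dual φ

theorem exists_comm_eq_self {g n : End F V} (h3 : n ^ 3 = 0)
    (hr : finrank F V = 3 * finrank F (LinearMap.range (n ^ 2)))
    (hc : ∀ c, Commute c g → Commute c n) : ∃ D : End F V, D * g - g * D = g := by
  obtain ⟨S, hS⟩ := exists_comm_eq_one h3 hr
  by_contra hcon
  have hg : g ∉ LinearMap.range (LinearMap.mulRight F g - LinearMap.mulLeft F g) :=
    fun ⟨D, hD⟩ => hcon ⟨D, by simpa using hD⟩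
  obtain ⟨φ, hφ, hφ'⟩ := Submodule.exists_dual_map_eq_bot_of_notMem hg inferInstance
  obtain ⟨c, hc'⟩ := exists_trace_mul_eq φ
  have h1 : ∀ x, LinearMap.trace F V ((g * c - c * g) * x) = 0 := fun x => by
    have : φ (x * g - g * x) = 0 := by
      rw [← Submodule.mem_bot F, ← hφ']
      exact ⟨_, ⟨x, by simp⟩, rfl⟩
    rw [← hc', mul_sub, map_sub, ← mul_assoc, LinearMap.trace_mul_comm F (c * x) g] at this
    rw [sub_mul, map_sub, mul_assoc, mul_assoc, this]
  have h2 : g * c - c * g = 0 := LinearMap.ext fun v =>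
    (Module.forall_dual_apply_eq_zero_iff F _).1 fun f => by
      have h3 : (g * c - c * g) * f.smulRight v = f.smulRight ((g * c - c * g) v) :=
        LinearMap.ext fun x => by simp only [End.mul_apply, LinearMap.smulRight_apply, map_smul]
      have := h1 (f.smulRight v)
      rwa [h3, LinearMap.trace_smulRight] at this
  have h4 : Commute (c * g) n :=
    hc _ (Commute.mul_left (sub_eq_zero.1 h2).symm (Commute.refl g))
  apply hφ
  rw [← hc', ← mul_one (c * g), ← hS, mul_sub, map_sub, ← mul_assoc (c * g) S n,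
    LinearMap.trace_mul_comm F _ n, ← mul_assoc, ← mul_assoc (c * g), h4.eq, sub_self]

end Deriv

section AS

variable [CharP F 3]

theorem add_cube_of_comm {A : Type*} [Ring A] (h3 : (3 : A) = 0) {J y : A}
    (h : (J * y - y * J) * y = y * (J * y - y * J)) :
    (J + y) ^ 3 = J ^ 3 + y ^ 3 + (J * (J * y - y * J) - (J * y - y * J) * J) := by
  have : (J + y) ^ 3 = J ^ 3 + y ^ 3 + (J * (J * y - y * J) - (J * y - y * J) * J) +
      ((J * y - y * J) * y - y * (J * y - y * J)) + 3 * (J * y * J + y * J * y) := by noncomm_ring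
  rw [this, h, h3]; simp

theorem cube_sub_scalar [Nontrivial V] {J g g' : End F V} (hgg : g' * g = 1)
    (hJ : J * g = g * (J + 1)) {p : F[X]} (hp : p ≠ 0) (hd : p.natDegree ≤ 3)
    (h0 : aeval J p = 0) : ∃ n : F, J ^ 3 - J = algebraMap F _ n := by
  have h3 := three_eq_zero_End (F := F) (V := V)
  have shift : ∀ c0 c1 c2 c3 : F, c0 • 1 + c1 • J + c2 • J ^ 2 + c3 • J ^ 3 = 0 →
      (c1 + c2 + c3) • 1 + (2 * c2) • J + (0 : F) • J ^ 2 + (0 : F) • J ^ 3 = 0 := by
    intro c0 c1 c2 c3 h
    have e2 : J ^ 2 * g = g * (J + 1) ^ 2 := SemiconjBy.pow_right (a := g) hJ.symm 2 |>.symm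
    have e3 : J ^ 3 * g = g * (J + 1) ^ 3 := SemiconjBy.pow_right (a := g) hJ.symm 3 |>.symm
    have h1 : g' * ((c0 • 1 + c1 • J + c2 • J ^ 2 + c3 • J ^ 3) * g) =
        c0 • 1 + c1 • (J + 1) + c2 • (J + 1) ^ 2 + c3 • (J + 1) ^ 3 := by
      simp only [add_mul, smul_mul_assoc, hJ, e2, e3, mul_add g', mul_smul_comm, ← mul_assoc, hgg,
        one_mul]
    have f2 : (J + 1) ^ 2 = J ^ 2 + (2 : F) • J + 1 := by rw [two_smul]; noncomm_ring
    have f3 : (J + 1) ^ 3 = J ^ 3 + 1 := by
      have : (J + 1) ^ 3 = J ^ 3 + 1 + 3 * (J ^ 2 + J) := by noncomm_ring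
      rw [this, h3, zero_mul, add_zero]
    rw [h, zero_mul, mul_zero, f2, f3] at h1
    linear_combination (norm := module) -h1 - h
  rw [aeval_eq_sum_range' (n := 4) (by omega)] at h0
  simp only [Finset.sum_range_succ, Finset.sum_range_zero, zero_add, pow_zero, pow_one] at h0
  have s1 := shift _ _ _ _ h0
  have s2 := shift _ _ _ _ s1
  have inj : ∀ c : F, c • (1 : End F V) = 0 → c = 0 := fun c hc =>
    (smul_eq_zero.1 hc).resolve_right one_ne_zero
  have two : (2 : F) ≠ 0 := fun h => one_ne_zero (by linear_combination three_eq_zero' (F := F) - h)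
  have c2 : p.coeff 2 = 0 := (mul_eq_zero.1 (inj _ (by simpa using s2))).resolve_left two
  have c1 : p.coeff 1 = -p.coeff 3 := by
    have := inj _ (by simpa [c2] using s1)
    linear_combination this
  have c3 : p.coeff 3 ≠ 0 := fun h => hp <| by
    have c0 : p.coeff 0 = 0 := inj _ (by simpa [c1, c2, h] using h0)
    ext i
    rcases i with _ | _ | _ | _ | i
    · simpa using c0
    · simpa [h] using c1
    · simpa using c2
    · simpa using h
    · exact coeff_eq_zero_of_natDegree_lt (by omega)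
  refine ⟨-p.coeff 0 / p.coeff 3, ?_⟩
  rw [c1, c2] at h0
  refine smul_right_injective _ c3 ?_
  simp only [Algebra.algebraMap_eq_smul_one, smul_smul, mul_div_cancel₀ _ c3]
  linear_combination (norm := module) h0

variable [FiniteDimensional F V] {B : V →ₛₗ[σ] V →ₗ[F] F} {ε : F}

theorem HForm.exists_as [Finite F] [Nontrivial V] (h : HForm B ε) {g D : End F V}
    (hg : ∀ u v, B (g u) (g v) = B u v) (hD : D * g - g * D = g) {T : F}
    (hT : g ^ 3 + h.adj g ^ 3 = algebraMap F _ T)
    (hp : ∀ J : End F V, h.adj J = J → ∃ p : F[X], p ≠ 0 ∧ p.natDegree ≤ 3 ∧ aeval J p = 0)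
    {a : F} (ha : σ a = a) :
    ∃ J : End F V, h.adj J = J ∧ J ^ 3 - J = algebraMap F _ a ∧ J * g = g * (J + 1) := by
  have h3 := three_eq_zero_End (F := F) (V := V)
  have hgg := h.mul_adj_of_isometry hg
  set g' := h.adj g with hg'
  have hgg' : g' * g = 1 := mul_eq_one_comm.1 hgg
  have hD' : g' * h.adj D - h.adj D * g' = g' := by
    rw [hg', ← h.adj_mul, ← h.adj_mul, ← h.adj_sub, hD]
  have hD1 : D * g = g * (D + 1) := by
    rw [mul_add, mul_one]; linear_combination (norm := abel) hD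
  have hD2 : h.adj D * g = g * (h.adj D + 1) := by
    have := congrArg (fun x => g * x * g) hD'
    simp only [mul_sub, sub_mul, ← mul_assoc, hgg, one_mul, mul_assoc _ g' g, hgg', mul_one] at this
    rw [mul_add, mul_one]; linear_combination (norm := abel) this
  set J := -(D + h.adj D) with hJdef
  have hJ : h.adj J = J := by rw [hJdef, h.adj_neg, h.adj_add, h.adj_adj, add_comm]
  have hJg : J * g = g * (J + 1) := by
    have : g * (J + 1) = -(g * (D + 1) + g * (h.adj D + 1)) + g * 3 := by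
      rw [hJdef]; noncomm_ring
    rw [this, h3, mul_zero, add_zero, ← hD1, ← hD2, hJdef, neg_mul, add_mul]
  obtain ⟨p, hp0, hpd, hpJ⟩ := hp J hJ
  obtain ⟨n, hn⟩ := cube_sub_scalar hgg' hJg hp0 hpd hpJ
  have inj := (algebraMap F (End F V)).injective
  have hnσ : σ n = n := inj (by
    rw [← h.adj_algebraMap, ← hn, h.adj_sub, h.adj_pow, hJ])
  have c1 : J * g - g * J = g := by rw [hJg, mul_add, mul_one]; abel
  have c2 : J * g' - g' * J = -g' := by
    have := congrArg (fun x => g' * x * g') c1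
    simp only [mul_sub, sub_mul, ← mul_assoc, hgg', one_mul, mul_assoc _ g g', hgg, mul_one] at this
    linear_combination (norm := abel) -this
  have cg : Commute g g' := by rw [Commute, SemiconjBy, hgg, hgg']
  -- a suitable correction term
  obtain ⟨y, T', hT', hy, hyT, hyg, hy1, hy2⟩ : ∃ (y : End F V) (T' : F), T' ≠ 0 ∧ h.adj y = y ∧
      y ^ 3 = algebraMap F _ T' ∧ Commute y g ∧ (J * y - y * J) * y = y * (J * y - y * J) ∧
      J * (J * y - y * J) - (J * y - y * J) * J = y := by
    have cube : ∀ x x' : End F V, Commute x x' → (x + x') ^ 3 = x ^ 3 + x' ^ 3 := fun x x' hx => by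
      have := add_cube_of_comm h3 (J := x) (y := x') (by simp [hx.eq])
      simpa [hx.eq] using this
    by_cases hT0 : T = 0
    · have d1 : J * g ^ 2 - g ^ 2 * J = -g ^ 2 := by
        have : J * g ^ 2 - g ^ 2 * J = (J * g - g * J) * g + g * (J * g - g * J) := by noncomm_ring
        rw [this, c1]
        have : g * g + g * g = -g ^ 2 + 3 * g ^ 2 := by noncomm_ring
        rw [this, h3, zero_mul, add_zero]
      have d2 : J * g' ^ 2 - g' ^ 2 * J = g' ^ 2 := by
        have : J * g' ^ 2 - g' ^ 2 * J = (J * g' - g' * J) * g' + g' * (J * g' - g' * J) := by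
          noncomm_ring
        rw [this, c2]
        have : -g' * g' + g' * -g' = g' ^ 2 - 3 * g' ^ 2 := by noncomm_ring
        rw [this, h3, zero_mul, sub_zero]
      have d3 : J * (g ^ 2 + g' ^ 2) - (g ^ 2 + g' ^ 2) * J = -g ^ 2 + g' ^ 2 := by
        rw [← d1]; conv_rhs => rw [← d2]
        noncomm_ring
      have cg2 : Commute (g ^ 2) (g' ^ 2) := cg.pow_pow 2 2
      refine ⟨g ^ 2 + g' ^ 2, 1, one_ne_zero, ?_, ?_, ?_, ?_, ?_⟩
      · rw [h.adj_add, h.adj_pow, h.adj_pow, hg', h.adj_adj, add_comm]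
      · have e1 : g ^ 3 * g' ^ 3 = 1 := by rw [← cg.mul_pow, hgg, one_pow]
        have e2 : g' ^ 3 * g ^ 3 = 1 := by rw [← cg.symm.mul_pow, hgg', one_pow]
        have e3 : (g ^ 3 + g' ^ 3) * (g ^ 3 + g' ^ 3) = (g ^ 2) ^ 3 + (g' ^ 2) ^ 3 +
            (g ^ 3 * g' ^ 3 + g' ^ 3 * g ^ 3) := by noncomm_ring
        rw [hT, hT0, map_zero, mul_zero, e1, e2] at e3
        rw [cube _ _ cg2, map_one, ← sub_eq_zero]
        have : (g ^ 2) ^ 3 + (g' ^ 2) ^ 3 - 1 = (g ^ 2) ^ 3 + (g' ^ 2) ^ 3 + (1 + 1) - 3 := by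
          rw [show (3 : End F V) = 1 + 1 + 1 by norm_num]; abel
        rw [this, ← e3, h3, sub_zero]
      · exact ((Commute.refl g).pow_left 2).add_left (cg.symm.pow_left 2)
      · rw [d3]
        exact (((Commute.refl _).add_right cg2).neg_left.add_left
          (cg2.symm.add_right (Commute.refl _))).eq
      · rw [d3]
        have : J * (-g ^ 2 + g' ^ 2) - (-g ^ 2 + g' ^ 2) * J =
            -(J * g ^ 2 - g ^ 2 * J) + (J * g' ^ 2 - g' ^ 2 * J) := by noncomm_ring
        rw [this, d1, d2, neg_neg]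
    · have d3 : J * (g + g') - (g + g') * J = g - g' := by
        have : J * (g + g') - (g + g') * J = (J * g - g * J) + (J * g' - g' * J) := by noncomm_ring
        rw [this, c1, c2, sub_eq_add_neg]
      refine ⟨g + g', T, hT0, ?_, ?_, ?_, ?_, ?_⟩
      · rw [h.adj_add, hg', h.adj_adj, add_comm]
      · rw [cube _ _ cg, hT]
      · exact (Commute.refl g).add_left cg.symm
      · rw [d3]
        exact (((Commute.refl _).add_right cg).sub_left (cg.symm.add_right (Commute.refl _))).eq
      · rw [d3]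
        have : J * (g - g') - (g - g') * J = (J * g - g * J) - (J * g' - g' * J) := by noncomm_ring
        rw [this, c1, c2, sub_neg_eq_add]
  have hTσ : σ T' = T' := inj (by rw [← h.adj_algebraMap, ← hyT, h.adj_pow, hy])
  obtain ⟨s, hs⟩ := exists_cube_eq ((a - n) / T')
  have hsσ : σ s = s := cube_inj (by rw [← map_pow, hs, map_div₀, map_sub, ha, hnσ, hTσ])
  refine ⟨J + s • y, by rw [h.adj_add, h.adj_smul, hJ, hy, hsσ], ?_, ?_⟩
  · have e : J * s • y - s • y * J = s • (J * y - y * J) := by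
      rw [mul_smul_comm, smul_mul_assoc, smul_sub]
    rw [add_cube_of_comm h3 (by
      rw [e, smul_mul_smul_comm, smul_mul_smul_comm, hy1]), e, mul_smul_comm, smul_mul_assoc,
      ← smul_sub, hy2, _root_.smul_pow, hyT, hs, sub_eq_iff_eq_add.1 hn]
    simp only [Algebra.algebraMap_eq_smul_one, smul_smul, div_mul_cancel₀ _ hT']
    module
  · rw [add_mul, hJg, smul_mul_assoc, hyg.eq, mul_add, mul_add, mul_add, mul_smul_comm]; abel

end AS

end Cfsg.Lib.Known
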