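import Cfsg.Agent.Known.Cov2AS

/-!
# `PSU₃(3ᵃ)` is covered by two classes of subgroups
-/

set_option autoImplicit false

namespace Cfsg.Lib.Known

open Module Polynomial Cfsg.Lib.Class Cfsg.Lib.Class.Form

universe u v

variable {F : Type u} {V : Type v} [Field F] [AddCommGroup V] [Module F V] {σ : F →+* F}
  {B : V →ₛₗ[σ] V →ₗ[F] F} {ε : F}

/-- The isometries normalising `J` up to a scalar shift. -/
def shiftStab (B : V →ₛₗ[σ] V →ₗ[F] F) (J : End F V) : Subgroup (isomGroup B) where
  carrier := {g | ∃ i : F, ∀ v, J ((g : V ≃ₗ[F] V) v) = (g : V ≃ₗ[F] V) (J v) +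
    i • (g : V ≃ₗ[F] V) v}
  one_mem' := ⟨0, fun v => by simp⟩
  mul_mem' := by
    rintro a b ⟨i, hi⟩ ⟨j, hj⟩
    refine ⟨j + i, fun v => ?_⟩
    simp only [isom_mul_apply]
    rw [hi, hj, map_add, map_smul, add_smul, add_assoc]
  inv_mem' := by
    rintro a ⟨i, hi⟩
    refine ⟨-i, fun v => (a : V ≃ₗ[F] V).injective ?_⟩
    have := hi (((a⁻¹ : isomGroup B) : V ≃ₗ[F] V) v)
    rw [isom_apply_inv] at this
    rw [map_add, map_smul, isom_apply_inv, isom_apply_inv, this]; module

theorem conj_mem_shiftStab {t g : isomGroup B} {J J' : End F V}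
    (ht : ∀ v, (t : V ≃ₗ[F] V) (J v) = J' ((t : V ≃ₗ[F] V) v)) (hg : g ∈ shiftStab B J') :
    t⁻¹ * g * t⁻¹⁻¹ ∈ shiftStab B J := by
  obtain ⟨i, hi⟩ := hg
  refine ⟨i, fun v => (t : V ≃ₗ[F] V).injective ?_⟩
  simp only [inv_inv, isom_mul_apply, map_add, map_smul, isom_apply_inv, ht, hi]

theorem mem_shiftStab_of_smul {g : isomGroup B} {a : F} (hg : ∀ v, (g : V ≃ₗ[F] V) v = a • v)
    (J : End F V) : g ∈ shiftStab B J := ⟨0, fun v => by simp [hg]⟩

theorem mem_shiftStab_of_mul {g : isomGroup B} {J : End F V} {i : F}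
    (h : J * ((g : V ≃ₗ[F] V) : End F V) = ((g : V ≃ₗ[F] V) : End F V) * (J + i • 1)) :
    g ∈ shiftStab B J := ⟨i, fun v => by simpa using LinearMap.congr_fun h v⟩

theorem eq_zero_of_as_eigen {J : End F V} {a : F} (hJ : J ^ 3 - J = algebraMap F _ a)
    (ha : ∀ x : F, x ^ 3 - x ≠ a) {v : V} {c : F} (hv : J v = c • v) : v = 0 := by
  have h1 := aeval_apply_of_eigen hv (asPoly a)
  rw [aeval_asPoly_eq_zero.2 hJ, LinearMap.zero_apply, eq_comm, smul_eq_zero] at h1
  exact h1.resolve_left fun h => ha c (by simpa [asPoly, sub_eq_zero] using h)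

theorem not_mem_shiftStab [FiniteDimensional F V] (h3 : 3 ≤ finrank F V) {J : End F V} {a : F}
    (hJ : J ^ 3 - J = algebraMap F _ a) (ha : ∀ x : F, x ^ 3 - x ≠ a) {t : isomGroup B} {v : V}
    (hv : v ≠ 0) {φ : Dual F V} {x : V} (hx : φ x ≠ 0)
    (ht : ∀ y, (t : V ≃ₗ[F] V) y = y + φ y • v) : t ∉ shiftStab B J := by
  rintro ⟨i, hi⟩
  have key : ∀ y, φ y • J v = φ (J y) • v + i • y + (i * φ y) • v := fun y => by
    have := hi y
    simp only [ht, map_add, map_smul] at this
    linear_combination (norm := module) this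
  have hi0 : i = 0 := by
    by_contra hi0
    have : (⊤ : Submodule F V) ≤ Submodule.span F {v, J v} := fun y _ =>
      Submodule.mem_span_pair.2 ⟨i⁻¹ * (-φ (J y) - i * φ y), i⁻¹ * φ y, by
        rw [mul_smul, mul_smul, ← smul_add, inv_smul_eq_iff₀ hi0]
        linear_combination (norm := module) key y⟩
    have h1 := Submodule.finrank_mono this
    have h2 := finrank_range_le_card (R := F) ![v, J v]
    rw [Set.finrank, Matrix.range_cons_cons_empty, Fintype.card_fin] at h2
    rw [finrank_top] at h1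
    omega
  refine hv (eq_zero_of_as_eigen hJ ha (c := (φ x)⁻¹ * φ (J x)) ?_)
  rw [mul_smul, eq_inv_smul_iff₀ hx, key, hi0]; simp

variable [FiniteDimensional F V]

/-- Self-adjoint endomorphisms of a Hermitian space which are similar are conjugate under the
unitary group. -/
theorem exists_isom_of_selfAdj [Finite F] (hσ : σ ≠ RingHom.id F) (h : HForm B ε) {J J' : End F V}
    (hJ : h.adj J = J) (hJ' : h.adj J' = J') (hs : Sim J J') :
    ∃ t : isomGroup B, ∀ v, (t : V ≃ₗ[F] V) (J v) = J' ((t : V ≃ₗ[F] V) v) := by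
  obtain ⟨x, hx⟩ := hs
  obtain ⟨θ, hθ⟩ : ∃ θ : F, θ - σ θ ≠ 0 := by
    by_contra hc
    push Not at hc
    exact hσ (RingHom.ext fun a => (sub_eq_zero.1 (hc a)).symm)
  obtain ⟨c, hc1, hc2⟩ := h.exists_equiv_of_theta (h.comp x) (θ := algebraMap F _ θ)
    (by rw [HForm.adj_algebraMap, HForm.adj_algebraMap])
    (by rw [h.adj_algebraMap, ← map_sub]; exact hθ.isUnit.map _)
    (Algebra.commute_algebraMap_left _ _)
  have hcJ := hc2 J (by
    rw [hJ, eq_comm]
    refine (h.comp x).adj_eq_of_left fun u v => ?_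
    simp only [pullForm_apply, LinearEquiv.coe_coe, hx]
    rw [← h.adj_left, hJ']) (Algebra.commute_algebraMap_right _ _)
    (by rw [h.adj_algebraMap]; exact Algebra.commute_algebraMap_right _ _)
  refine ⟨⟨c.symm.trans x, fun u v => ?_⟩, fun v => ?_⟩
  · have := hc1 (c.symm u) (c.symm v)
    simpa using this
  · change x (c.symm (J v)) = J' (x (c.symm v))
    rw [← hx]
    congr 1
    apply c.injective
    simpa using LinearMap.congr_fun hcJ.eq (c.symm v)

variable [CharP F 3]

theorem exists_as_three [Finite F] (h : Herm B) (h3 : finrank F V = 3) {g : End F V}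
    (hg : ∀ u v, B (g u) (g v) = B u v) (hiso : ∀ (v : V) (c : F), g v = c • v → B v v = 0)
    {a : F} (haσ : σ a = a) (ha : ∀ x : F, x ^ 3 - x ≠ a) :
    ∃ J : End F V, (hform_of_good h.toGood).adj J = J ∧ J ^ 3 - J = algebraMap F _ a ∧
      ∃ i : F, J * g = g * (J + i • 1) := by
  have hf := hform_of_good h.toGood
  have : Nontrivial V := Module.nontrivial_of_finrank_pos (R := F) (by omega)
  have h30 := three_eq_zero_End (F := F) (V := V)
  have hgg := hf.mul_adj_of_isometry hg
  have hcomm : Commute g (hf.adj g) := by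
    rw [Commute, SemiconjBy, hgg, mul_eq_one_comm.1 hgg]
  have cube : ∀ x x' : End F V, Commute x x' → (x + x') ^ 3 = x ^ 3 + x' ^ 3 := fun x x' hx => by
    have := add_cube_of_comm h30 (J := x) (y := x') (by simp [hx.eq])
    simpa [hx.eq] using this
  by_cases hno : ∀ (c : F) (v : V), g v = c • v → v = 0
  · obtain ⟨p, hp⟩ := exists_aeval_root g hno (irreducible_asPoly ha)
      (Or.inl ⟨h3, natDegree_asPoly a⟩)
    rw [aeval_asPoly_eq_zero] at hp
    set J := aeval g p with hJ
    have hgJ : Commute g J := commute_aeval_of_commute (Commute.refl g) p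
    refine ⟨J, ?_, hp, 0, by simp [hgJ.eq]⟩
    have hirr : ∀ c : End F V, Commute g c → c ≠ 0 → ∀ d : End F V, c * d = 0 → d = 0 := by
      intro c hc hc0 d hd
      have hinv : ∀ v ∈ LinearMap.ker c, g v ∈ LinearMap.ker c := fun v hv => by
        rw [LinearMap.mem_ker, ← End.mul_apply, ← hc.eq, End.mul_apply, LinearMap.mem_ker.1 hv,
          map_zero]
      have one : ∀ L : Submodule F V, (∀ v ∈ L, g v ∈ L) → finrank F L ≠ 1 := fun L hL h1 => by
        obtain ⟨v, -, hv0, -, e, he⟩ := exists_eigen_of_finrank_eq_one h1 hL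
        exact hv0 (hno e v he)
      have a1 := one _ hinv
      have a2 := one _ (hf.mem_orth_of_isometry hg hinv)
      have a3 := hf.finrank_orth (LinearMap.ker c)
      have a4 : finrank F (LinearMap.ker c) ≠ finrank F V := fun h => hc0
        (LinearMap.ker_eq_top.1 (Submodule.eq_top_of_finrank_eq h))
      have a5 : LinearMap.ker c = ⊥ := Submodule.finrank_eq_zero.1 (by omega)
      exact LinearMap.ext fun v => LinearMap.ker_eq_bot.1 a5 (by
        simpa using LinearMap.congr_fun hd v)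
    have c1 : Commute g (hf.adj J) := by
      rw [hJ, hf.adj_aeval]; exact commute_aeval_of_commute hcomm _
    have c2 : Commute (hf.adj J) J := commute_aeval_of_commute c1.symm p
    have hp' : hf.adj J ^ 3 - hf.adj J = algebraMap F _ a := by
      rw [← hf.adj_pow, ← hf.adj_sub, hp, hf.adj_algebraMap, haσ]
    set δ := hf.adj J - J with hδ
    have cδ : Commute g δ := c1.sub_right hgJ
    have hδ3 : δ * ((δ - 1) * (δ + 1)) = 0 := by
      have e1 : δ ^ 3 = hf.adj J ^ 3 - J ^ 3 := by
        rw [hδ, sub_eq_add_neg, cube _ _ c2.neg_right, Odd.neg_pow (by decide), sub_eq_add_neg]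
      have e2 : δ * ((δ - 1) * (δ + 1)) = δ ^ 3 - δ := by noncomm_ring
      rw [e2, e1, hδ]
      linear_combination (norm := abel) hp' - hp
    have hδa : hf.adj δ = -δ := by rw [hδ, hf.adj_sub, hf.adj_adj, neg_sub]
    rw [← sub_eq_zero, ← hδ]
    by_contra hδ0
    have e3 := hirr δ cδ hδ0 _ hδ3
    have one_ne : ¬ ((1 : End F V) = -1) := fun h1 => one_ne_zero (α := End F V) (by
      have : (3 : End F V) = 1 + 1 + 1 := by norm_num
      rw [h30] at this
      linear_combination (norm := abel) -h1 - this)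
    by_cases h1 : δ - 1 = 0
    · rw [sub_eq_zero.1 h1, hf.adj_one] at hδa
      exact one_ne hδa
    · rw [eq_neg_of_add_eq_zero_left (hirr _ (cδ.sub_right (Commute.one_right g)) h1 _ e3),
        hf.adj_neg, hf.adj_one, neg_neg] at hδa
      exact one_ne hδa.symm
  push Not at hno
  obtain ⟨c, v, hv, hv0⟩ := hno
  have hvv := hiso v c hv
  have hv1 := finrank_span_singleton (K := F) hv0
  set W := orth B (Submodule.span F {v}) with hWdef
  have hW2 : finrank F W = 2 := by
    have := hf.finrank_orth (Submodule.span F {v})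
    rw [← hWdef] at this
    omega
  have hmem : ∀ x, x ∈ W ↔ B v x = 0 := fun x => mem_orth_span_singleton
  have hL : ∀ x ∈ Submodule.span F {v}, g x ∈ Submodule.span F {v} := fun x hx => by
    obtain ⟨s, rfl⟩ := Submodule.mem_span_singleton.1 hx
    rw [map_smul, hv, smul_smul]
    exact Submodule.smul_mem _ _ (Submodule.mem_span_singleton_self v)
  have hW : ∀ x ∈ W, g x ∈ W := hf.mem_orth_of_isometry hg hL
  have noti : ∀ U : Submodule F V, (∀ u ∈ U, B u u = 0) → finrank F U ≤ 1 := fun U hU => by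
    have := two_mul_finrank_le_of_isotropic hf (U := U) fun _ hu _ hv =>
      h.eq_zero_of_forall_self hU hu hv
    omega
  obtain ⟨w, hw, hww⟩ : ∃ w ∈ W, B w w ≠ 0 := by
    by_contra hc
    push Not at hc
    have := noti W hc
    omega
  have hvw := (hmem w).1 hw
  have hwv := hf.eq_zero_comm.1 hvw
  have hli : LinearIndependent F ![v, w] := (LinearIndependent.pair_iff' hv0).2 fun s hs => by
    rw [← hs] at hww; simp [hvv] at hww
  have hWeq : W = Submodule.span F {v, w} := by
    refine (Submodule.eq_of_le_of_finrank_eq (Submodule.span_le.2 ?_) ?_).symm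
    · rintro x (rfl | rfl)
      · exact (hmem _).2 hvv
      · exact hw
    · have := finrank_span_eq_card hli
      rw [Matrix.range_cons_cons_empty] at this
      rw [this, hW2]; rfl
  obtain ⟨e, d, hgw⟩ := Submodule.mem_span_pair.1 (hWeq ▸ hW w hw)
  have hdc : d = c := by
    by_contra hca
    have hca' : d - c ≠ 0 := sub_ne_zero.2 hca
    have := hiso (w + (e / (d - c)) • v) d (by
      rw [map_add, map_smul, hv, ← hgw, smul_add, smul_smul, smul_smul, add_comm (e • v),
        add_assoc, ← add_smul]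
      congr 2; field_simp; ring)
    simp [hvv, hvw, hwv, hww] at this
  subst hdc
  have hd : σ d * d = 1 := by
    have := hg w w
    rw [← hgw] at this
    simp [hvv, hvw, hwv] at this
    exact mul_right_cancel₀ hww (by linear_combination this)
  set n := g - d • (1 : End F V) with hn
  have hn' : ∀ x, n x = g x - d • x := fun _ => rfl
  have n1 : n v = 0 := by rw [hn', hv, sub_self]
  have n2 : ∀ x ∈ W, n x ∈ Submodule.span F {v} := fun x hx => by
    obtain ⟨s, t, rfl⟩ := Submodule.mem_span_pair.1 (hWeq ▸ hx)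
    refine Submodule.mem_span_singleton.2 ⟨t * e, ?_⟩
    rw [map_add, map_smul, map_smul, n1, hn', ← hgw]; module
  have n3 : ∀ x, n x ∈ W := fun x => by
    have := hg v x
    rw [hv, LinearMap.map_smulₛₗ₂, smul_eq_mul] at this
    rw [hmem, hn', map_sub, map_smul, smul_eq_mul, ← this]
    linear_combination -B v (g x) * hd
  have n4 : ∀ x, (n ^ 2) x ∈ Submodule.span F {v} := fun x => by
    rw [pow_two]; exact n2 _ (n3 x)
  have hn3 : n ^ 3 = 0 := LinearMap.ext fun x => by
    obtain ⟨s, hs⟩ := Submodule.mem_span_singleton.1 (n4 x)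
    rw [pow_succ', End.mul_apply, ← hs, map_smul, n1, smul_zero, LinearMap.zero_apply]
  have hr : finrank F (LinearMap.range (n ^ 2)) = 1 := by
    have a1 : finrank F (LinearMap.range (n ^ 2)) ≤ 1 :=
      hv1 ▸ Submodule.finrank_mono (by rintro _ ⟨x, rfl⟩; exact n4 x)
    by_contra hc
    have a2 : LinearMap.range (n ^ 2) = ⊥ := Submodule.finrank_eq_zero.1 (by omega)
    have a3 : finrank F (LinearMap.range n) ≤ finrank F (LinearMap.ker n) :=
      Submodule.finrank_mono (by
        rintro _ ⟨x, rfl⟩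
        simpa [pow_two] using LinearMap.congr_fun (LinearMap.range_eq_bot.1 a2) x)
    have a4 := n.finrank_range_add_finrank_ker
    have a5 := noti (LinearMap.ker n) fun u hu => hiso u d (sub_eq_zero.1 hu)
    omega
  obtain ⟨D, hD⟩ := exists_comm_eq_self (g := g) hn3 (by omega) fun c hc =>
    hc.sub_right ((Commute.one_right c).smul_right d)
  have hg3 : g ^ 3 = algebraMap F _ (d ^ 3) := by
    have : g = n + d • 1 := by rw [hn, sub_add_cancel]
    rw [this, cube _ _ ((Commute.one_right n).smul_right d), hn3, zero_add, _root_.smul_pow,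
      one_pow, Algebra.algebraMap_eq_smul_one]
  obtain ⟨J, h1, h2, h3⟩ := hf.exists_as hg hD (T := d ^ 3 + σ (d ^ 3))
    (by rw [← hf.adj_pow, hg3, hf.adj_algebraMap, map_add])
    (fun J _ => ⟨J.charpoly, J.charpoly_monic.ne_zero, by rw [LinearMap.charpoly_natDegree, h3],
      J.aeval_self_charpoly⟩) haσ
  exact ⟨J, h1, h2, 1, by simpa using h3⟩

theorem cover2Z_sIsom_three [Finite F] (h : Herm B) (h3 : finrank F V = 3) {k : ℕ}
    (hσ : ∀ x, σ x = x ^ 3 ^ k) : Cover2Z (sIsom B) := by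
  have hf := hform_of_good h.toGood
  have hex : finrank F V = 3 → ∃ a : F, σ a = a ∧ a ≠ 0 ∧ a ≠ 1 := fun _ =>
    ⟨-1, by simp, by simp, fun h1 => one_ne_zero (α := F) (by
      linear_combination three_eq_zero' (F := F) + h1)⟩
  obtain ⟨d, -, hd⟩ := h.exists_nonisotropic_orth_of_lt (W := ⊥) (by simp [h3])
  have hH := stab_point_ne_top h (by omega) hex hd
  obtain ⟨a, haσ, ha⟩ := exists_fixed_not_cube_sub hσ h.invol
  have main : ∀ g : sIsom B, (∃ t : sIsom B, t * g * t⁻¹ ∈
      (stab B (Submodule.span F {d})).subgroupOf (sIsom B)) ∨ ∃ J : End F V, hf.adj J = J ∧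
        J ^ 3 - J = algebraMap F _ a ∧ (g : isomGroup B) ∈ shiftStab B J := fun g => by
    rw [or_iff_not_imp_left]
    intro hcon
    obtain ⟨J, h1, h2, i, hi⟩ := exists_as_three h h3
      (g := (((g : isomGroup B) : V ≃ₗ[F] V) : End F V)) (isom_apply _) (fun v c hv => by
        by_contra hvv
        exact hcon (exists_conj_mem_stab_point h hex hd hvv hv)) haσ ha
    exact ⟨J, h1, h2, mem_shiftStab_of_mul hi⟩
  by_cases hJ : ∃ J : End F V, hf.adj J = J ∧ J ^ 3 - J = algebraMap F _ a
  swap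
  · refine ⟨_, _, hH, hH, center_le_stab h (by omega) _, center_le_stab h (by omega) _,
      fun g => ?_⟩
    rcases main g with ⟨t, ht⟩ | ⟨J, h1, h2, -⟩
    · exact ⟨t, Or.inl ht⟩
    · exact (hJ ⟨J, h1, h2⟩).elim
  obtain ⟨J, hJ1, hJ2⟩ := hJ
  have hK : (shiftStab B J).subgroupOf (sIsom B) ≠ ⊤ := fun htop => by
    obtain ⟨e, he0, he⟩ := h.exists_isotropic (by omega)
    obtain ⟨c, hc0, hc⟩ := h.exists_trace_zero
    obtain ⟨x, hx⟩ := h.exists_ne he0
    have h1 : (⟨_, (h.isTransv_transv e he c hc).mem_sIsom⟩ : sIsom B) ∈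
        (shiftStab B J).subgroupOf (sIsom B) := htop ▸ Subgroup.mem_top _
    exact not_mem_shiftStab h3.ge hJ2 ha he0 (φ := c • B e) (x := x)
      (by simpa using ⟨hc0, hx⟩) (h.transv_apply e he c hc) (Subgroup.mem_subgroupOf.1 h1)
  refine ⟨_, _, hH, hK, center_le_stab h (by omega) _, fun z hz => ?_, fun g => ?_⟩
  · obtain ⟨c, hc⟩ := (h.mem_center_sIsom_iff (by omega)).1 hz
    exact mem_shiftStab_of_smul hc J
  rcases main g with ⟨t, ht⟩ | ⟨J', h1, h2, hg⟩
  · exact ⟨t, Or.inl ht⟩
  obtain ⟨t, ht⟩ := exists_isom_of_selfAdj h.ne_id hf hJ1 h1 (sim_of_aeval_irreducible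
    (monic_asPoly a) (irreducible_asPoly ha) (aeval_asPoly_eq_zero.2 hJ2)
    (aeval_asPoly_eq_zero.2 h2) rfl)
  have hdet := hf.norm_det_of_isometry (g := ((t : V ≃ₗ[F] V) : End F V)) (isom_apply t)
  set δ := LinearMap.det ((t : V ≃ₗ[F] V) : End F V) with hδ
  have hδ0 : δ ≠ 0 := right_ne_zero_of_mul_eq_one hdet
  obtain ⟨z, hz⟩ := exists_cube_eq δ⁻¹
  have hz0 : z ≠ 0 := by rintro rfl; exact inv_ne_zero hδ0 (by simpa using hz.symm)
  have hz1 : σ z * z = 1 := cube_inj (by
    rw [mul_pow, ← map_pow, hz, map_inv₀, ← mul_inv, hdet]; simp)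
  have hmem : scalarIsom B (Units.mk0 z hz0) hz1 * t ∈ sIsom B := by
    rw [mem_sIsom', Subgroup.coe_mul, map_mul, Units.val_mul,
      det_of_forall_eq_smul (scalarIsom_apply B _ hz1), h3, Units.val_mk0, hz,
      LinearEquiv.coe_det, ← hδ, inv_mul_cancel₀ hδ0]
  refine ⟨(⟨_, hmem⟩ : sIsom B)⁻¹, Or.inr (conj_mem_shiftStab (J' := J') (fun v => ?_) hg)⟩
  change z • (t : V ≃ₗ[F] V) (J v) = J' (z • (t : V ≃ₗ[F] V) v)
  rw [ht, map_smul]

omit [CharP F 3] in
theorem cover2_PSU_three {K : Type*} [Field K] [Fintype K] {q a : ℕ} (hK : Fintype.card K = q ^ 2)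
    (hq : q = 3 ^ a) : Cover2 (PSU 3 K q) := by
  have : CharP K 3 := by
    have : Fact (Nat.Prime 3) := ⟨Nat.prime_three⟩
    exact charP_of_card_eq_prime_pow (p := 3) (f := a * 2) (by rw [hK, hq, pow_mul])
  exact (Cover2Z.of_mulEquiv (suEquivSIsom hK 3)
    (cover2Z_sIsom_three (herm_hermSesq hK 3) (by simp) (k := a)
      fun x => by rw [frobq_apply, hq])).quotient

end Cfsg.Lib.Known
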