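import Cfsg.Agent.Known.Cov2Base
import Cfsg.Agent.Known.ElDivDual
import Cfsg.Agent.Class.HermSimple

/-!
# `PSU₄(q)` is covered by the stabilisers of non-isotropic points and totally isotropic lines
-/

set_option autoImplicit false

namespace Cfsg.Lib.Known

open Module Polynomial Cfsg.Lib.Class Cfsg.Lib.Class.Form

universe u v

variable {F : Type u} {V : Type v} [Field F] [AddCommGroup V] [Module F V] {σ : F →+* F}

/-- A self-dual irreducible polynomial for a Hermitian form has odd degree. -/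
theorem odd_natDegree_of_dualPoly_eq [Finite F] (hσ : σ ≠ RingHom.id F) (hσ2 : ∀ a, σ (σ a) = a)
    {f : F[X]} (hf : Irreducible f) (h0 : f.coeff 0 ≠ 0) (hd : dualPoly σ f = f) :
    Odd f.natDegree := by
  have := Fact.mk hf
  have : Module.Finite F (AdjoinRoot f) := (AdjoinRoot.powerBasis hf.ne_zero).finite
  have : Finite (AdjoinRoot f) := Module.finite_of_finite F
  let _ := Fintype.ofFinite F
  let _ := Fintype.ofFinite (AdjoinRoot f)
  have hr : aeval (AdjoinRoot.root f) f = 0 := by rw [AdjoinRoot.aeval_eq, AdjoinRoot.mk_self]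
  have hα : AdjoinRoot.root f ≠ 0 := fun h => by
    rw [h, ← coeff_zero_eq_aeval_zero'] at hr
    exact h0 ((map_eq_zero _).1 hr)
  have h1 := aeval_dualPoly (σ := σ) (mul_inv_cancel₀ hα) f
  rw [hd, hr, eq_comm, smul_eq_zero, mul_eq_zero] at h1
  have h2 : aeval (AdjoinRoot.root f)⁻¹ (f.map σ) = 0 :=
    (h1.resolve_left (inv_ne_zero ((map_ne_zero σ).2 h0))).resolve_left (pow_ne_zero _ hα)
  rw [aeval_def, eval₂_map] at h2
  let τ : AdjoinRoot f →+* AdjoinRoot f := AdjoinRoot.lift _ _ h2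
  have hτ : ∀ a : F, τ (AdjoinRoot.of f a) = AdjoinRoot.of f (σ a) := fun a => AdjoinRoot.lift_of h2
  have hτr : τ (AdjoinRoot.root f) = (AdjoinRoot.root f)⁻¹ := AdjoinRoot.lift_root h2
  have hττ : τ.comp τ = RingHom.id _ := AdjoinRoot.ringHom_ext
    (RingHom.ext fun a => by simp [hτ, hσ2]) (by simp [hτr])
  obtain ⟨Q, hQ, hQx⟩ := exists_card_eq_sq (σ := τ) (fun h => hσ (RingHom.ext fun a => by
    have := hτ a
    rw [h] at this
    exact ((AdjoinRoot.of f).injective this).symm)) (fun a => RingHom.congr_fun hττ a)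
  by_contra hodd
  obtain ⟨k, hk⟩ := Nat.not_odd_iff_even.1 hodd
  have hc : Fintype.card (AdjoinRoot f) = (Fintype.card F ^ k) ^ 2 := by
    rw [Module.card_eq_pow_finrank (K := F), (AdjoinRoot.powerBasis hf.ne_zero).finrank,
      AdjoinRoot.powerBasis_dim, hk, ← pow_mul, mul_two]
  have hQ' : Q = Fintype.card F ^ k := Nat.pow_left_injective two_ne_zero (hQ.symm.trans hc)
  refine hσ (RingHom.ext fun a => (AdjoinRoot.of f).injective ?_)
  rw [← hτ, hQx, hQ', ← map_pow, FiniteField.pow_card_pow]; rfl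

theorem commute_aeval_of_commute {A : Type*} [Ring A] [Algebra F A] {x y : A} (h : Commute x y)
    (p : F[X]) : Commute x (aeval y p) := by
  induction p using Polynomial.induction_on' with
  | add p q hp hq => rw [map_add]; exact hp.add_right hq
  | monomial n a =>
    rw [aeval_monomial]
    exact (Algebra.commute_algebraMap_right a x).mul_right (h.pow_right n)

theorem aeval_mem_of_invariant {g : End F V} {W : Submodule F V} (hW : ∀ w ∈ W, g w ∈ W)
    (p : F[X]) {w : V} (hw : w ∈ W) : aeval g p w ∈ W :=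
  aeval_apply_smul_mem_of_le_comap hw p g hW

theorem exists_irreducible_step {g : End F V} {W L : Submodule F V} (hW : ∀ w ∈ W, g w ∈ W)
    {w : V} (hw : w ∈ W) (hwL : w ∉ L) (m : F[X]) : m ≠ 0 → aeval g m w ∈ L →
    ∃ f : F[X], f.Monic ∧ Irreducible f ∧ ∃ w' ∈ W, w' ∉ L ∧ aeval g f w' ∈ L := by
  induction m using WfDvdMonoid.induction_on_irreducible with
  | zero => exact fun h => (h rfl).elim
  | unit m hm =>
    obtain ⟨c, hc, rfl⟩ := Polynomial.isUnit_iff.1 hm
    intro _ h
    rw [aeval_C, Module.algebraMap_end_apply] at h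
    exact (hwL ((L.smul_mem_iff hc.ne_zero).1 h)).elim
  | mul a f ha hf ih =>
    intro _ h
    by_cases h1 : aeval g a w ∈ L
    · exact ih ha h1
    refine ⟨f * C f.leadingCoeff⁻¹, monic_mul_leadingCoeff_inv hf.ne_zero,
      irreducible_mul_leadingCoeff_inv.2 hf, _, aeval_mem_of_invariant hW a hw, h1, ?_⟩
    rw [mul_comm, map_mul, aeval_C, End.mul_apply, Module.algebraMap_end_apply]
    rw [map_mul] at h
    exact L.smul_mem _ h

variable [FiniteDimensional F V] {B : V →ₛₗ[σ] V →ₗ[F] F} {ε : F}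

theorem natDegree_dvd_finrank_ker (g : End F V) {f : F[X]} (hm : f.Monic) (hf : Irreducible f) :
    f.natDegree ∣ finrank F (LinearMap.ker (aeval g f)) := by
  rw [finrank_ker_aeval_irreducible g hm hf]; exact dvd_mul_left _ _

theorem HForm.dualPoly_eq_of_ne_zero (h : HForm B ε) {g : End F V}
    (hg : ∀ u v, B (g u) (g v) = B u v) {f : F[X]} (hm : f.Monic) (hf : Irreducible f)
    (h0 : f.coeff 0 ≠ 0) {u v : V} (hu : aeval g f u = 0) (hv : aeval g f v = 0)
    (huv : B u v ≠ 0) : dualPoly σ f = f := by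
  by_contra hne
  have hc : IsCoprime f (dualPoly σ f) := hf.coprime_iff_not_dvd.2 fun hd => hne
    (eq_of_monic_of_associated (monic_dualPoly h0) hm
      (hf.associated_of_dvd (irreducible_dualPoly h.invol hm h0 hf) hd).symm)
  obtain ⟨a, b, hab⟩ := hc
  have h1 := congrArg (fun p => aeval g p v) hab
  have hgg := h.mul_adj_of_isometry hg
  have hcomm : Commute (h.adj g) g := by
    rw [Commute, SemiconjBy, hgg, mul_eq_one_comm.1 hgg]
  simp only [map_add, map_mul, LinearMap.add_apply, End.mul_apply, hv, map_zero, zero_add, map_one,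
    End.one_apply, mul_comm b] at h1
  rw [aeval_dualPoly hgg, ← h.adj_aeval] at h1
  apply huv
  rw [← h1, LinearMap.smul_apply, map_smul, End.mul_apply, ← h.adj_left, h.adj_right, h.adj_pow,
    ← End.mul_apply, ← (commute_aeval_of_commute (hcomm.pow_left _) f).eq, End.mul_apply, hu]
  simp

theorem two_mul_finrank_le_of_isotropic (h : HForm B ε) {U : Submodule F V}
    (hU : ∀ u ∈ U, ∀ v ∈ U, B u v = 0) : 2 * finrank F U ≤ finrank F V := by
  have h1 := h.finrank_orth U
  have h2 : finrank F U ≤ finrank F (orth B U) :=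
    Submodule.finrank_mono fun v hv u hu => hU u hu v hv
  omega

omit [FiniteDimensional F V] in
theorem exists_eigen_of_finrank_eq_one {g : End F V} {L : Submodule F V} (hL : finrank F L = 1)
    (hg : ∀ v ∈ L, g v ∈ L) : ∃ v ∈ L, v ≠ 0 ∧ L = Submodule.span F {v} ∧ ∃ c : F, g v = c • v := by
  obtain ⟨⟨v, hv⟩, hv0, hall⟩ := finrank_eq_one_iff'.1 hL
  obtain ⟨c, hc⟩ := hall ⟨g v, hg v hv⟩
  refine ⟨v, hv, fun h => hv0 (Subtype.ext h), le_antisymm (fun w hw => ?_)
    ((Submodule.span_singleton_le_iff_mem _ _).2 hv), c, (congrArg Subtype.val hc).symm⟩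
  obtain ⟨d, hd⟩ := hall ⟨w, hw⟩
  exact Submodule.mem_span_singleton.2 ⟨d, congrArg Subtype.val hd⟩

omit [FiniteDimensional F V] in
theorem aeval_apply_of_eigen {g : End F V} {v : V} {c : F} (h : g v = c • v) (p : F[X]) :
    aeval g p v = p.eval c • v := by
  by_cases hv : v = 0
  · simp [hv]
  exact End.aeval_apply_of_hasEigenvector ⟨End.mem_eigenspace_iff.2 h, hv⟩

/-- An element of `GU₄` without non-isotropic eigenvector fixes a totally isotropic plane. -/
theorem exists_isotropic_plane [Finite F] (h : Herm B) (h4 : finrank F V = 4) {g : End F V}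
    (hg : ∀ u v, B (g u) (g v) = B u v) (hiso : ∀ (v : V) (c : F), g v = c • v → B v v = 0) :
    ∃ U : Submodule F V, finrank F U = 2 ∧ (∀ u ∈ U, ∀ v ∈ U, B u v = 0) ∧ ∀ u ∈ U, g u ∈ U := by
  have hf := hform_of_good h.toGood
  have hinj := injective_of_isometry hf hg
  by_cases hA : ∃ f : F[X], f.Monic ∧ Irreducible f ∧ f.natDegree ≠ 1 ∧
      LinearMap.ker (aeval g f) ≠ ⊥
  · obtain ⟨f, hm, hi, h1, hk⟩ := hA
    have hinv : ∀ u ∈ LinearMap.ker (aeval g f), g u ∈ LinearMap.ker (aeval g f) := fun u hu => by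
      rw [LinearMap.mem_ker, ← End.mul_apply, ← (commute_aeval_of_commute (Commute.refl g) f).eq,
        End.mul_apply, LinearMap.mem_ker.1 hu, map_zero]
    have hdvd := natDegree_dvd_finrank_ker g hm hi
    have hpos : finrank F (LinearMap.ker (aeval g f)) ≠ 0 := by
      rwa [Ne, Submodule.finrank_eq_zero]
    have hle := Nat.le_of_dvd (Nat.pos_of_ne_zero hpos) hdvd
    have hle4 := (LinearMap.ker (aeval g f)).finrank_le
    have hd0 := hi.natDegree_pos
    by_cases hti : ∀ u ∈ LinearMap.ker (aeval g f), ∀ v ∈ LinearMap.ker (aeval g f), B u v = 0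
    · have := two_mul_finrank_le_of_isotropic hf hti
      exact ⟨_, by omega, hti, hinv⟩
    push Not at hti
    obtain ⟨u, hu, v, hv, huv⟩ := hti
    have hX : f ≠ X := by rintro rfl; simp at h1
    have h0 := coeff_zero_ne_of_irreducible hm hi hX
    obtain ⟨k, hk⟩ := odd_natDegree_of_dualPoly_eq h.ne_id h.invol hi h0
      (hf.dualPoly_eq_of_ne_zero hg hm hi h0 hu hv huv)
    have h3 : f.natDegree = 3 := by omega
    rw [h3] at hdvd
    have ho := hf.finrank_orth (LinearMap.ker (aeval g f))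
    obtain ⟨w, -, hw0, hw, c, hc⟩ := exists_eigen_of_finrank_eq_one
      (L := orth B (LinearMap.ker (aeval g f))) (by omega) (hf.mem_orth_of_isometry hg hinv)
    have hwk : w ∈ LinearMap.ker (aeval g f) := by
      rw [← hf.orth_orth (LinearMap.ker (aeval g f)), hw, mem_orth_span_singleton]
      exact hiso w c hc
    rw [LinearMap.mem_ker, aeval_apply_of_eigen hc, smul_eq_zero] at hwk
    exact (h1 (natDegree_eq_of_degree_eq_some
      (degree_eq_one_of_irreducible_of_root hi (hwk.resolve_right hw0)))).elim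
  push Not at hA
  -- every step is by an eigenvector
  have step : ∀ (W : Submodule F V) (v : V) (a : F), (∀ w ∈ W, g w ∈ W) → g v = a • v →
      ¬ W ≤ Submodule.span F {v} →
      ∃ w ∈ W, w ∉ Submodule.span F {v} ∧ ∃ c e : F, g w = c • w + e • v := by
    intro W v a hW hv hle
    obtain ⟨w, hw, hwL⟩ := SetLike.not_le_iff_exists.1 hle
    obtain ⟨f, hm, hi, w', hw', hwL', hf⟩ := exists_irreducible_step hW hw hwL g.charpoly
      g.charpoly_monic.ne_zero (by simp [LinearMap.aeval_self_charpoly])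
    refine ⟨w', hw', hwL', ?_⟩
    obtain ⟨e, he⟩ := Submodule.mem_span_singleton.1 hf
    by_cases h1 : f.natDegree = 1
    · refine ⟨-f.coeff 0, e, ?_⟩
      rw [he]
      conv_rhs => rw [hm.eq_X_add_C h1]
      simp [Module.algebraMap_end_apply]
    · refine ⟨a, 0, ?_⟩
      have : aeval g f (g w' - a • w') = 0 := by
        rw [map_sub, map_smul, ← End.mul_apply, ← (commute_aeval_of_commute (Commute.refl g) f).eq,
          End.mul_apply, ← he, map_smul, hv, smul_comm, sub_self]
      rw [← LinearMap.mem_ker, hA f hm hi h1, Submodule.mem_bot, sub_eq_zero] at this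
      simp [this]
  obtain ⟨v, -, hv0, a, e0, hv⟩ := step ⊤ 0 0 (fun _ _ => trivial) (by simp) (fun hle => by
    have := Submodule.finrank_mono hle
    rw [Submodule.span_zero_singleton, finrank_bot, finrank_top] at this
    omega)
  rw [smul_zero, add_zero] at hv
  replace hv0 : v ≠ 0 := fun h => hv0 (by simp [h])
  have hvv := hiso v a hv
  have plane : ∀ (w : V) (c e : F), w ∉ Submodule.span F {v} → B v w = 0 → B w w = 0 →
      g w = c • w + e • v → ∃ U : Submodule F V, finrank F U = 2 ∧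
        (∀ u ∈ U, ∀ v ∈ U, B u v = 0) ∧ ∀ u ∈ U, g u ∈ U := by
    intro w c e hw h1 h2 h3
    have hli : LinearIndependent F ![v, w] := (LinearIndependent.pair_iff' hv0).2 fun s hs =>
      hw (Submodule.mem_span_singleton.2 ⟨s, hs⟩)
    refine ⟨Submodule.span F {v, w}, ?_, fun x hx y hy => ?_, fun x hx => ?_⟩
    · have := finrank_span_eq_card hli
      rwa [Matrix.range_cons_cons_empty] at this
    · obtain ⟨s, t, rfl⟩ := Submodule.mem_span_pair.1 hx
      obtain ⟨s', t', rfl⟩ := Submodule.mem_span_pair.1 hy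
      simp [hvv, h1, h2, hf.eq_zero_comm.1 h1]
    · obtain ⟨s, t, rfl⟩ := Submodule.mem_span_pair.1 hx
      refine Submodule.mem_span_pair.2 ⟨s * a + t * e, t * c, ?_⟩
      rw [map_add, map_smul, map_smul, hv, h3]; module
  have same : ∀ (w : V) (c e : F), B v w = 0 → B w w ≠ 0 → g w = c • w + e • v → c = a := by
    intro w c e h1 h2 h3
    by_contra hca
    have hca' : c - a ≠ 0 := sub_ne_zero.2 hca
    have := hiso (w + (e / (c - a)) • v) c (by
      rw [map_add, map_smul, hv, h3, smul_add, smul_smul, smul_smul, add_assoc, ← add_smul]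
      congr 2; field_simp; ring)
    simp [hvv, h1, hf.eq_zero_comm.1 h1, h2] at this
  have hL : ∀ x ∈ Submodule.span F {v}, g x ∈ Submodule.span F {v} := fun x hx => by
    obtain ⟨s, rfl⟩ := Submodule.mem_span_singleton.1 hx
    rw [map_smul, hv, smul_smul]
    exact Submodule.smul_mem _ _ (Submodule.mem_span_singleton_self v)
  have hv1 := finrank_span_singleton (K := F) hv0
  obtain ⟨w, hw, hwL, c, e, hgw⟩ := step (orth B (Submodule.span F {v})) v a
    (hf.mem_orth_of_isometry hg hL) hv (fun hle => by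
      have := Submodule.finrank_mono hle
      have := hf.finrank_orth (Submodule.span F {v})
      omega)
  rw [mem_orth_span_singleton] at hw
  by_cases hww : B w w = 0
  · exact plane w c e hwL hw hww hgw
  obtain rfl := same w c e hw hww hgw
  have hL2 : ∀ x ∈ Submodule.span F {v, w}, g x ∈ Submodule.span F {v, w} := fun x hx => by
    obtain ⟨s, t, rfl⟩ := Submodule.mem_span_pair.1 hx
    refine Submodule.mem_span_pair.2 ⟨s * c + t * e, t * c, ?_⟩
    rw [map_add, map_smul, map_smul, hv, hgw]; module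
  obtain ⟨w', hw', hwL', c', e', hgw'⟩ := step (orth B (Submodule.span F {v, w})) v c
    (hf.mem_orth_of_isometry hg hL2) hv (fun hle => by
      have := Submodule.finrank_mono hle
      have := hf.finrank_orth (Submodule.span F {v, w})
      have := finrank_range_le_card (R := F) ![v, w]
      rw [Set.finrank, Matrix.range_cons_cons_empty, Fintype.card_fin] at this
      omega)
  rw [mem_orth_span] at hw'
  have h1 := hw' v (by simp)
  have h2 := hw' w (by simp)
  by_cases hww' : B w' w' = 0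
  · exact plane w' c' e' hwL' h1 hww' hgw'
  obtain rfl := same w' c' e' h1 hww' hgw'
  obtain ⟨s, hs⟩ := h.exists_smul_norm_eq hww (μ := -B w' w') (by rw [map_neg, h.conj])
  refine plane (s • w + w') c' (s * e + e') (fun hmem => ?_) (by simp [hw, h1]) ?_ ?_
  · obtain ⟨t, ht⟩ := Submodule.mem_span_singleton.1 hmem
    have := congrArg (B w') ht
    simp [hf.eq_zero_comm.1 h1, hf.eq_zero_comm.1 h2] at this
    exact hww' this.symm
  · rw [map_add, map_add, LinearMap.add_apply, LinearMap.add_apply, hs]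
    simp [h2, hf.eq_zero_comm.1 h2]
  · rw [map_add, map_smul, hgw, hgw']; module

omit [FiniteDimensional F V] in
theorem conj_mem_stab {t g : isomGroup B} {U U' : Submodule F V}
    (ht : U.map ((t : V ≃ₗ[F] V) : V →ₗ[F] V) = U') (hg : g ∈ stab B U') :
    t⁻¹ * g * t⁻¹⁻¹ ∈ stab B U := by
  have key : ∀ v, v ∈ U ↔ (t : V ≃ₗ[F] V) v ∈ U' := fun v => by
    rw [← ht, Submodule.mem_map_equiv, LinearEquiv.symm_apply_apply]
  intro v
  rw [inv_inv, isom_mul_apply, isom_mul_apply, key, key, isom_apply_inv]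
  exact hg _

omit [FiniteDimensional F V] in
theorem mem_stab_of_smul {g : isomGroup B} {a : F} (hg : ∀ v, (g : V ≃ₗ[F] V) v = a • v)
    (U : Submodule F V) : g ∈ stab B U := fun v => by
  by_cases hv : v = 0
  · simp [hv]
  have ha : a ≠ 0 := fun h => hv ((g : V ≃ₗ[F] V).injective (by simp [hg, h]))
  rw [hg, U.smul_mem_iff ha]

theorem exists_sIsom_point [Finite F] (h : Herm B)
    (hex : finrank F V = 3 → ∃ a : F, σ a = a ∧ a ≠ 0 ∧ a ≠ 1) {x y : V} (hx : B x x ≠ 0)
    (hy : B y y ≠ 0) : ∃ t : sIsom B, (Submodule.span F {x}).map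
      (((t : isomGroup B) : V ≃ₗ[F] V) : V →ₗ[F] V) = Submodule.span F {y} := by
  obtain ⟨t, ht, a, ha⟩ := h.exists_transv_nonisotropic hex hx hy
  refine ⟨⟨t, transvGroup_le_sIsom B ht⟩, ?_⟩
  have hx0 : x ≠ 0 := by rintro rfl; simp at hx
  have ha0 : a ≠ 0 := by
    rintro rfl
    exact hx0 ((t : V ≃ₗ[F] V).injective (by simpa using ha))
  rw [Submodule.map_span, Set.image_singleton]
  change Submodule.span F {(t : V ≃ₗ[F] V) x} = _
  rw [ha, Submodule.span_singleton_smul_eq ha0.isUnit]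

theorem stab_point_ne_top [Finite F] (h : Herm B) (h2 : 2 ≤ finrank F V)
    (hex : finrank F V = 3 → ∃ a : F, σ a = a ∧ a ≠ 0 ∧ a ≠ 1) {x : V} (hx : B x x ≠ 0) :
    (stab B (Submodule.span F {x})).subgroupOf (sIsom B) ≠ ⊤ := fun htop => by
  have hx0 : x ≠ 0 := by rintro rfl; simp at hx
  obtain ⟨y, hy, hyy⟩ := h.exists_nonisotropic_orth (W := Submodule.span F {x}) fun hle => by
    have h1 := h.finrank_orth (Submodule.span F {x})
    rw [finrank_span_singleton hx0] at h1
    have h3 := (h.nondegOn_iff_disjoint.1 (Good.nondegOn_span_singleton hx)).symm.eq_bot_of_le hle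
    rw [h3, finrank_bot] at h1
    omega
  obtain ⟨t, ht⟩ := exists_sIsom_point h hex hx hyy
  have h1 : t ∈ (stab B (Submodule.span F {x})).subgroupOf (sIsom B) := htop ▸ Subgroup.mem_top _
  rw [Subgroup.mem_subgroupOf, mem_stab_iff_map, ht] at h1
  rw [← h1, mem_orth_span_singleton] at hy
  exact hyy hy

theorem center_le_stab [Finite F] (h : Herm B) (h2 : 2 ≤ finrank F V) (U : Submodule F V) :
    Subgroup.center _ ≤ (stab B U).subgroupOf (sIsom B) := fun z hz => by
  obtain ⟨a, ha⟩ := (h.mem_center_sIsom_iff h2).1 hz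
  exact mem_stab_of_smul ha U

theorem exists_conj_mem_stab_point [Finite F] (h : Herm B)
    (hex : finrank F V = 3 → ∃ a : F, σ a = a ∧ a ≠ 0 ∧ a ≠ 1) {x y : V} (hx : B x x ≠ 0)
    (hy : B y y ≠ 0) {g : sIsom B} {c : F} (hg : ((g : isomGroup B) : V ≃ₗ[F] V) y = c • y) :
    ∃ t : sIsom B, t * g * t⁻¹ ∈ (stab B (Submodule.span F {x})).subgroupOf (sIsom B) := by
  obtain ⟨t, ht⟩ := exists_sIsom_point h hex hx hy
  refine ⟨t⁻¹, conj_mem_stab ht (mem_stab_of_forall_mem fun v hv => ?_)⟩
  obtain ⟨s, rfl⟩ := Submodule.mem_span_singleton.1 hv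
  rw [map_smul, hg, smul_smul]
  exact Submodule.smul_mem _ _ (Submodule.mem_span_singleton_self y)

theorem exists_sIsom_plane [Finite F] (h : Herm B) {U U' : Submodule F V}
    (hU : finrank F U = 2) (hU' : finrank F U' = 2) (hi : ∀ u ∈ U, ∀ v ∈ U, B u v = 0)
    (hi' : ∀ u ∈ U', ∀ v ∈ U', B u v = 0) :
    ∃ t : sIsom B, U.map (((t : isomGroup B) : V ≃ₗ[F] V) : V →ₗ[F] V) = U' := by
  have key : ∀ U : Submodule F V, finrank F U = 2 → ∃ e ∈ U, ∃ f ∈ U,
      LinearIndependent F ![e, f] := fun U hU => by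
    let b := Module.finBasisOfFinrankEq F U hU
    refine ⟨b 0, (b 0).2, b 1, (b 1).2, ?_⟩
    have := b.linearIndependent.map' U.subtype U.ker_subtype
    have e : ![((b 0 : U) : V), (b 1 : U)] = U.subtype ∘ b := by
      ext1 i; fin_cases i <;> rfl
    rwa [e]
  have span : ∀ (U : Submodule F V) (e f : V), finrank F U = 2 → e ∈ U → f ∈ U →
      LinearIndependent F ![e, f] → U = Submodule.span F {e, f} := fun U e f hU he hf hli => by
    refine (Submodule.eq_of_le_of_finrank_eq (Submodule.span_le.2 ?_) ?_).symm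
    · rintro x (rfl | rfl) <;> assumption
    · have := finrank_span_eq_card hli
      rw [Matrix.range_cons_cons_empty] at this
      rw [this, hU]; rfl
  obtain ⟨e, he, f, hf, hli⟩ := key U hU
  obtain ⟨e', he', f', hf', hli'⟩ := key U' hU'
  obtain ⟨t, ⟨a, ha⟩, hb⟩ := h.exists_sIsom_orth (hi e he e he) (hi f hf f hf) (hi e he f hf) hli
    (hi' e' he' e' he') (hi' f' hf' f' hf') (hi' e' he' f' hf') hli'
  refine ⟨t, Submodule.eq_of_le_of_finrank_eq ?_ (by rw [LinearEquiv.finrank_map_eq, hU, hU'])⟩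
  rw [span U e f hU he hf hli, Submodule.map_span, Submodule.span_le]
  rintro x ⟨y, rfl | rfl, rfl⟩
  · change ((t : isomGroup B) : V ≃ₗ[F] V) y ∈ U'
    rw [← ha]; exact U'.smul_mem _ he'
  · change ((t : isomGroup B) : V ≃ₗ[F] V) y ∈ U'
    rw [← hb]; exact hf'

theorem cover2Z_sIsom_four [Finite F] (h : Herm B) (h4 : finrank F V = 4) : Cover2Z (sIsom B) := by
  have hex : finrank F V = 3 → ∃ a : F, σ a = a ∧ a ≠ 0 ∧ a ≠ 1 := fun h3 => by omega
  obtain ⟨d, -, hd⟩ := h.exists_nonisotropic_orth_of_lt (W := ⊥) (by simp [h4])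
  have hH := stab_point_ne_top h (by omega) hex hd
  by_cases hU : ∃ U : Submodule F V, finrank F U = 2 ∧ ∀ u ∈ U, ∀ v ∈ U, B u v = 0
  swap
  · refine ⟨_, _, hH, hH, center_le_stab h (by omega) _, center_le_stab h (by omega) _,
      fun g => ?_⟩
    by_contra hcon
    obtain ⟨U, h1, h2, -⟩ := exists_isotropic_plane h h4
      (g := (((g : isomGroup B) : V ≃ₗ[F] V) : End F V)) (isom_apply _) fun v c hv => by
        by_contra hvv
        obtain ⟨t, ht⟩ := exists_conj_mem_stab_point h hex hd hvv hv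
        exact hcon ⟨t, Or.inl ht⟩
    exact hU ⟨U, h1, h2⟩
  obtain ⟨U, hU, hi⟩ := hU
  have hK : (stab B U).subgroupOf (sIsom B) ≠ ⊤ := fun htop => by
    obtain ⟨e, he, he0⟩ := Submodule.exists_mem_ne_zero_of_ne_bot (p := U) (by
      rintro rfl; simp at hU)
    obtain ⟨f, hf, hef⟩ := h.exists_hyperbolic he0 (hi e he e he)
    have hfe : B f e = 1 := by rw [← h.conj, hef, map_one]
    obtain ⟨t, ⟨a, ha⟩, -⟩ := h.exists_sIsom_hyp (hi e he e he) hf (by simp [hef]) hf
      (hi e he e he) (by simp [hfe])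
    have h1 : t ∈ (stab B U).subgroupOf (sIsom B) := htop ▸ Subgroup.mem_top _
    have h2 := ((Subgroup.mem_subgroupOf.1 h1) e).1 he
    have ha0 : a ≠ 0 := by
      rintro rfl
      exact he0 (((t : isomGroup B) : V ≃ₗ[F] V).injective (by simpa using ha.symm))
    rw [← ha, U.smul_mem_iff ha0] at h2
    simpa [hef] using hi e he f h2
  refine ⟨_, _, hH, hK, center_le_stab h (by omega) _, center_le_stab h (by omega) _, fun g => ?_⟩
  by_contra hcon
  obtain ⟨U', h1, h2, h3⟩ := exists_isotropic_plane h h4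
    (g := (((g : isomGroup B) : V ≃ₗ[F] V) : End F V)) (isom_apply _) fun v c hv => by
      by_contra hvv
      obtain ⟨t, ht⟩ := exists_conj_mem_stab_point h hex hd hvv hv
      exact hcon ⟨t, Or.inl ht⟩
  obtain ⟨t, ht⟩ := exists_sIsom_plane h hU h1 hi h2
  exact hcon ⟨t⁻¹, Or.inr (conj_mem_stab ht (mem_stab_of_forall_mem h3))⟩

theorem cover2_PSU_four {K : Type*} [Field K] [Fintype K] {q : ℕ} (hK : Fintype.card K = q ^ 2) :
    Cover2 (PSU 4 K q) :=
  (Cover2Z.of_mulEquiv (suEquivSIsom hK 4)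
    (cover2Z_sIsom_four (herm_hermSesq hK 4) (by simp))).quotient

end Cfsg.Lib.Known
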