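import Cfsg.Agent.Known.Cov2SU3
import Cfsg.Agent.Known.Cov2Dye
import Cfsg.Agent.Class.AltBasis

/-!
# `PSp₆(3ᵃ)` is covered by two classes of subgroups
-/

set_option autoImplicit false

namespace Cfsg.Lib.Known

open Module Polynomial Cfsg.Lib.Class Cfsg.Lib.Class.Form

universe u v

variable {F : Type u} {V : Type v} [Field F] [AddCommGroup V] [Module F V]
  {B : LinearMap.BilinForm F V}

/-- The cyclic subspace generated by `x`. -/
noncomputable def cycSub (J : End F V) (x : V) : Submodule F V :=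
  LinearMap.range ((LinearMap.applyₗ x).comp (aeval J : F[X] →ₐ[F] End F V).toLinearMap)

theorem mem_cycSub {J : End F V} {x y : V} : y ∈ cycSub J x ↔ ∃ p : F[X], aeval J p x = y :=
  Iff.rfl

theorem self_mem_cycSub (J : End F V) (x : V) : x ∈ cycSub J x := ⟨1, by simp⟩

theorem cycSub_invariant (J : End F V) (x : V) : ∀ y ∈ cycSub J x, J y ∈ cycSub J x := by
  rintro _ ⟨p, rfl⟩
  exact ⟨X * p, by simp⟩

theorem finrank_span_pair_of_ne (hA : B.IsAlt) {u v : V} (h : B u v ≠ 0) :
    finrank F (Submodule.span F {u, v}) = 2 := by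
  have := finrank_span_eq_card
    (linearIndependent_pair_of_hyp (σ := RingHom.id F) (B := B) (hA u) h)
  rwa [Matrix.range_cons_cons_empty] at this

variable [FiniteDimensional F V]

theorem natDegree_dvd_finrank_of_invariant {J : End F V} {r : F[X]} (hm : r.Monic)
    (hr : Irreducible r) (h : aeval J r = 0) {L : Submodule F V} (hL : ∀ v ∈ L, J v ∈ L) :
    r.natDegree ∣ finrank F L := by
  have h1 := natDegree_dvd_finrank_ker (J.restrict hL) hm hr
  have h2 : aeval (J.restrict hL) r = 0 := LinearMap.ext fun v => Subtype.ext (by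
    have := intertwine_aeval (f := J.restrict hL) (g := J) L.subtype (fun _ => rfl) r v
    rw [h] at this
    exact this)
  rwa [h2, LinearMap.ker_zero, finrank_top] at h1

theorem even_finrank_of_nondegOn (hB : B.Nondegenerate) (hA : B.IsAlt) {U : Submodule F V}
    (hU : NondegOn (σ := RingHom.id F) B U) : Even (finrank F U) :=
  even_finrank_of_isAlt (B := restr (σ := RingHom.id F) B U)
    ((hform_of_isAlt hB hA).restrict hU).nondegenerate fun u => hA u

variable [CharP F 3]

theorem two_ne_zero_of_three : (2 : F) ≠ 0 := fun h =>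
  one_ne_zero (by linear_combination three_eq_zero' (F := F) - h)

theorem selfAdj_self (hB : B.Nondegenerate) (hA : B.IsAlt) {K : End F V}
    (hK : (hform_of_isAlt hB hA).adj K = K) (x : V) : B (K x) x = 0 := by
  have h1 := (hform_of_isAlt hB hA).adj_left K x x
  rw [hK, ← hA.neg_eq (K x) x] at h1
  exact (mul_eq_zero.1 (by linear_combination h1)).resolve_left (two_ne_zero_of_three (F := F))

omit [CharP F 3] in
theorem adj_aeval_selfAdj (hB : B.Nondegenerate) (hA : B.IsAlt) {J : End F V}
    (hJ : (hform_of_isAlt hB hA).adj J = J) (p : F[X]) :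
    (hform_of_isAlt hB hA).adj (aeval J p) = aeval J p := by
  rw [HForm.adj_aeval, hJ, map_id]

theorem cycSub_isotropic (hB : B.Nondegenerate) (hA : B.IsAlt) {J : End F V}
    (hJ : (hform_of_isAlt hB hA).adj J = J) (x : V) :
    ∀ u ∈ cycSub J x, ∀ v ∈ cycSub J x, B u v = 0 := by
  rintro _ ⟨p, rfl⟩ _ ⟨r, rfl⟩
  change B (aeval J p x) (aeval J r x) = 0
  rw [← (hform_of_isAlt hB hA).adj_left, adj_aeval_selfAdj hB hA hJ, ← End.mul_apply, ← map_mul]
  exact selfAdj_self hB hA (adj_aeval_selfAdj hB hA hJ _) x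

theorem even_finrank_range (hB : B.Nondegenerate) (hA : B.IsAlt) {K : End F V}
    (hK : (hform_of_isAlt hB hA).adj K = K) : Even (finrank F (LinearMap.range K)) := by
  have h := hform_of_isAlt hB hA
  obtain ⟨W, hW⟩ := (LinearMap.ker K).exists_isCompl
  have hWr : finrank F W = finrank F (LinearMap.range K) := by
    have h1 := Submodule.finrank_add_eq_of_isCompl hW
    have h2 := K.finrank_range_add_finrank_ker
    omega
  let C : LinearMap.BilinForm F W := B.compl₁₂ (K ∘ₗ W.subtype) W.subtype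
  have hCA : C.IsAlt := fun x => selfAdj_self hB hA hK x
  have hsep : ∀ x : W, (∀ y, C x y = 0) → x = 0 := fun x hx => by
    have : K x = 0 := h.sep _ fun y => by
      obtain ⟨a, ha, b, hb, rfl⟩ := Submodule.mem_sup.1 (hW.sup_eq_top ▸ Submodule.mem_top (x := y))
      have e : B (K x) a = 0 := by
        rw [← hK, h.adj_left, LinearMap.mem_ker.1 ha, map_zero]
      rw [map_add, e, zero_add]
      exact hx ⟨b, hb⟩
    exact Subtype.ext (Submodule.disjoint_def.1 hW.disjoint x this x.2)
  rw [← hWr]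
  exact even_finrank_of_isAlt (B := C)
    ⟨hsep, fun x hx => hsep x fun y => by rw [← hCA.neg_eq, hx, neg_zero]⟩ hCA

theorem exists_poly_of_selfAdj (hB : B.Nondegenerate) (hA : B.IsAlt) (h6 : finrank F V = 6)
    {J : End F V} (hJ : (hform_of_isAlt hB hA).adj J = J) :
    ∃ p : F[X], p ≠ 0 ∧ p.natDegree ≤ 3 ∧ aeval J p = 0 := by
  obtain ⟨x, hx⟩ := Module.exists_ker_toSpanSingleton_eq_annihilator F[X] (Module.AEval' J)
  obtain ⟨x, rfl⟩ := (Module.AEval'.of J).surjective x
  have h3 := two_mul_finrank_le_of_isotropic (hform_of_isAlt hB hA) (cycSub_isotropic hB hA hJ x)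
  have hdep : ¬ LinearIndependent F fun i : Fin 4 =>
      (⟨(J ^ (i : ℕ)) x, X ^ (i : ℕ), by simp⟩ : cycSub J x) := fun h => by
    have := h.fintype_card_le_finrank
    rw [Fintype.card_fin] at this
    omega
  obtain ⟨c, hc, i, hi⟩ := Fintype.not_linearIndependent_iff.1 hdep
  have hc' : ∑ i : Fin 4, c i • (J ^ (i : ℕ)) x = 0 := by
    simpa using congrArg Subtype.val hc
  refine ⟨∑ i : Fin 4, monomial i (c i), fun h => hi ?_, ?_, ?_⟩
  · have := congrArg (coeff · i) h
    simpa [coeff_monomial, Fin.val_inj] using this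
  · exact natDegree_sum_le_of_forall_le _ _ fun i _ =>
      (natDegree_monomial_le _).trans (by omega)
  · have h1 : (∑ i : Fin 4, monomial (i : ℕ) (c i)) ∈ Module.annihilator F[X] (Module.AEval' J) := by
      rw [← hx, LinearMap.mem_ker, LinearMap.toSpanSingleton_apply, ← Module.AEval.of_aeval_smul,
        map_eq_zero_iff _ (Module.AEval'.of J).injective, ← hc']
      simp [aeval_monomial, LinearMap.sum_apply, Module.algebraMap_end_apply]
    refine LinearMap.ext fun v => (Module.AEval'.of J).injective ?_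
    have := Module.mem_annihilator.1 h1 (Module.AEval'.of J v)
    rwa [← Module.AEval.of_aeval_smul] at this

theorem exists_as_six [Finite F] (hB : B.Nondegenerate) (hA : B.IsAlt) (h6 : finrank F V = 6)
    {g : End F V} (hg : ∀ u v, B (g u) (g v) = B u v)
    (hno : ∀ u v, B u v ≠ 0 → g u ∈ Submodule.span F {u, v} → g v ∉ Submodule.span F {u, v})
    {a : F} (ha : ∀ x : F, x ^ 3 - x ≠ a) :
    ∃ J : End F V, (hform_of_isAlt hB hA).adj J = J ∧ J ^ 3 - J = algebraMap F _ a ∧
      ∃ i : F, J * g = g * (J + i • 1) := by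
  have hf := hform_of_isAlt hB hA
  have : Nontrivial V := Module.nontrivial_of_finrank_pos (R := F) (by omega)
  have h30 := three_eq_zero_End (F := F) (V := V)
  have hgg := hf.mul_adj_of_isometry hg
  set g' := hf.adj g with hg'
  have hgg' : g' * g = 1 := mul_eq_one_comm.1 hgg
  have hcomm : Commute g g' := by rw [Commute, SemiconjBy, hgg, hgg']
  have hcomm' : ∀ c, Commute c g → Commute c g' := fun c hc => by
    calc c * g' = g' * (g * c) * g' := by rw [← mul_assoc, hgg', one_mul]
      _ = g' * c := by rw [← hc.eq, mul_assoc, mul_assoc, hgg, mul_one]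
  have cube : ∀ x x' : End F V, Commute x x' → (x + x') ^ 3 = x ^ 3 + x' ^ 3 := fun x x' hx => by
    have := add_cube_of_comm h30 (J := x) (y := x') (by simp [hx.eq])
    simpa [hx.eq] using this
  have hno' : ∀ U : Submodule F V, NondegOn (σ := RingHom.id F) B U → (∀ u ∈ U, g u ∈ U) →
      finrank F U ≠ 2 := fun U hU hinv h2 => by
    obtain ⟨u, hu, hu0⟩ := Submodule.exists_mem_ne_zero_of_ne_bot (p := U) (by
      rintro rfl; simp at h2)
    obtain ⟨v, hv, huv⟩ : ∃ v ∈ U, B u v ≠ 0 := by
      by_contra hc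
      push Not at hc
      exact hu0 (hU u hu hc)
    have e : Submodule.span F {u, v} = U :=
      Submodule.eq_of_le_of_finrank_eq (Submodule.span_le.2 (by
        rintro x (rfl | rfl) <;> assumption)) (by rw [finrank_span_pair_of_ne hA huv, h2])
    exact hno u v huv (e ▸ hinv u hu) (e ▸ hinv v hv)
  set h := g + g' with hh
  have hha : hf.adj h = h := by rw [hh, hf.adj_add, hg', hf.adj_adj, add_comm]
  have hgh : Commute g h := (Commute.refl g).add_right hcomm
  obtain ⟨p, hp0, hpd, hp⟩ := exists_poly_of_selfAdj hB hA h6 hha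
  obtain ⟨w0, hw0⟩ := exists_ne (0 : V)
  obtain ⟨r, hm, hr, w, -, hw, hrw⟩ := exists_irreducible_step (g := h) (W := ⊤) (L := ⊥)
    (fun _ _ => trivial) (w := w0) trivial hw0 p hp0 (by simp [hp])
  rw [Submodule.mem_bot] at hw hrw
  obtain ⟨k, s, hs, rfl⟩ := WfDvdMonoid.max_power_factor hp0 hr
  have hcop : IsCoprime (r ^ k) s := (hr.coprime_iff_not_dvd.2 hs).pow_left
  have hk0 : k ≠ 0 := by
    rintro rfl
    rw [pow_zero, one_mul] at hp
    exact hw (eq_zero_of_aeval_coprime hp (hr.coprime_iff_not_dvd.2 hs).symm hrw)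
  have hrk : aeval h (r ^ k) = 0 := by
    set K := aeval h (r ^ k) with hK
    have hKa : hf.adj K = K := adj_aeval_selfAdj hB hA hha _
    have e1 : LinearMap.ker K = orth (σ := RingHom.id F) B (LinearMap.range K) := by
      rw [← hf.ker_adj, hKa]
    have hnd : NondegOn (σ := RingHom.id F) B (LinearMap.range K) := by
      rw [hf.nondegOn_iff_disjoint, ← e1, Submodule.disjoint_def]
      rintro _ ⟨x, rfl⟩ hx
      obtain ⟨b, c, hbc⟩ := hcop
      have e2 : aeval h s (K x) = 0 := by
        rw [hK, ← End.mul_apply, ← map_mul, mul_comm, hp, LinearMap.zero_apply]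
      have := congrArg (fun q => aeval h q (K x)) hbc
      simp only [map_add, map_mul, LinearMap.add_apply, End.mul_apply, e2, ← hK,
        LinearMap.mem_ker.1 hx, map_zero, add_zero, map_one, End.one_apply] at this
      exact this.symm
    have cK : Commute g K := commute_aeval_of_commute hgh _
    have inv1 : ∀ u ∈ LinearMap.range K, g u ∈ LinearMap.range K := by
      rintro _ ⟨x, rfl⟩
      exact ⟨g x, by rw [← End.mul_apply, ← cK.eq, End.mul_apply]⟩
    have a1 := hno' _ hnd inv1
    have a2 := hno' _ (hf.nondegOn_orth hnd) (hf.mem_orth_of_isometry hg inv1)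
    have a3 := hf.finrank_orth (LinearMap.range K)
    obtain ⟨m, a4⟩ := even_finrank_of_nondegOn hB hA hnd
    have a5 : finrank F (orth (σ := RingHom.id F) B (LinearMap.range K)) ≠ 0 := by
      rw [Ne, Submodule.finrank_eq_zero, ← e1, Submodule.eq_bot_iff]
      intro hc
      refine hw (hc w ?_)
      obtain ⟨j, rfl⟩ := Nat.exists_eq_succ_of_ne_zero hk0
      rw [LinearMap.mem_ker, hK, pow_succ, map_mul, End.mul_apply, hrw, map_zero]
    exact LinearMap.range_eq_bot.1 (Submodule.finrank_eq_zero.1 (by omega))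
  have hdeg : k * r.natDegree ≤ 3 := by
    rw [← natDegree_pow]
    exact (natDegree_le_of_dvd (dvd_mul_right _ _) hp0).trans hpd
  have hr0 := hr.natDegree_pos
  by_cases hr1 : r.natDegree = 1
  swap
  · have hk1 : k = 1 := by
      by_contra hc
      have : 2 * 2 ≤ k * r.natDegree := Nat.mul_le_mul (by omega) (by omega)
      omega
    rw [hk1, pow_one] at hrk
    rw [hk1, one_mul] at hdeg
    by_cases hr2 : r.natDegree = 2
    · exfalso
      have ev : ∀ L : Submodule F V, (∀ v ∈ L, h v ∈ L) → 2 ∣ finrank F L := fun L hL =>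
        hr2 ▸ natDegree_dvd_finrank_of_invariant hm hr hrk hL
      have b1 := ev _ (cycSub_invariant h w)
      have b2 := two_mul_finrank_le_of_isotropic hf (cycSub_isotropic hB hA hha w)
      have b3 : finrank F (cycSub h w) ≠ 0 := by
        rw [Ne, Submodule.finrank_eq_zero, Submodule.eq_bot_iff]
        exact fun hc => hw (hc w (self_mem_cycSub h w))
      have b4 := hf.finrank_orth (cycSub h w)
      obtain ⟨y, hy, hy'⟩ := SetLike.not_le_iff_exists.1
        (show ¬ orth (σ := RingHom.id F) B (cycSub h w) ≤ cycSub h w from fun hle => by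
          have := Submodule.finrank_mono hle
          omega)
      have oinv : ∀ v ∈ orth (σ := RingHom.id F) B (cycSub h w),
          h v ∈ orth (σ := RingHom.id F) B (cycSub h w) := by
        have := hf.adj_mem_orth (cycSub_invariant h w)
        rwa [hha] at this
      have b5 : ∀ u ∈ cycSub h w, ∀ v ∈ cycSub h y, B u v = 0 := by
        rintro u hu _ ⟨q, rfl⟩
        exact aeval_mem_of_invariant oinv q hy u hu
      have b6 := ev (cycSub h w ⊔ cycSub h y) fun v hv => by
        obtain ⟨x, hx, z, hz, rfl⟩ := Submodule.mem_sup.1 hv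
        rw [map_add]
        exact Submodule.add_mem_sup (cycSub_invariant h w x hx) (cycSub_invariant h y z hz)
      have b7 := two_mul_finrank_le_of_isotropic hf (U := cycSub h w ⊔ cycSub h y)
        fun u hu v hv => by
          obtain ⟨x, hx, z, hz, rfl⟩ := Submodule.mem_sup.1 hu
          obtain ⟨x', hx', z', hz', rfl⟩ := Submodule.mem_sup.1 hv
          simp [cycSub_isotropic hB hA hha w x hx x' hx', cycSub_isotropic hB hA hha y z hz z' hz',
            b5 x hx z' hz', hf.eq_zero_comm.1 (b5 x' hx' z hz)]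
      have b8 : finrank F (cycSub h w) < finrank F (cycSub h w ⊔ cycSub h y :) :=
        Submodule.finrank_lt_finrank_of_lt (lt_of_le_of_ne le_sup_left fun e =>
          hy' (e ▸ Submodule.mem_sup_right (self_mem_cycSub h y)))
      omega
    · obtain ⟨q, c, hc⟩ := exists_dvd_comp_irreducible (irreducible_asPoly ha) hr
        (by rw [natDegree_asPoly]; omega)
      refine ⟨aeval h q, adj_aeval_selfAdj hB hA hha q, aeval_asPoly_eq_zero.1 ?_, 0, ?_⟩
      · rw [← aeval_comp, hc, map_mul, hrk, zero_mul]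
      · simp [(commute_aeval_of_commute hgh q).eq]
  -- the unipotent-type cases
  obtain ⟨t, ht⟩ : ∃ t : F, aeval h r = h - t • 1 := ⟨-r.coeff 0, by
    conv_lhs => rw [hm.eq_X_add_C hr1]
    simp [Algebra.algebraMap_eq_smul_one]⟩
  set n := h - t • (1 : End F V) with hn
  have hn3 : n ^ 3 = 0 := by
    rw [map_pow, ht] at hrk
    exact pow_eq_zero_of_le (by rw [hr1] at hdeg; omega) hrk
  have hna : hf.adj n = n := by rw [← ht]; exact adj_aeval_selfAdj hB hA hha r
  have fin : ∀ N : End F V, N ^ 3 = 0 → finrank F (LinearMap.range (N ^ 2)) = 2 →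
      (∀ c, Commute c g → Commute c N) →
      ∃ J : End F V, hf.adj J = J ∧ J ^ 3 - J = algebraMap F _ a ∧
        ∃ i : F, J * g = g * (J + i • 1) := fun N h1 h2 h3 => by
    obtain ⟨D, hD⟩ := exists_comm_eq_self (g := g) h1 (by omega) h3
    obtain ⟨J, j1, j2, j3⟩ := hf.exists_as hg hD (T := t ^ 3) (by
      have : h = n + t • 1 := by rw [hn, sub_add_cancel]
      rw [← hg', ← cube _ _ hcomm, ← hh, this, cube _ _ ((Commute.one_right n).smul_right t), hn3,
        zero_add, _root_.smul_pow, one_pow, Algebra.algebraMap_eq_smul_one])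
      (fun J hJ => exists_poly_of_selfAdj hB hA h6 hJ) (a := a) rfl
    exact ⟨J, j1, j2, 1, by simpa using j3⟩
  have rank2 : ∀ K : End F V, hf.adj K = K → K * K = 0 → K ≠ 0 →
      finrank F (LinearMap.range K) = 2 := fun K h1 h2 h3 => by
    obtain ⟨m, b1⟩ := even_finrank_range hB hA h1
    have b2 := two_mul_finrank_le_of_isotropic hf (U := LinearMap.range K) (by
      rintro _ ⟨x, rfl⟩ _ ⟨y, rfl⟩
      rw [← hf.adj_left, h1, ← End.mul_apply, h2]; simp)
    have b3 : finrank F (LinearMap.range K) ≠ 0 := by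
      rwa [Ne, Submodule.finrank_eq_zero, LinearMap.range_eq_bot]
    omega
  by_cases hn2 : n ^ 2 = 0
  swap
  · exact fin n hn3 (rank2 _ (by rw [hf.adj_pow, hna]) (by
      rw [← pow_add]; exact pow_eq_zero_of_le (by norm_num) hn3) hn2) fun c hc =>
        (hc.add_right (hcomm' c hc)).sub_right ((Commute.one_right c).smul_right t)
  set R := LinearMap.range n with hR
  set Kr := LinearMap.ker n with hKr
  have hKR : Kr = orth (σ := RingHom.id F) B R := by rw [hKr, hR, ← hf.ker_adj, hna]
  have hRK : R ≤ Kr := by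
    rintro _ ⟨x, rfl⟩
    simpa [pow_two, hKr] using LinearMap.congr_fun hn2 x
  have hR2 : finrank F R ≤ 2 := by
    by_cases h0 : n = 0
    · rw [hR, h0, LinearMap.range_zero, finrank_bot]; omega
    · exact (rank2 n hna (by rw [← pow_two, hn2]) h0).le
  have hRK0 : ∀ x ∈ R, ∀ y ∈ Kr, B x y = 0 := fun x hx y hy => (hKR ▸ hy :) x hx
  have hgn : Commute g n := hgh.sub_right ((Commute.one_right g).smul_right t)
  have hKinv : ∀ v ∈ Kr, g v ∈ Kr := fun v hv => by
    rw [hKr, LinearMap.mem_ker, ← End.mul_apply, ← hgn.eq, End.mul_apply, LinearMap.mem_ker.1 hv,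
      map_zero]
  have hK1 : ∀ v ∈ Kr, g' v = t • v - g v := fun v hv => by
    have : g v + g' v - t • v = 0 := hv
    linear_combination (norm := module) this
  have hK2 : ∀ v ∈ Kr, B v (g v) = 0 := fun v hv => by
    by_contra hc
    refine hno v (g v) hc (Submodule.subset_span (by simp)) (Submodule.mem_span_pair.2 ⟨-1, t, ?_⟩)
    have := congrArg g (hK1 v hv)
    rw [← End.mul_apply, hgg, map_sub, map_smul, End.one_apply] at this
    linear_combination (norm := module) -this
  have hK3 : ∀ v ∈ Kr, g v + t • v ∈ R := fun v hv => by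
    rw [← hf.orth_orth R, ← hKR]
    intro u hu
    have e1 := hK2 _ (Kr.add_mem hu hv)
    simp only [map_add, LinearMap.add_apply, hK2 u hu, hK2 v hv] at e1
    have e2 := hf.adj_right g u v
    rw [← hg', hK1 v hv, map_sub, map_smul, ← hA.neg_eq v (g u), smul_eq_mul] at e2
    rw [map_add, map_smul, smul_eq_mul]
    linear_combination e1 + e2 + B u (g v) * three_eq_zero' (F := F) - 2 * e1
  obtain ⟨u, hu, v, hv, huv⟩ : ∃ u ∈ Kr, ∃ v ∈ Kr, B u v ≠ 0 := by
    by_contra hc
    push Not at hc
    have b1 := two_mul_finrank_le_of_isotropic hf hc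
    have b2 := n.finrank_range_add_finrank_ker
    rw [← hR, ← hKr] at b2
    omega
  have ht2 : t * t = 1 := by
    have e1 := hg u v
    rw [show g u = (g u + t • u) - t • u by abel, show g v = (g v + t • v) - t • v by abel] at e1
    simp only [map_sub, LinearMap.sub_apply, map_smul, LinearMap.smul_apply, smul_eq_mul,
      hRK0 _ (hK3 u hu) _ (hRK (hK3 v hv)), hRK0 _ (hK3 u hu) _ hv,
      hf.eq_zero_comm.1 (hRK0 _ (hK3 v hv) _ hu)] at e1
    exact mul_right_cancel₀ huv (by linear_combination e1)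
  set N := g + t • (1 : End F V) with hN
  have hN' : ∀ x, N x = g x + t • x := fun _ => rfl
  have hN2 : N ^ 2 = n * g := by
    rw [hn, hh, sub_mul, add_mul, hgg', hN, pow_two]
    simp only [add_mul, mul_add, smul_mul_assoc, mul_smul_comm, one_mul, mul_one]
    have : (3 : F) • t • g = 0 := by rw [three_eq_zero', zero_smul]
    linear_combination (norm := module) this + ht2 • (1 : End F V)
  have hrange : LinearMap.range (N ^ 2) = R := by
    rw [hN2, hR]
    exact LinearMap.range_comp_of_range_eq_top _ (LinearMap.range_eq_top.2 fun x =>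
      ⟨g' x, by rw [← End.mul_apply, hgg, End.one_apply]⟩)
  have plane : ∀ u v, B u v ≠ 0 → N u = 0 → N v = 0 → False := fun u v h1 h2 h3 =>
    hno u v h1 (Submodule.mem_span_pair.2 ⟨-t, 0, by
      rw [hN'] at h2; linear_combination (norm := module) -h2⟩)
      (Submodule.mem_span_pair.2 ⟨0, -t, by
        rw [hN'] at h3; linear_combination (norm := module) -h3⟩)
  by_cases h0 : n = 0
  · have hR0 : R = ⊥ := by rw [hR, h0, LinearMap.range_zero]
    exact (plane u v huv (by simpa [hR0, hN'] using hK3 u hu)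
      (by simpa [hR0, hN'] using hK3 v hv)).elim
  have hR2' : finrank F R = 2 := rank2 n hna (by rw [← pow_two, hn2]) h0
  by_cases hN3 : N ^ 3 = 0
  · exact fin N hN3 (by rw [hrange, hR2']) fun c hc =>
      hc.add_right ((Commute.one_right c).smul_right t)
  exfalso
  have hNR : ∀ x ∈ R, N x ∈ R := fun x hx => hK3 x (hRK hx)
  have hNN : ∀ x ∈ Kr, N (N x) = 0 := fun x hx => by
    rw [← End.mul_apply, ← pow_two, hN2, End.mul_apply]
    exact hKinv x hx
  have hle : LinearMap.range (N.restrict hNR) ≤ LinearMap.ker (N.restrict hNR) := by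
    rintro _ ⟨x, rfl⟩
    exact Subtype.ext (hNN x (hRK x.2))
  have heq : LinearMap.range (N.restrict hNR) = LinearMap.ker (N.restrict hNR) := by
    refine Submodule.eq_of_le_of_finrank_le hle ?_
    have b1 := (N.restrict hNR).finrank_range_add_finrank_ker
    have b2 : finrank F (LinearMap.range (N.restrict hNR)) ≠ 0 := by
      rw [Ne, Submodule.finrank_eq_zero, LinearMap.range_eq_bot]
      intro hc
      refine hN3 (LinearMap.ext fun x => ?_)
      have := congrArg Subtype.val (LinearMap.congr_fun hc ⟨(N ^ 2) x, hrange ▸ ⟨x, rfl⟩⟩)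
      rw [pow_succ', End.mul_apply]
      exact this
    omega
  have corr : ∀ x ∈ Kr, ∃ y ∈ R, N (x - y) = 0 := fun x hx => by
    have : (⟨N x, hK3 x hx⟩ : R) ∈ LinearMap.ker (N.restrict hNR) := Subtype.ext (hNN x hx)
    rw [← heq] at this
    obtain ⟨y, hy⟩ := this
    exact ⟨y, y.2, by rw [map_sub, sub_eq_zero]; exact (congrArg Subtype.val hy).symm⟩
  obtain ⟨y, hy, hy'⟩ := corr u hu
  obtain ⟨z, hz, hz'⟩ := corr v hv
  refine plane _ _ ?_ hy' hz'
  simpa [hRK0 y hy v hv, hRK0 y hy z (hRK hz), hf.eq_zero_comm.1 (hRK0 z hz u hu)] using huv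

theorem exists_isom_as_six (hB : B.Nondegenerate) (hA : B.IsAlt) (h6 : finrank F V = 6) {a : F}
    (ha : ∀ x : F, x ^ 3 - x ≠ a) {J J' : End F V} (hJ : (hform_of_isAlt hB hA).adj J = J)
    (hJ' : (hform_of_isAlt hB hA).adj J' = J') (h1 : J ^ 3 - J = algebraMap F _ a)
    (h1' : J' ^ 3 - J' = algebraMap F _ a) :
    ∃ t : isomGroup (σ := RingHom.id F) B,
      ∀ v, (t : V ≃ₗ[F] V) (J v) = J' ((t : V ≃ₗ[F] V) v) := by
  have hf := hform_of_isAlt hB hA
  have : Nontrivial V := Module.nontrivial_of_finrank_pos (R := F) (by omega)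
  obtain ⟨v, hv⟩ := exists_ne (0 : V)
  let G : Fin 6 → Fin 6 → F := ![![0, 0, 0, 0, 0, 1], ![0, 0, 0, 0, 1, 0], ![0, 0, 0, 1, 0, 1],
    ![0, 0, -1, 0, 0, 0], ![0, -1, 0, 0, 0, 0], ![-1, 0, -1, 0, 0, 0]]
  have key : ∀ J : End F V, hf.adj J = J → J ^ 3 - J = algebraMap F _ a →
      ∃ w, (∀ i j, B (![v, J v, J (J v), w, J w, J (J w)] i)
        (![v, J v, J (J v), w, J w, J (J w)] j) = G i j) ∧
        LinearIndependent F ![v, J v, J (J v), w, J w, J (J w)] := by
    intro J hJ h1
    have hJ3 : ∀ x, J (J (J x)) = J x + a • x := fun x => by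
      have := LinearMap.congr_fun h1 x
      simp only [pow_succ, pow_zero, one_mul, LinearMap.sub_apply, End.mul_apply,
        Module.algebraMap_end_apply] at this
      linear_combination (norm := module) this
    have sa : ∀ x y, B (J x) y = B x (J y) := fun x y => by rw [← hf.adj_left, hJ]
    have hli : LinearIndependent F ![v, J v, J (J v)] := by
      rw [Fintype.linearIndependent_iff]
      intro c hc
      have hr : C (c 2) * X ^ 2 + C (c 1) * X + C (c 0) = 0 := by
        by_contra hr
        refine hv (eq_zero_of_aeval_coprime (aeval_asPoly_eq_zero.2 h1)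
          ((irreducible_asPoly ha).coprime_iff_not_dvd.2 fun hd => ?_) (r := C (c 2) * X ^ 2 +
            C (c 1) * X + C (c 0)) ?_)
        · have := (natDegree_le_of_dvd hd hr).trans natDegree_quadratic_le
          rw [natDegree_asPoly] at this
          omega
        · rw [← hc]
          simp [Fin.sum_univ_three, pow_two, Module.algebraMap_end_apply]
          abel
      intro i
      have := congrArg (coeff · i) hr
      fin_cases i <;> simpa [coeff_X, coeff_C] using this
    obtain ⟨w, hw⟩ := hf.exists_forall_eq' hli ![0, 0, 1]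
    have w0 : B v w = 0 := hw 0
    have w1 : B v (J w) = 0 := by rw [← sa]; exact hw 1
    have w2 : B v (J (J w)) = 1 := by rw [← sa, ← sa]; exact hw 2
    have z0 : ∀ x, B x x = 0 := hA
    have z1 : ∀ x, B x (J x) = 0 := fun x => by rw [← sa]; exact selfAdj_self hB hA hJ x
    have z2 : ∀ x, B x (J (J x)) = 0 := fun x => by rw [← sa]; exact hA _
    have u0 : B w v = 0 := by rw [← hA.neg_eq, w0, neg_zero]
    have u1 : B w (J v) = 0 := by rw [← hA.neg_eq, sa, w1, neg_zero]
    have u2 : B w (J (J v)) = -1 := by rw [← hA.neg_eq, sa, sa, w2]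
    have hG : ∀ i j, B (![v, J v, J (J v), w, J w, J (J w)] i)
        (![v, J v, J (J v), w, J w, J (J w)] j) = G i j := fun i j => by
      fin_cases i <;> fin_cases j <;>
        simp [G, sa, hJ3, z0, z1, z2, w0, w1, w2, u0, u1, u2]
    refine ⟨w, hG, Fintype.linearIndependent_iff.2 fun c hc => ?_⟩
    have e : ∀ j, ∑ i, c i * G i j = 0 := fun j => by
      have := congrArg (fun x => B x (![v, J v, J (J v), w, J w, J (J w)] j)) hc
      simpa only [map_sum, LinearMap.sum_apply, map_smul, LinearMap.smul_apply, hG, smul_eq_mul,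
        map_zero, LinearMap.zero_apply] using this
    have e0 := e 0
    have e1 := e 1
    have e2 := e 2
    have e3 := e 3
    have e4 := e 4
    have e5 := e 5
    simp [G, Fin.sum_univ_six] at e0 e1 e2 e3 e4 e5
    intro i
    fin_cases i
    · exact (by linear_combination e5 - e3 : c 0 = 0)
    · exact e4
    · exact e3
    · exact (by linear_combination -e2 - e0 : c 3 = 0)
    · exact e1
    · exact e0
  obtain ⟨w, hw, hli⟩ := key J hJ h1
  obtain ⟨w', hw', hli'⟩ := key J' hJ' h1'
  obtain ⟨t, ht⟩ := (good_of_isAlt B hB hA).witt_family hli hli' fun i j => by rw [hw, hw']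
  have J3 : ∀ J : End F V, J ^ 3 - J = algebraMap F _ a → ∀ x, J (J (J x)) = J x + a • x :=
    fun J h1 x => by
      have := LinearMap.congr_fun h1 x
      simp only [pow_succ, pow_zero, one_mul, LinearMap.sub_apply, End.mul_apply,
        Module.algebraMap_end_apply] at this
      linear_combination (norm := module) this
  have t0 : (t : V ≃ₗ[F] V) v = v := ht 0
  have t1 : (t : V ≃ₗ[F] V) (J v) = J' v := ht 1
  have t2 : (t : V ≃ₗ[F] V) (J (J v)) = J' (J' v) := ht 2
  have t3 : (t : V ≃ₗ[F] V) w = w' := ht 3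
  have t4 : (t : V ≃ₗ[F] V) (J w) = J' w' := ht 4
  have t5 : (t : V ≃ₗ[F] V) (J (J w)) = J' (J' w') := ht 5
  have : ((t : V ≃ₗ[F] V) : End F V) ∘ₗ J = J' ∘ₗ ((t : V ≃ₗ[F] V) : End F V) := by
    refine (basisOfLinearIndependentOfCardEqFinrank hli (by simp [h6])).ext fun i => ?_
    rw [coe_basisOfLinearIndependentOfCardEqFinrank]
    fin_cases i <;> simp [t0, t1, t2, t3, t4, t5, J3 J h1, J3 J' h1']
  exact ⟨t, fun x => LinearMap.congr_fun this x⟩

omit [CharP F 3] in
theorem exists_isom_plane (hB : B.Nondegenerate) (hA : B.IsAlt) {u v u' v' : V} (h : B u v ≠ 0)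
    (h' : B u' v' ≠ 0) : ∃ t : isomGroup (σ := RingHom.id F) B, (Submodule.span F {u, v}).map
      ((t : V ≃ₗ[F] V) : V →ₗ[F] V) = Submodule.span F {u', v'} := by
  have e : B u' ((B u v / B u' v') • v') = B u v := by
    rw [map_smul, smul_eq_mul, div_mul_cancel₀ _ h']
  obtain ⟨t, h1, h2⟩ := (good_of_isAlt B hB hA).witt_two
    (linearIndependent_pair_of_hyp (σ := RingHom.id F) (B := B) (hA u) h)
    (linearIndependent_pair_of_hyp (σ := RingHom.id F) (B := B) (hA u') (e.symm ▸ h :
      B u' ((B u v / B u' v') • v') ≠ 0))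
    (by rw [hA, hA]) e (by rw [hA, hA])
  refine ⟨t, Submodule.eq_of_le_of_finrank_eq ?_ (by
    rw [LinearEquiv.finrank_map_eq, finrank_span_pair_of_ne hA h, finrank_span_pair_of_ne hA h'])⟩
  rw [Submodule.map_span, Submodule.span_le]
  rintro x ⟨y, rfl | rfl, rfl⟩
  · change (t : V ≃ₗ[F] V) y ∈ _
    rw [h1]; exact Submodule.subset_span (by simp)
  · change (t : V ≃ₗ[F] V) y ∈ _
    rw [h2]; exact Submodule.smul_mem _ _ (Submodule.subset_span (by simp))

theorem cover2Z_six [Finite F] (hB : B.Nondegenerate) (hA : B.IsAlt) (h6 : finrank F V = 6) :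
    Cover2Z (isomGroup (σ := RingHom.id F) B) := by
  have hf := hform_of_isAlt hB hA
  have hg := good_of_isAlt B hB hA
  have : Nontrivial V := Module.nontrivial_of_finrank_pos (R := F) (by omega)
  obtain ⟨u, hu⟩ := exists_ne (0 : V)
  obtain ⟨v, huv⟩ := hg.exists_ne hu
  have hH : stab (σ := RingHom.id F) B (Submodule.span F {u, v}) ≠ ⊤ := fun htop => by
    obtain ⟨y, -, hy⟩ := SetLike.not_le_iff_exists.1
      (show ¬ (⊤ : Submodule F V) ≤ Submodule.span F {u, v} from fun hle => by
        have := Submodule.finrank_mono hle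
        rw [finrank_top, finrank_span_pair_of_ne hA huv] at this
        omega)
    obtain ⟨t, ht⟩ := hg.witt_one hu (y := y) (by rintro rfl; simp at hy) (by rw [hA, hA])
    have h1 : t ∈ stab (σ := RingHom.id F) B (Submodule.span F {u, v}) :=
      htop ▸ Subgroup.mem_top _
    exact hy (ht ▸ (h1 u).1 (Submodule.subset_span (by simp)))
  have hZH : Subgroup.center _ ≤ stab (σ := RingHom.id F) B (Submodule.span F {u, v}) :=
    fun z hz => by
      obtain ⟨c, hc⟩ := exists_smul_of_mem_center hB hA hz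
      exact mem_stab_of_smul hc _
  obtain ⟨a, -, ha⟩ := exists_fixed_not_cube_sub (σ := RingHom.id F) (k := 0) (by simp) (by simp)
  have main : ∀ g : isomGroup (σ := RingHom.id F) B, (∃ t, t * g * t⁻¹ ∈
      stab (σ := RingHom.id F) B (Submodule.span F {u, v})) ∨ ∃ J : End F V, hf.adj J = J ∧
        J ^ 3 - J = algebraMap F _ a ∧ g ∈ shiftStab (σ := RingHom.id F) B J := fun g => by
    rw [or_iff_not_imp_left]
    intro hcon
    obtain ⟨J, h1, h2, i, hi⟩ := exists_as_six hB hA h6 (g := ((g : V ≃ₗ[F] V) : End F V))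
      (isom_apply _) (fun x y hxy hx hy => by
        obtain ⟨t, ht⟩ := exists_isom_plane hB hA huv hxy
        refine hcon ⟨_, conj_mem_stab ht (mem_stab_of_forall_mem fun z hz => ?_)⟩
        obtain ⟨b, c, rfl⟩ := Submodule.mem_span_pair.1 hz
        rw [map_add, map_smul, map_smul]
        exact Submodule.add_mem _ (Submodule.smul_mem _ _ hx) (Submodule.smul_mem _ _ hy)) ha
    exact ⟨J, h1, h2, mem_shiftStab_of_mul hi⟩
  by_cases hJ : ∃ J : End F V, hf.adj J = J ∧ J ^ 3 - J = algebraMap F _ a
  swap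
  · refine ⟨_, _, hH, hH, hZH, hZH, fun g => ?_⟩
    rcases main g with ⟨t, ht⟩ | ⟨J, h1, h2, -⟩
    · exact ⟨t, Or.inl ht⟩
    · exact (hJ ⟨J, h1, h2⟩).elim
  obtain ⟨J, hJ1, hJ2⟩ := hJ
  have hK : shiftStab (σ := RingHom.id F) B J ≠ ⊤ := fun htop =>
    not_mem_shiftStab (by omega) hJ2 ha hu (φ := B u) huv
      (t := hg.refl u 1 (by simp [hA u])) (fun y => by rw [hg.refl_apply, one_mul])
      (htop ▸ Subgroup.mem_top _)
  refine ⟨_, _, hH, hK, hZH, fun z hz => ?_, fun g => ?_⟩
  · obtain ⟨c, hc⟩ := exists_smul_of_mem_center hB hA hz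
    exact mem_shiftStab_of_smul hc J
  rcases main g with ⟨t, ht⟩ | ⟨J', h1, h2, hg⟩
  · exact ⟨t, Or.inl ht⟩
  obtain ⟨t, ht⟩ := exists_isom_as_six hB hA h6 ha hJ1 h1 hJ2 h2
  exact ⟨_, Or.inr (conj_mem_shiftStab ht hg)⟩

theorem cover2_PSp_six {K : Type} [Field K] [Fintype K] {a : ℕ} (hK : Fintype.card K = 3 ^ a) :
    Cover2 (PSp 3 K) := by
  have : CharP K 3 := by
    have : Fact (Nat.Prime 3) := ⟨Nat.prime_three⟩
    exact charP_of_card_eq_prime_pow hK
  exact (Cover2Z.of_mulEquiv ((spEquivIsom 3 K).trans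
    (MulEquiv.subgroupCongr (Isom_sympBilin 3).symm))
    (cover2Z_six (sympBilin_nondegenerate 3) (sympBilin_isAlt 3) (by simp))).quotient

end Cfsg.Lib.Known
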