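import Mathlib
import Cfsg.Agent.Known.ElusO1

/-!
Subspaces fixed by elements of odd prime order `r ≠ p` of orthogonal groups.
-/

namespace Cfsg.Lib.Known

open Module Polynomial Cfsg.Lib.Class Cfsg.Lib.Class.Form QuadraticMap
open Cfsg.Lib.Class.Orth hiding orth stab mem_orth mem_orth'

universe u v

variable {F : Type u} [Field F] {V : Type v} [AddCommGroup V] [Module F V] {Q : QuadraticForm F V}
  {g : End F V}

/-- `g` lies in `Ω(Q)`. -/
def InOm (Q : QuadraticForm F V) (g : End F V) : Prop :=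
  ∃ x ∈ commutator (O Q), (x.1 : End F V) = g

theorem InOm.isom (h : InOm Q g) (v : V) : Q (g v) = Q v := by
  obtain ⟨x, -, rfl⟩ := h
  exact mem_O.mp x.2 v

theorem quad_smul_isom (hg : ∀ v, Q (g v) = Q v) {z : F} (hz : z * z = 1) (v : V) :
    Q ((z • g) v) = Q v := by
  rw [LinearMap.smul_apply, Q_smul, pow_two, hz, one_mul, hg]

section Mat

variable {ι : Type} [Fintype ι] [DecidableEq ι] {Q : QuadraticForm F (ι → F)}

theorem mem_omegaGL_iff (x : GL ι F) :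
    x ∈ Geo.omegaGL Q ↔ InOm Q (Matrix.toLin' (x : Matrix ι ι F)) := by
  constructor
  · rintro ⟨y, hy, rfl⟩
    exact ⟨oEquivIsom Q y, (exists_mem_Omega_mat_iff _ _ fun _ => rfl).mp ⟨y, hy, rfl⟩,
      LinearMap.ext fun _ => rfl⟩
  · rintro ⟨y, hy, h⟩
    obtain ⟨z, hz, h1⟩ := (exists_mem_Omega_mat_iff y x
      fun v => (LinearMap.congr_fun h v).symm).mpr hy
    exact ⟨z, hz, Units.ext h1⟩

theorem InOm.det_ne_zero {g : End F (ι → F)} (h : InOm Q g) : LinearMap.det g ≠ 0 := by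
  obtain ⟨x, -, rfl⟩ := h
  exact x.1.isUnit_det'.ne_zero

theorem forall_Om_iff (r : ℕ) (Φ : End F (ι → F) → Prop) :
    (∀ x : GL ι F, x ∈ Geo.omegaGL Q → (∃ z : F, ((x ^ r : GL ι F) : Matrix ι ι F) = z • 1) →
      (∀ z : F, (x : Matrix ι ι F) ≠ z • 1) → Φ (Matrix.toLin' (x : Matrix ι ι F))) ↔
    ∀ g, InOm Q g → (∃ z : F, g ^ r = z • 1) → (∀ z : F, g ≠ z • 1) → Φ g :=
  forall_GL_iff _ _ mem_omegaGL_iff (fun _ => InOm.det_ne_zero) r _ Φ fun _ _ => Iff.rfl

theorem forall_Om_order_iff (r : ℕ) [Fact r.Prime] (Φ : End F (ι → F) → Prop) :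
    (∀ x : GL ι F, x ∈ Geo.omegaGL Q → orderOf x = r → Φ (Matrix.toLin' (x : Matrix ι ι F))) ↔
    ∀ g, InOm Q g → g ^ r = 1 → g ≠ 1 → Φ g := by
  have h1 : ∀ x : GL ι F, orderOf x = r ↔ Matrix.toLin' (x : Matrix ι ι F) ^ r = 1 ∧
      Matrix.toLin' (x : Matrix ι ι F) ≠ 1 := fun x => by
    rw [orderOf_eq_prime_iff, ← Matrix.toLin'_pow, Ne, Ne, Units.ext_iff, Units.ext_iff,
      Module.End.one_eq_id, ← Matrix.toLin'_one, EmbeddingLike.apply_eq_iff_eq,
      EmbeddingLike.apply_eq_iff_eq]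
    rfl
  simp only [mem_omegaGL_iff, h1, and_imp]
  refine ⟨fun h g hg => ?_, fun h x => h _⟩
  obtain ⟨x, rfl⟩ : ∃ x : GL ι F, Matrix.toLin' (x : Matrix ι ι F) = g :=
    ⟨(glLin ι F).symm (LinearMap.equivOfDetNeZero g hg.det_ne_zero), by
      rw [← glLin_toLinearMap, MulEquiv.apply_symm_apply]; rfl⟩
  exact h x hg

omit [Fintype ι] [DecidableEq ι] in
theorem isNondegenerateOn_polar_iff {W : Submodule F (ι → F)} :
    Geo.IsNondegenerateOn (polar Q) W ↔ ND Q W := by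
  refine forall₂_congr fun w _ => ?_
  simp only [polar_comm Q _ w, and_self, polarBilin_apply_apply]
  exact ⟨fun h h1 => by_contra fun h2 => (h h2).elim fun x hx => hx.2 (h1 x hx.1),
    fun h h1 => by_contra fun h2 => h1 (h (by simpa using h2))⟩

variable [Finite F]

omit [DecidableEq ι] in
theorem nt_plus_iff {m : ℕ} (hm : Even m) {W : Submodule F (ι → F)} :
    (finrank F W = m ∧ Geo.IsNondegenerateOn (polar Q) W ∧ Geo.IsPlusTypeOn Q W) ↔
      NT Q m True W := by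
  rw [NT, isNondegenerateOn_polar_iff, iff_true]
  exact and_congr_right fun h1 => and_congr_right fun h2 =>
    isPlus_restrict_iff'.symm.trans (isPlus_iff_tp h2.restrict (h1 ▸ hm))

omit [DecidableEq ι] in
theorem nt_plus_iff' {m : ℕ} (hm : Even m) {W : Submodule F (ι → F)} :
    (finrank F W = m ∧ (∀ u ∈ W, u ≠ 0 → ∃ v ∈ W, polar Q u v ≠ 0) ∧
      ∃ U ≤ W, 2 * finrank F U = m ∧ ∀ u ∈ U, Q u = 0) ↔ NT Q m True W := by
  rw [← nt_plus_iff hm]
  refine and_congr_right fun h1 => and_congr (forall₂_congr fun w _ => ?_)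
    (exists_congr fun U => and_congr_right fun _ => by rw [h1, and_comm]; rfl)
  simp only [polar_comm Q _ w, and_self]

omit [DecidableEq ι] in
theorem nt_minus_iff {m : ℕ} (hm : Even m) {W : Submodule F (ι → F)} :
    (finrank F W = m ∧ Geo.IsNondegenerateOn (polar Q) W ∧ ¬ Geo.IsPlusTypeOn Q W) ↔
      NT Q m False W := by
  rw [NT, isNondegenerateOn_polar_iff, iff_false]
  exact and_congr_right fun h1 => and_congr_right fun h2 => not_congr
    (isPlus_restrict_iff'.symm.trans (isPlus_iff_tp h2.restrict (h1 ▸ hm)))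

omit [DecidableEq ι] in
theorem nt_isom_iff {m : ℕ} {W₀ W : Submodule F (ι → F)}
    (h : finrank F W₀ = m ∧ Geo.IsNondegenerateOn (polar Q) W₀) :
    (finrank F W = m ∧ Geo.IsNondegenerateOn (polar Q) W ∧ Geo.AreIsometricFor Q W W₀) ↔
      NT Q m (Tp (Q.restrict W₀)) W := by
  rw [NT, isNondegenerateOn_polar_iff]
  exact and_congr_right fun h1 => and_congr_right fun h2 =>
    ⟨fun ⟨e, he⟩ => (tp_congr e he).symm, exists_equiv_of_tp h2.restrict
      (isNondegenerateOn_polar_iff.mp h.2).restrict (h.1.trans h1.symm)⟩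

end Mat

variable [FiniteDimensional F V]

theorem exists_O_eq (hQ : (polarBilin Q).Nondegenerate) (hg : ∀ v, Q (g v) = Q v) :
    ∃ x : O Q, (x.1 : End F V) = g :=
  ⟨⟨LinearEquiv.ofInjectiveEndo g ((hform_polarBilin hQ).injective_of_isom (polar_isometry hg)),
    mem_O.mpr hg⟩, rfl⟩

theorem coe_O_pow (x : O Q) (k : ℕ) : ((x ^ k).1 : End F V) = (x.1 : End F V) ^ k := by
  induction k with
  | zero => rfl
  | succ k ih => rw [pow_succ, pow_succ, ← ih]; rfl

theorem inOm_of_odd [Finite F] (hQ : (polarBilin Q).Nondegenerate) (hE : ¬ Exc Q)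
    (hg : ∀ v, Q (g v) = Q v) {r : ℕ} (hr : Odd r) (h : g ^ r = 1) : InOm Q g := by
  obtain ⟨x, rfl⟩ := exists_O_eq hQ hg
  have h1 : x ^ r = 1 := O_ext fun v => LinearMap.congr_fun ((coe_O_pow x r).trans h) v
  have h2 : ∀ φ : O Q →* ℤˣ, φ x = 1 := fun φ => by
    have h3 := congrArg φ h1
    rwa [map_pow, map_one, Int.units_pow_eq_pow_mod_two, Nat.odd_iff.mp hr, pow_one] at h3
  exact ⟨x, (mem_commutator_O_iff hQ hE x).mpr ⟨h2 (dickHom hQ hE), h2 _⟩, rfl⟩

theorem forall_inOm_odd_iff [Finite F] (hQ : (polarBilin Q).Nondegenerate) (hE : ¬ Exc Q)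
    {r : ℕ} (hr : Odd r) (Φ : End F V → Prop) :
    (∀ g, InOm Q g → g ^ r = 1 → g ≠ 1 → Φ g) ↔
      ∀ g : End F V, (∀ v, Q (g v) = Q v) → g ^ r = 1 → g ≠ 1 → Φ g :=
  ⟨fun h g hg h1 => h g (inOm_of_odd hQ hE hg hr h1) h1, fun h g hg => h g hg.isom⟩

theorem forall_inOm_odd_iff' [Finite F] [Nontrivial V] (hQ : (polarBilin Q).Nondegenerate)
    (hE : ¬ Exc Q) {r : ℕ} (hr : Odd r) (S : Submodule F V → Prop) :
    (∀ g, InOm Q g → (∃ z : F, g ^ r = z • 1) → (∀ z : F, g ≠ z • 1) → ∃ W, S W ∧ W.map g ≤ W) ↔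
      ∀ g : End F V, (∀ v, Q (g v) = Q v) → g ^ r = 1 → g ≠ 1 → ∃ W, S W ∧ W.map g ≤ W := by
  have h := hform_polarBilin hQ
  constructor
  · intro H g hg h1 h2
    refine H g (inOm_of_odd hQ hE hg hr h1) ⟨1, by rw [h1, one_smul]⟩ fun z hz => h2 ?_
    obtain ⟨k, rfl⟩ := hr
    have h3 : z * z = 1 := h.norm_of_pow_eq (polar_isometry hg) (k := 1) (by rw [pow_one, hz])
    rwa [hz, _root_.smul_pow, one_pow, pow_succ, pow_mul, pow_two, h3, one_pow, one_mul,
      ← hz] at h1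
  · rintro H g hg ⟨z, hz⟩ h2
    obtain ⟨k, rfl⟩ := hr
    have := Fintype.ofFinite F
    have h3 : z * z = 1 := h.norm_of_pow_eq (polar_isometry hg.isom) hz
    refine inv_smul_of_map z g (left_ne_zero_of_mul_eq_one h3)
      (H _ (quad_smul_isom hg.isom h3) ?_ fun h4 => h2 z ?_)
    · rw [_root_.smul_pow, hz, smul_smul, ← pow_succ, show 2 * k + 1 + 1 = 2 * (k + 1) by ring,
        pow_mul, pow_two, h3, one_pow, one_smul]
    · rw [← h4, smul_smul, h3, one_smul]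

theorem even_finrank_of_dvd [Finite F] {r : ℕ} [Fact r.Prime] (hr2 : r ≠ 2)
    (hQ : (polarBilin Q).Nondegenerate) (h : ∀ a, r ∣ Nat.card {v // v ≠ 0 ∧ Q v = a}) :
    Even (finrank F V) := by
  classical
  have := Fintype.ofFinite F
  have : Finite V := Module.finite_of_finite F
  have := Fintype.ofFinite V
  by_contra h1
  have h2 : (2 : F) ≠ 0 := fun h2 => h1 (even_finrank_of_two hQ h2)
  have h3 : (polarBilin (sq : QuadraticForm F F)).Nondegenerate := by
    have : ∀ x : F, polar (sq : QuadraticForm F F) x 1 = 0 → x = 0 := fun x hx =>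
      (mul_eq_zero.mp (show 2 * x = 0 by
        rw [← hx, polar, sq_apply, sq_apply, sq_apply]; ring)).resolve_left h2
    exact ⟨fun x hx => this x (hx 1), fun x hx => this x ((polar_comm _ _ _).trans (hx 1))⟩
  have h4 : ∀ a : F, (Nat.card {w : F × V // (sq.prod Q) w = a} : ZMod r) =
      (Finset.univ.filter fun x : F => x * x = a).card := fun a => by
    rw [Nat.card_congr (Equiv.subtypeProdEquivSigmaSubtype fun x v => (sq.prod Q) (x, v) = a),
      Nat.card_sigma, Finset.card_filter, Nat.cast_sum, Nat.cast_sum]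
    refine Finset.sum_congr rfl fun x _ => ?_
    have h5 := (ZMod.natCast_eq_zero_iff _ _).mpr (h (a - x * x))
    rw [Nat.card_eq_fintype_card, Fintype.card_subtype] at h5 ⊢
    rw [← Finset.card_filter_add_card_filter_not (fun v => v ≠ 0), Finset.filter_filter,
      Finset.filter_filter, Nat.cast_add]
    simp only [prod_apply, sq_apply, not_not, ← eq_sub_iff_add_eq', and_comm (b := _ ≠ _), h5,
      zero_add]
    congr 1
    split_ifs with h6
    · exact Finset.card_eq_one.mpr ⟨0, by ext v; simp +contextual [h6, iff_def]⟩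
    · refine Finset.card_eq_zero.mpr (Finset.filter_eq_empty_iff.mpr ?_)
      rintro v - ⟨h7, rfl⟩
      exact h6 (by rw [map_zero, eq_comm, sub_eq_zero] at h7; exact h7.symm)
  obtain ⟨a, ha⟩ := exists_not_isSquare h2
  have ha0 : a ≠ 0 := by rintro rfl; exact ha IsSquare.zero
  obtain ⟨e, he⟩ := exists_similarity (nondegenerate_prod h3 hQ)
    (by rw [finrank_prod, finrank_self, Nat.even_add']; simpa using h1) ha0
  have h5 := h4 1
  rw [Nat.card_congr (e.toEquiv.subtypeEquiv (q := fun w => (sq.prod Q) w = a) fun w => by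
    simp [-QuadraticMap.prod_apply, he, ha0]), h4, Finset.filter_eq_empty_iff.mpr
      fun x _ hx => ha ⟨x, hx.symm⟩, show (Finset.univ.filter fun x : F => x * x = 1) = {1, -1} by
        ext x; simp [mul_self_eq_one_iff], Finset.card_pair fun h => h2 (by linear_combination h),
      Finset.card_empty, Nat.cast_zero, eq_comm, ZMod.natCast_eq_zero_iff] at h5
  exact hr2 ((Nat.prime_dvd_prime_iff_eq Fact.out Nat.prime_two).mp h5)

/-- The type of a space of dimension `c j` with a free action of an `r`-group. -/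
def PT (i j : ℕ) : Prop := Odd i ∨ Even j

theorem dvd_half_iff {i c j k : ℕ} (hi : 0 < i) (hc : c = if Even i then i else 2 * i)
    (h : c * j = 2 * k) : i ∣ k ↔ PT i j := by
  split_ifs at hc with he
  · obtain ⟨e, rfl⟩ := he.two_dvd
    rw [hc, mul_assoc, Nat.mul_right_inj two_ne_zero] at h
    rw [← h, mul_comm 2, Nat.mul_dvd_mul_iff_left (by omega), PT, ← even_iff_two_dvd]
    simp
  · rw [hc, mul_assoc, Nat.mul_right_inj two_ne_zero] at h
    exact iff_of_true ⟨j, h.symm⟩ (Or.inl (Nat.not_even_iff_odd.mp he))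

theorem even_c {i c : ℕ} (hc : c = if Even i then i else 2 * i) : Even c := by
  split_ifs at hc with h
  exacts [hc ▸ h, hc ▸ even_two_mul i]

variable [Fintype F] (p : ℕ) [Fact p.Prime] [CharP F p] {r : ℕ} [Fact r.Prime] {i c : ℕ}

theorem tp_iff_of_dvd (hrp : r ≠ p) (hr2 : r ≠ 2) (hi : i = orderOf (Fintype.card F : ZMod r))
    (hc : c = if Even i then i else 2 * i) (hQ : (polarBilin Q).Nondegenerate) {j : ℕ}
    (hV : finrank F V = c * j) (h1 : r ∣ Nat.card {v // Q v = 1}) : Tp Q ↔ PT i j := by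
  have h0 : 0 < i := hi ▸ orderOf_card_pos (K := F) p hrp
  obtain ⟨k, hk⟩ := ((even_c hc).mul_right j).two_dvd
  rw [← dvd_half_iff h0 hc hk]
  rw [hk] at hV
  rcases k with - | m
  · exact iff_of_true (tp_of_finrank_zero hV) (dvd_zero _)
  rw [← isPlus_iff_tp hQ (hV ▸ even_two_mul _)]
  have hq : (Fintype.card F : ZMod r) ≠ 0 := fun h => by
    rw [hi, h, orderOf_pos_iff, isOfFinOrder_iff_pow_eq_one] at h0
    obtain ⟨n, hn, h2⟩ := h0
    rw [zero_pow hn.ne'] at h2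
    exact zero_ne_one h2
  have key : ∀ ε : ℤ, (sing Q : ℤ) = (Nat.card F : ℤ) ^ (2 * m + 1) +
      ε * ((Nat.card F : ℤ) ^ (m + 1) - (Nat.card F : ℤ) ^ m) →
      (Fintype.card F : ZMod r) ^ (m + 1) = ε := by
    intro ε h
    have h2 := congrArg (Int.cast : ℤ → ZMod r) (card_quad_eq_one hQ hV h)
    push_cast at h2
    rw [(ZMod.natCast_eq_zero_iff _ _).mpr h1, Nat.card_eq_fintype_card] at h2
    exact sub_eq_zero.mp ((mul_eq_zero.mp h2.symm).resolve_left (pow_ne_zero _ hq))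
  rw [hi, orderOf_dvd_iff_pow_eq_one]
  refine ⟨fun h => by simpa using key 1 (by rw [sing_of_isPlus hQ hV h, one_mul]), fun h => ?_⟩
  by_contra hp
  have h2 := key (-1) (by rw [sing_of_not_isPlus hQ hV hp]; ring)
  rw [h] at h2
  have h3 : ((2 : ℕ) : ZMod r) = 0 := by push_cast at h2 ⊢; linear_combination h2
  exact hr2 ((Nat.prime_dvd_prime_iff_eq Fact.out Nat.prime_two).mp
    ((ZMod.natCast_eq_zero_iff _ _).mp h3))

variable {A C : Submodule F V}

theorem FixSp.tp_iff (hrp : r ≠ p) (hr2 : r ≠ 2) (hi : i = orderOf (Fintype.card F : ZMod r))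
    (hc : c = if Even i then i else 2 * i) (hA : FixSp (σ := RingHom.id F) (polarBilin Q) g A C)
    (hg : ∀ v, Q (g v) = Q v) (hr : g ^ r = 1) {U : Submodule F V} (hU : U ≤ C)
    (hU' : ∀ v ∈ U, g v ∈ U) (hn : ND Q U) {j : ℕ} (hj : finrank F U = c * j) :
    Tp (Q.restrict U) ↔ PT i j := by
  have : Finite V := Module.finite_of_finite F
  refine tp_iff_of_dvd p hrp hr2 hi hc hn.restrict hj
    (dvd_card_quad_eq_one (g := g.restrict hU') (fun v => hg v) ?_ fun v hv =>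
      Subtype.ext (hA.free v (hU v.2) (congrArg Subtype.val hv)))
  rw [Module.End.pow_restrict]
  exact LinearMap.ext fun v => Subtype.ext (LinearMap.congr_fun hr v)

omit [Fintype F] in
theorem tp_eq [Finite F] (h : A = C) : Tp (Q.restrict A) ↔ Tp (Q.restrict C) := by
  subst h; rfl

omit [Fintype F] in
theorem tp_iff_of_isCompl [Finite F] (hQ : (polarBilin Q).Nondegenerate) (hc : IsCompl A C)
    (ho : ∀ u ∈ A, ∀ v ∈ C, polar Q u v = 0) (he : Even (finrank F C)) {τ : Prop}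
    (hC : Tp (Q.restrict C) ↔ τ) : Tp (Q.restrict A) ↔ (Tp Q ↔ τ) := by
  have := (isOSum_of_isCompl Q hc ho).tp_iff hQ he
  tauto

omit [Fintype F] [FiniteDimensional F V] in
theorem FixSp.sing_of_totIso (hA : FixSp (σ := RingHom.id F) (polarBilin Q) g A C)
    (hg : ∀ v, Q (g v) = Q v) {U : Submodule F V} (hU : U ≤ C) (hU' : ∀ v ∈ U, g v ∈ U)
    (ht : TotIso (σ := RingHom.id F) (polarBilin Q) U) : ∀ u ∈ U, Q u = 0 := by
  intro w hw
  obtain ⟨u, hu, rfl⟩ := hA.exists_sub hU' hU w hw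
  have h1 : polar Q u u = 0 := ht u hu u hu
  have h2 : polar Q (g u) u = 0 := ht _ (hU' u hu) u hu
  rw [Q_sub, hg, h2, sub_zero, ← two_mul, ← polar_self', h1]

omit [Fintype F] [FiniteDimensional F V] in
theorem sing_sup {U U' : Submodule F V} (hU : ∀ u ∈ U, Q u = 0) (hU' : ∀ u ∈ U', Q u = 0)
    (ho : ∀ u ∈ U, ∀ v ∈ U', polar Q u v = 0) : ∀ u ∈ U ⊔ U', Q u = 0 :=
  mem_sup_elim fun u hu v hv => by rw [Q_add, hU u hu, hU' v hv, ho u hu v hv]; simp

section OrdR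

variable {j l : ℕ} (hrp : r ≠ p) (hr2 : r ≠ 2) (hi : i = orderOf (Fintype.card F : ZMod r))
  (hc : c = if Even i then i else 2 * i) (hQ : (polarBilin Q).Nondegenerate)
  (hA : OrdR (σ := RingHom.id F) (polarBilin Q) g i c A C j l) (hg : ∀ v, Q (g v) = Q v)
  (hr : g ^ r = 1)
include hrp hr2 hi hc hQ hA hg hr

theorem OrdR.tp_iff : Tp (Q.restrict A) ↔ (Tp Q ↔ PT i j) :=
  tp_iff_of_isCompl hQ hA.isCompl hA.orth (hA.rank ▸ (even_c hc).mul_right j)
    (hA.toFixSp.tp_iff p hrp hr2 hi hc hg hr le_rfl hA.inv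
      (hA.nondegOn (hform_polarBilin hQ)).2 hA.rank)

theorem OrdR.sing_iff (m : ℕ) :
    (∃ U : Submodule F V, (finrank F U = m ∧ ∀ u ∈ U, Q u = 0) ∧ U.map g ≤ U) ↔
      ∃ k' j', 2 * k' ≤ finrank F A ∧ (2 * k' = finrank F A → (Tp Q ↔ PT i j)) ∧ j' ≤ l ∧
        k' + i * j' = m := by
  have h0 : ND Q A := (hA.nondegOn (hform_polarBilin hQ)).1
  simp only [map_le_iff_forall, ← hA.tp_iff p hrp hr2 hi hc hQ hg hr, ← and_assoc,
    ← h0.exists_sing_iff]
  constructor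
  · rintro ⟨U, ⟨rfl, h1⟩, h2⟩
    obtain ⟨j', h3, h4⟩ := hA.ts_of _ inf_le_right (inv_inf h2 hA.inv)
      fun u hu v hv => polar_eq_zero_of_forall h1 hu.1 hv.1
    exact ⟨_, j', ⟨⟨_, ⟨inf_le_right, rfl⟩, fun u hu => h1 u hu.1⟩, h3⟩,
      h4 ▸ hA.finrank_inf h2⟩
  · rintro ⟨k', j', ⟨⟨U, ⟨h3, h4⟩, h5⟩, h2⟩, rfl⟩
    obtain ⟨U', h6, h7, h8, h9⟩ := hA.ts_ex j' h2
    exact ⟨_, ⟨by rw [hA.finrank_sup h3 h6, h4, h9], sing_sup h5 (hA.sing_of_totIso hg h6 h7 h8)
      fun u hu v hv => hA.orth u (h3 hu) v (h6 hv)⟩, inv_sup (hA.inv_of_le h3) h7⟩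

theorem OrdR.nt_iff {m : ℕ} (hm : (2 : F) = 0 → Even m) (τ : Prop) :
    (∃ U : Submodule F V, NT Q m τ U ∧ U.map g ≤ U) ↔
      ∃ k' j', j' ≤ j ∧ k' + c * j' = m ∧ k' ≤ finrank F A ∧ (k' = 0 → (τ ↔ PT i j')) ∧
        (k' = finrank F A → ((τ ↔ PT i j') ↔ (Tp Q ↔ PT i j))) := by
  have h0 : ND Q A := (hA.nondegOn (hform_polarBilin hQ)).1
  have key := fun U a b d j' => hA.toFixSp.tp_iff p hrp hr2 hi hc hg hr (U := U) a b d (j := j')
  simp only [map_le_iff_forall, ← hA.tp_iff p hrp hr2 hi hc hQ hg hr]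
  constructor
  · rintro ⟨U, ⟨rfl, h1, h6⟩, h2⟩
    have h5 := hA.nondegOn_inf h2 h1
    obtain ⟨j', h3, h4⟩ := hA.nd_of _ inf_le_right (inv_inf h2 hA.inv) h5.2
    refine ⟨_, j', h3, h4 ▸ hA.finrank_inf h2, (h0.exists_nt_iff
      (even_finrank_of_two (ND.restrict h5.1))).mp ⟨_, inf_le_right, rfl, h5.1, ?_⟩⟩
    have h7 := tp_sup h5.1 h5.2 (fun u hu v hv => hA.orth u hu.2 v hv.2)
      (h4 ▸ (even_c hc).mul_right j')
    rw [tp_eq (hA.inf_sup h2), h6, key _ inf_le_right (inv_inf h2 hA.inv) h5.2 _ h4] at h7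
    rw [h7, iff_assoc, iff_self, iff_true]
  · rintro ⟨k', j', h2, rfl, h1⟩
    obtain ⟨U, h3, h4, h5, h10⟩ := (h0.exists_nt_iff fun h => by
      simpa [Nat.even_add, (even_c hc).mul_right j'] using hm h).mpr h1
    obtain ⟨U', h6, h7, h8, h9⟩ := hA.nd_ex j' h2
    refine ⟨_, ⟨by rw [hA.finrank_sup h3 h6, h4, h9], hA.nondegOn_sup h3 h6 h5 h8, ?_⟩,
      inv_sup (hA.inv_of_le h3) h7⟩
    rw [tp_sup h5 h8 (fun u hu v hv => hA.orth u (h3 hu) v (h6 hv))
      (h9 ▸ (even_c hc).mul_right j'), h10, key _ h6 h7 h8 _ h9, iff_assoc]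
    exact Iff.comm

end OrdR

variable (hrp : r ≠ p) (hr2 : r ≠ 2) (hi : i = orderOf (Fintype.card F : ZMod r))
  (hc : c = if Even i then i else 2 * i) (hQ : (polarBilin Q).Nondegenerate)
include hrp hr2 hi hc hQ

theorem forall_O_prime_iff (Ψ : End F V → Prop) (Φ : ℕ → ℕ → ℕ → Prop)
    (H : ∀ g A C j l, (∀ v, Q (g v) = Q v) → g ^ r = 1 →
      OrdR (σ := RingHom.id F) (polarBilin Q) g i c A C j l → (Ψ g ↔ Φ (finrank F A) j l)) :
    (∀ g : End F V, (∀ v, Q (g v) = Q v) → g ^ r = 1 → g ≠ 1 → Ψ g) ↔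
      ∀ k j l, k + c * j = finrank F V → j ≠ 0 → Adm (Even i) ((r - 1) / i) j l →
        (k = 0 → (Tp Q ↔ PT i j)) → Φ k j l := by
  have hD := cycD_id (F := F) p hrp hr2 (ε := 1) (mul_one 1) hi hc
  have h := hform_polarBilin hQ
  have hc' := hD.pos' p hrp
  rw [← hD.card_eq p hrp]
  constructor
  · intro h1 k j l hk hj ha h0
    obtain ⟨m, hm, hd⟩ := hD.exists_of_adm p hrp ha
    have h2 := isGLType_replicate_one (K := F) k
    have h3 := isElDivs_of_mem_cycFactors hm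
    have h4 : ∀ x ∈ m, x.1 ≠ X := fun x hx => ne_X_of_dvd_X_pow_sub_one
      (Fact.out : r.Prime).ne_zero ((dvd_pow_self _ (h3 x hx).2.2.ne').trans
        (dvd_of_mem_cycFactors (hm x hx)))
    obtain ⟨g, hg, he⟩ := exists_isometry_of_oPrimeCond p hrp hr2 hQ
      (s := Multiset.replicate k (X - 1, 1) + m) ⟨h2.1.add h3, by rw [elDeg_add, h2.2.1, hd.deg, hk],
        fun x hx => (Multiset.mem_add.mp hx).elim (h2.2.2 x) (h4 x)⟩
      ⟨fun x hx => (Multiset.mem_add.mp hx).elim (fun h => by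
        simpa [Multiset.eq_of_mem_replicate h] using sub_dvd_pow_sub_pow (X : F[X]) 1 r)
        fun h => dvd_of_mem_cycFactors (hm x h), fun h5 => by
          have h6 : m = 0 := Multiset.eq_zero_of_forall_notMem fun x hx =>
            cycFactors_ne p hrp (hm x hx) (h5 x (Multiset.mem_add.mpr (Or.inr hx)))
          have h7 := hd.deg
          rw [h6, elDeg_zero] at h7
          exact mul_ne_zero hc'.2.ne' hj h7.symm⟩
      ⟨map_dualED_add (replicate_one_map_dualED k) hd.dual, by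
        by_cases h5 : k = 0
        · obtain ⟨e, he⟩ := ((even_c hc).mul_right j).two_dvd
          have h6 : finrank F V = 2 * e := by omega
          rw [isPlus_iff_tp hQ (h6 ▸ even_two_mul _), h0 h5, h6,
            Nat.mul_div_cancel_left _ two_pos, ← hi, dvd_half_iff hc'.1 hc he]
          exact Or.inr (Or.inr Iff.rfl)
        · exact Or.inl (Multiset.mem_add.mpr (Or.inl (Multiset.mem_replicate.mpr ⟨h5, rfl⟩)))⟩
    obtain ⟨h5, A, C, h6, rfl⟩ := hD.ordR_of_md p hrp h (polar_isometry hg) he hm hd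
    exact (H g A C j l hg h5 h6).mp (h1 g hg h5 ((h6.ne_one_iff hc'.2.ne').mpr hj))
  · intro h1 g hg h2 h3
    obtain ⟨A, C, j, l, h4, h5⟩ := hD.exists_ordR p hrp h (polar_isometry hg) h2
    exact (H g A C j l hg h2 h4).mpr
      (h1 _ j l (h4.rank ▸ h4.finrank_add) ((h4.ne_one_iff hc'.2.ne').mp h3) h5 fun h6 =>
        (h4.tp_iff p hrp hr2 hi hc hQ hg h2).mp (tp_of_finrank_zero h6))

theorem exists_of_dvd_card (S : Submodule F V → Prop)
    (hinv : ∀ g ∈ O Q, ∀ W, S W → S (W.map (g : V →ₗ[F] V)))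
    (htr : ∀ W W', S W → S W' → ∃ g ∈ O Q, W.map (g : V →ₗ[F] V) = W')
    (h : r ∣ Nat.card {W // S W}) : ∃ (A : Submodule F V) (j : ℕ), ND Q A ∧
      finrank F A + c * j = finrank F V ∧ (Tp (Q.restrict A) ↔ (Tp Q ↔ PT i j)) ∧
      ¬ ∃ W ≤ A, S W := by
  by_contra h1
  refine not_dvd_card_submodule (O Q) S hinv htr (fun P hP hp => ?_) h
  obtain ⟨A, C, hA⟩ := exists_fixDec p hrp hp
  have h2 : ∀ g ∈ P, ∀ u v, polarBilin Q (g u) (g v) = polarBilin Q u v := fun g hg =>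
    polar_isometry (g := (g : End F V)) (mem_O.mp (hP hg))
  have h3 := hA.nondegOn (hform_polarBilin hQ) h2
  have h4 := even_finrank_of_dvd hr2 (ND.restrict h3.2) fun a => by
    simpa using hA.dvd_card hp (fun v => v ≠ 0 ∧ Q v = a) (by simp) fun g hg v hv =>
      ⟨by simpa using hv.1, (mem_O.mp (hP hg) v).trans hv.2⟩
  obtain ⟨j, hj⟩ := lcm_two_dvd hc (hi ▸ hA.orderOf_dvd hp) h4
  by_contra h5
  refine h1 ⟨A, j, h3.1, hj ▸ hA.finrank_add, tp_iff_of_isCompl hQ hA.isCompl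
    (hA.orth _ (polarBilin Q) h2) h4 (tp_iff_of_dvd p hrp hr2 hi hc (ND.restrict h3.2) hj
      (hA.dvd_card hp (fun v => Q v = 1) (by simp) fun g hg v hv =>
        (mem_O.mp (hP hg) v).trans hv)), fun ⟨W, h6, h7⟩ => h5 ⟨W, h7, hA.inv_of_le_left h6⟩⟩

end Cfsg.Lib.Known
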