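import Mathlib
import Cfsg.Agent.Known.ElusO2

/-!
Elements of odd prime order `r ≠ p` of orthogonal groups fixing a subspace: linear conditions.
-/

namespace Cfsg.Lib.Known

open Module Polynomial Cfsg.Lib.Class Cfsg.Lib.Class.Form QuadraticMap
open Cfsg.Lib.Class.Orth hiding orth stab mem_orth mem_orth'

universe u v

theorem add_mul_cmp {c u w : ℕ} (hu : u < 2 * c) (hw : w < c) (x y : ℕ) :
    (u + c * x ≤ w + c * y ↔ (y = x ∧ u ≤ w) ∨ (y = x + 1 ∧ u ≤ w + c) ∨ x + 2 ≤ y) ∧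
      (u + c * x = w + c * y ↔ (y = x ∧ u = w) ∨ (y = x + 1 ∧ u = w + c)) := by
  rcases lt_trichotomy y x with h | rfl | h
  · have := Nat.mul_le_mul_left c (Nat.succ_le_of_lt h)
    rw [Nat.mul_succ] at this
    omega
  · omega
  rcases (Nat.succ_le_of_lt h).eq_or_lt with rfl | h
  · rw [Nat.mul_succ]
    omega
  · have := Nat.mul_le_mul_left c (Nat.succ_le_of_lt h)
    rw [Nat.mul_succ, Nat.mul_succ] at this
    omega

theorem add_mul_eq_iff {c n k j : ℕ} (hc : 0 < c) :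
    k + c * j = n ↔ j ≤ n / c ∧ k = n % c + c * (n / c - j) := by
  have h1 := Nat.mod_add_div n c
  constructor
  · intro h
    have h2 := (mod_div_of_eq hc h).2.1
    have h3 := Nat.mul_le_mul_left c h2
    rw [Nat.mul_sub]
    omega
  · rintro ⟨h2, rfl⟩
    rw [add_assoc, ← mul_add, Nat.sub_add_cancel h2, h1]

theorem two_mul_lt_lin {c n m : ℕ} (hc : 0 < c) (h : 2 * m < n) : 2 * (m / c) ≤ n / c ∧
    (n / c = 2 * (m / c) → 2 * (m % c) < n % c) ∧
    (n / c = 2 * (m / c) + 1 → 2 * (m % c) < n % c + c) := by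
  have h1 := add_mul_cmp (u := 2 * (m % c)) (by have := Nat.mod_lt m hc; omega) (Nat.mod_lt n hc)
    (2 * (m / c)) (n / c)
  rw [Nat.mod_add_div, mul_left_comm, ← mul_add, Nat.mod_add_div] at h1
  omega

theorem lt_lin {c n m : ℕ} (hc : 0 < c) (h : m < n) :
    m / c ≤ n / c ∧ (n / c = m / c → m % c < n % c) := by
  have h1 := add_mul_cmp (u := m % c) (by have := Nat.mod_lt m hc; omega) (Nat.mod_lt n hc)
    (m / c) (n / c)
  rw [Nat.mod_add_div, Nat.mod_add_div] at h1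
  omega

theorem le_iff_div_ne_zero {c m : ℕ} (hc : 0 < c) : c ≤ m ↔ m / c ≠ 0 := by
  rw [Ne, Nat.div_eq_zero_iff]; omega

theorem add_sub_div {c n m : ℕ} (hc : 0 < c) (h : m % c = n % c) :
    (n + m - 2 * (n % c)) / c = n / c + m / c := by
  have h1 := Nat.mod_add_div n c
  have h2 := Nat.mod_add_div m c
  rw [show n + m - 2 * (n % c) = c * (n / c + m / c) by rw [mul_add]; omega,
    Nat.mul_div_cancel_left _ hc]

theorem mod_mod_two {c : ℕ} (hc : Even c) (n : ℕ) : n % c % 2 = n % 2 :=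
  Nat.mod_mod_of_dvd n hc.two_dvd

/-- An element with `j` non-trivial blocks fixes a subspace meeting `j'` of them. -/
def NDL (T τ : Prop) (P : ℕ → Prop) (a b a' b' j j' : ℕ) : Prop :=
  j' ≤ j ∧ j' ≤ a' ∧ (a' + j < a + j' ∨ (a' + j = a + j' ∧ b' ≤ b)) ∧
    (b' = 0 → j' = a' → (τ ↔ P j')) ∧ (b' = b → a' + j = a + j' → ((τ ↔ P j') ↔ (T ↔ P j)))

theorem ndl_iff {T τ : Prop} {P : ℕ → Prop} {c n m j j' : ℕ} (hc : 0 < c) (hj : j ≤ n / c) :
    (∃ k', j' ≤ j ∧ k' + c * j' = m ∧ k' ≤ n % c + c * (n / c - j) ∧ (k' = 0 → (τ ↔ P j')) ∧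
      (k' = n % c + c * (n / c - j) → ((τ ↔ P j') ↔ (T ↔ P j)))) ↔
      NDL T τ P (n / c) (n % c) (m / c) (m % c) j j' := by
  have h0 := Nat.mod_lt m hc
  have h1 := add_mul_cmp (u := m % c) (by omega) (Nat.mod_lt n hc) (m / c - j') (n / c - j)
  have h2 : m % c + c * (m / c - j') = 0 ↔ m % c = 0 ∧ m / c - j' = 0 := by simp [hc.ne']
  simp only [add_mul_eq_iff hc, NDL]
  constructor
  · rintro ⟨_, h3, ⟨h4, rfl⟩, h5, h6, h7⟩
    exact ⟨h3, h4, by omega, fun _ _ => h6 (by omega), fun _ _ => h7 (by omega)⟩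
  · rintro ⟨h3, h4, h5, h6, h7⟩
    exact ⟨_, h3, ⟨h4, rfl⟩, by omega, fun _ => h6 (by omega) (by omega),
      fun _ => h7 (by omega) (by omega)⟩

/-- Comparison of `u + c x` with `b + c y`. -/
def TSL (R : Prop) (c b u x y : ℕ) : Prop :=
  ((y = x ∧ u ≤ b) ∨ (y = x + 1 ∧ u ≤ b + c) ∨ x + 2 ≤ y) ∧
    ((y = x ∧ u = b) ∨ (y = x + 1 ∧ u = b + c) → R)

theorem tsl_iff {R : Prop} {i c e b m y l : ℕ} (hi : 0 < i) (he : 2 * i = c * e) (hic : i ≤ c)
    (hb : b < c) : (∃ k' j', 2 * k' ≤ b + c * y ∧ (2 * k' = b + c * y → R) ∧ j' ≤ l ∧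
      k' + i * j' = m) ↔ TSL R c b (2 * (m % i)) (e * (m / i - min l (m / i))) y := by
  have h0 := Nat.mod_lt m hi
  have h1 := add_mul_cmp (u := 2 * (m % i)) (by omega) hb (e * (m / i - min l (m / i))) y
  rw [← mul_assoc, ← he, mul_assoc, ← mul_add] at h1
  simp only [add_mul_eq_iff hi, TSL, ← h1.1, ← h1.2]
  refine ⟨?_, fun h => ⟨_, _, h.1, h.2, min_le_left _ _, min_le_right _ _, rfl⟩⟩
  rintro ⟨_, j', h2, h3, h4, h5, rfl⟩
  have h6 := Nat.mul_le_mul_left i (show m / i - min l (m / i) ≤ m / i - j' by omega)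
  exact ⟨by omega, fun _ => h3 (by omega)⟩

theorem pt_succ {i j : ℕ} : PT i (j + 1) ↔ (PT i j ↔ Odd i) := by
  rw [PT, PT, Nat.even_add_one]; tauto

/-- The condition for all elements of order `r` to fix a non-degenerate subspace. -/
def NGC (T τ : Prop) (i a b a' b' : ℕ) : Prop :=
  (b = 0 → (T ↔ PT i a)) → b' ≤ b ∧ (b' = 0 → (τ ↔ PT i a')) ∧
    (b' = b → ((τ ↔ PT i a') ↔ (T ↔ PT i a)))

theorem ndl_closed {T τ : Prop} {i a b a' b' : ℕ} (h1 : a' ≤ a) (h2 : a = a' → b' < b)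
    (h3 : a' = 0 → b' ≠ 0) :
    (∀ j ≤ a, j ≠ 0 → (b = 0 → j = a → (T ↔ PT i j)) → ∃ j', NDL T τ (PT i) a b a' b' j j') ↔
      NGC T τ i a b a' b' := by
  constructor
  · intro H h4
    by_cases h5 : a = 0
    · exact ⟨by omega, fun _ => by omega, fun _ => by omega⟩
    obtain ⟨j', -, h6, h7, h8, h9⟩ := H a le_rfl h5 fun h _ => h4 h
    obtain rfl : j' = a' := by omega
    exact ⟨by omega, fun h => h8 h rfl, fun h => h9 h (by omega)⟩
  intro H j h4 h5 h6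
  by_cases h7 : j < a'
  · exact ⟨j, le_rfl, h7.le, by omega, fun _ _ => by omega, fun _ _ => by omega⟩
  by_cases h8 : b = 0 → (T ↔ PT i a)
  · obtain ⟨h9, h10, h11⟩ := H h8
    exact ⟨a', by omega, le_rfl, by omega, fun h _ => h10 h, fun h h' => by
      obtain rfl : j = a := by omega
      exact h11 h⟩
  obtain ⟨rfl, h9⟩ := Classical.not_imp.mp h8
  have h10 : j ≠ a := fun h => h9 (h ▸ h6 rfl h)
  by_cases h11 : b' = 0 → (τ ↔ PT i a')
  · exact ⟨a', by omega, le_rfl, by omega, fun h _ => h11 h, fun _ _ => by omega⟩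
  obtain ⟨rfl, h12⟩ := Classical.not_imp.mp h11
  obtain ⟨a', rfl⟩ := Nat.exists_eq_add_one.mpr (show 0 < a' by omega)
  refine ⟨a', by omega, by omega, by omega, fun _ _ => by omega, fun _ _ => ?_⟩
  obtain rfl : a = j + 1 := by omega
  rw [pt_succ] at h9 h12
  by_cases PT i a' <;> by_cases PT i j <;> by_cases Odd i <;> simp_all

theorem not_ng {T τ : Prop} {i a b b' j : ℕ} (h1 : j ≤ a)
    (h2 : b = 0 → j = a → (T ↔ PT i j)) (h3 : ¬ NDL T τ (PT i) a b 0 b' j 0) (h4 : b' ≠ 0) :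
    ¬ NGC T τ i a b 0 b' := by
  intro H
  by_cases h5 : j = a
  · subst h5
    obtain ⟨h6, h7, h8⟩ := H fun h => h2 h rfl
    exact h3 ⟨by omega, le_rfl, by omega, fun h _ => h7 h, fun h _ => h8 h⟩
  · exact h3 ⟨by omega, le_rfl, by omega, fun _ _ => by omega, fun _ _ => by omega⟩

theorem tsl_closed_odd {T : Prop} {c a b a' u : ℕ} (hu : u < c) (h1 : a' ≤ a)
    (h2 : a = a' → u < b) :
    (∀ j ≤ a, j ≠ 0 → (b = 0 → j = a → T) → TSL T c b u (a' - min j a') (a - j)) ↔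
      ((b = 0 → T) → u ≤ b ∧ (u = b → T)) := by
  unfold TSL
  constructor
  · intro H h4
    by_cases h5 : a = 0
    · exact ⟨by omega, fun _ => by omega⟩
    obtain ⟨h6, h7⟩ := H a le_rfl h5 fun h _ => h4 h
    exact ⟨by omega, fun _ => h7 (by omega)⟩
  intro H j h4 h5 h6
  by_cases h7 : j = a
  · obtain ⟨h8, h9⟩ := H fun h => h6 h h7
    exact ⟨by omega, fun _ => h9 (by omega)⟩
  · exact ⟨by omega, fun _ => by omega⟩

theorem tsl_closed_even {c a b a' b' t N j : ℕ} (hb : b < c) (hb' : b' < c) (hN : 0 < N)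
    (h1 : 2 * a' ≤ a) (h2 : a = 2 * a' → 2 * b' < b) (h3 : a = 2 * a' + 1 → 2 * b' < b + c)
    (h4 : j ≤ a) (h5 : b = 0 → j = a → (t + j) % 2 = 0)
    (h6 : ¬ TSL ((t + j) % 2 = 0) c b (2 * b') (2 * a') (a - j)) :
    (∀ j ≤ a, j ≠ 0 → (b = 0 → j = a → (t + j) % 2 = 0) → ∀ l, 2 * l ≤ j ∧ j ≤ 2 * l + N →
      TSL ((t + j) % 2 = 0) c b (2 * b') (2 * (a' - min l a')) (a - j)) ↔
      a' ≠ 0 ∧ N + 2 * a' ≤ a ∧ ((2 * b' ≤ c ∧ b = 0 ∧ (t + a) % 2 = 1 ∧ N + 2 * a' < a) ∨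
        (2 * b' ≤ b ∧ (t + a) % 2 = 0) ∨ (2 * b' < b ∧ (t + a) % 2 = 1)) := by
  unfold TSL at *
  constructor
  · intro H
    have h7 := fun j h h' h'' => H j h h' h'' ((j - N + 1) / 2) (by omega)
    clear H
    have h11 : a' ≠ 0 := by
      rintro rfl
      by_cases h8 : j = 0
      · omega
      · exact h6 (by simpa using h7 j h4 h8 h5)
    clear h4 h5 h6
    have h12 : N + 2 * a' ≤ a := by
      by_contra h12
      have h9 := (h7 (a - 1) (by omega) (by omega) (by omega)).1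
      by_cases h8 : b = 0 → (t + a) % 2 = 0
      · have h10 := (h7 a le_rfl (by omega) fun h _ => h8 h).1
        omega
      · omega
    refine ⟨h11, h12, ?_⟩
    by_cases h8 : b = 0 → (t + a) % 2 = 0
    · have h9 := h7 a le_rfl (by omega) fun h _ => h8 h
      omega
    · have h9 := (h7 (a - 1) (by omega) (by omega) (by omega)).1
      have h10 := h7 (a - 2) (by omega) (by omega) (by omega)
      refine Or.inl ⟨by omega, by omega, by omega, ?_⟩
      by_contra h13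
      rw [show 2 * (a' - min ((a - 2 - N + 1) / 2) a') = 2 by omega] at h10
      omega
  · rintro ⟨-, h7, h8⟩ j h9 h10 h11 l h12
    clear h6 h5 h4
    by_cases h13 : a' ≤ l
    · rw [min_eq_right h13]
      omega
    · rw [min_eq_left (not_le.mp h13).le]
      omega

variable {F : Type u} [Field F] {V : Type v} [AddCommGroup V] [Module F V] {Q : QuadraticForm F V}
  [FiniteDimensional F V] [Fintype F] (p : ℕ) [Fact p.Prime] [CharP F p] {r : ℕ} [Fact r.Prime]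
  {i c : ℕ} (hrp : r ≠ p) (hr2 : r ≠ 2) (hi : i = orderOf (Fintype.card F : ZMod r))
  (hc : c = if Even i then i else 2 * i) (hQ : (polarBilin Q).Nondegenerate) {n : ℕ}
  (hn : finrank F V = n)
include hrp hr2 hi hc hQ hn

theorem forall_nt_iff {m : ℕ} (h0 : m ≠ 0) (hmn : m < n) (hm : (2 : F) = 0 → Even m) (τ : Prop) :
    (∀ g : End F V, (∀ v, Q (g v) = Q v) → g ^ r = 1 → g ≠ 1 → ∃ U, NT Q m τ U ∧ U.map g ≤ U) ↔
      NGC (Tp Q) τ i (n / c) (n % c) (m / c) (m % c) := by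
  have hD := cycD_id (F := F) p hrp hr2 (ε := 1) (mul_one 1) hi hc
  have h1 := (hD.pos' p hrp).2
  have h2 := lt_lin h1 hmn
  rw [forall_O_prime_iff p hrp hr2 hi hc hQ _ (fun k j _ => ∃ j' k', j' ≤ j ∧ k' + c * j' = m ∧
    k' ≤ k ∧ (k' = 0 → (τ ↔ PT i j')) ∧ (k' = k → ((τ ↔ PT i j') ↔ (Tp Q ↔ PT i j))))
    fun g A C j l hg hr hA => (hA.nt_iff p hrp hr2 hi hc hQ hg hr hm τ).trans exists_comm, hn,
    ← ndl_closed h2.1 h2.2 fun h h' => h0 (by rw [← Nat.mod_add_div m c, h, h']; rfl)]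
  constructor
  · intro H j h2 h3 h4
    obtain ⟨l, hl⟩ := hD.exists_adm p hrp j
    simpa only [ndl_iff h1 h2] using H _ j l ((add_mul_eq_iff h1).mpr ⟨h2, rfl⟩) h3 hl fun h => by
      rw [Nat.add_eq_zero_iff, mul_eq_zero] at h
      exact h4 h.1 (by omega)
  · intro H k j l h2 h3 _ h4
    obtain ⟨h5, rfl⟩ := (add_mul_eq_iff h1).mp h2
    simpa only [ndl_iff h1 h5] using H j h5 h3 fun h6 h7 => h4 (by simp [h6, ← h7])

theorem le_of_ng {m : ℕ} (h0 : m ≠ 0) (hm : (2 : F) = 0 → Even m) {τ : Prop}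
    (h : r ∣ Nat.card {U // NT Q m τ U}) (H : NGC (Tp Q) τ i (n / c) (n % c) (m / c) (m % c)) :
    c ≤ m := by
  have h1 := ((cycD_id (F := F) p hrp hr2 (ε := 1) (mul_one 1) hi hc).pos' p hrp).2
  obtain ⟨A, j, h2, h3, h4, h5⟩ := exists_of_dvd_card p hrp hr2 hi hc hQ _
    (fun g hg W hW => hW.map hg) (fun W W' => NT.exists_map_eq hQ) h
  obtain ⟨h6, h7⟩ := (add_mul_eq_iff h1).mp (h3.trans hn)
  by_contra h8
  have h9 := Nat.div_eq_of_lt (not_le.mp h8)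
  refine not_ng h6 (fun h8 h9 => h4.mp (tp_of_finrank_zero (by simp [h7, h8, ← h9])))
    (fun h10 => ?_) (by rwa [Nat.mod_eq_of_lt (not_le.mp h8)]) (h9 ▸ H)
  obtain ⟨k, -, rfl, h11, -, h12⟩ := (ndl_iff (j' := 0) h1 h6).mpr (by rwa [h9])
  refine h5 ((h2.exists_nt_iff hm).mpr ⟨h7 ▸ h11, fun h => absurd h h0, fun h => ?_⟩)
  simpa [h4, PT] using h12 (h.trans h7)

section

variable {e : ℕ} (he : e = if Even i then 2 else 1)
include he

theorem forall_sing_iff (m : ℕ) :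
    (∀ g : End F V, (∀ v, Q (g v) = Q v) → g ^ r = 1 → g ≠ 1 →
      ∃ U : Submodule F V, (finrank F U = m ∧ ∀ u ∈ U, Q u = 0) ∧ U.map g ≤ U) ↔
      ∀ j ≤ n / c, j ≠ 0 → (n % c = 0 → j = n / c → (Tp Q ↔ PT i j)) →
        ∀ l, Adm (Even i) ((r - 1) / i) j l → TSL (Tp Q ↔ PT i j) c (n % c) (2 * (m % i))
          (e * (m / i - min l (m / i))) (n / c - j) := by
  have h0 := (cycD_id (F := F) p hrp hr2 (ε := 1) (mul_one 1) hi hc).pos' p hrp
  have key := fun R y l => tsl_iff (R := R) (m := m) (y := y) (l := l) (c := c) (e := e) h0.1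
    (by split_ifs at hc he <;> simp [hc, he, mul_comm]) (by split_ifs at hc <;> omega)
    (Nat.mod_lt n h0.2)
  rw [forall_O_prime_iff p hrp hr2 hi hc hQ _ (fun k j l => ∃ k' j', 2 * k' ≤ k ∧
    (2 * k' = k → (Tp Q ↔ PT i j)) ∧ j' ≤ l ∧ k' + i * j' = m)
    fun g A C j l hg hr hA => hA.sing_iff p hrp hr2 hi hc hQ hg hr m, hn]
  constructor
  · intro H j h1 h2 h3 l hl
    exact (key ..).mp (H _ j l ((add_mul_eq_iff h0.2).mpr ⟨h1, rfl⟩) h2 hl fun h => by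
      rw [Nat.add_eq_zero_iff, mul_eq_zero] at h
      exact h3 h.1 (by omega))
  · intro H k j l h1 h2 hl h3
    obtain ⟨h4, rfl⟩ := (add_mul_eq_iff h0.2).mp h1
    exact (key ..).mpr (H j h4 h2 (fun h5 h6 => h3 (by simp [h5, ← h6])) l hl)

theorem exists_not_tsl {m : ℕ}
    (h : r ∣ Nat.card {U : Submodule F V // finrank F U = m ∧ ∀ u ∈ U, Q u = 0}) : ∃ j ≤ n / c,
      (n % c = 0 → j = n / c → (Tp Q ↔ PT i j)) ∧
        ¬ TSL (Tp Q ↔ PT i j) c (n % c) (2 * (m % i)) (e * (m / i)) (n / c - j) := by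
  have h0 := (cycD_id (F := F) p hrp hr2 (ε := 1) (mul_one 1) hi hc).pos' p hrp
  obtain ⟨A, j, h2, h3, h4, h5⟩ := exists_of_dvd_card p hrp hr2 hi hc hQ _
    (fun g hg W hW => ⟨(g.finrank_map_eq W).trans hW.1, by
      rintro _ ⟨u, hu, rfl⟩
      exact (mem_O.mp hg u).trans (hW.2 u hu)⟩) (fun W W' h1 h2 => by
      obtain ⟨g, hg⟩ := exists_O_map_eq_of_singular hQ (h1.1.trans h2.1.symm) h1.2 h2.2
      exact ⟨g, g.2, hg⟩) h
  obtain ⟨h6, h7⟩ := (add_mul_eq_iff h0.2).mp (h3.trans hn)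
  refine ⟨j, h6, fun h8 h9 => h4.mp (tp_of_finrank_zero (by simp [h7, h8, ← h9])), fun h8 => ?_⟩
  obtain ⟨k, j', h9, h10, h11, rfl⟩ := (tsl_iff (l := 0) (e := e) h0.1
    (by split_ifs at hc he <;> simp [hc, he, mul_comm]) (by split_ifs at hc <;> omega)
    (Nat.mod_lt n h0.2)).mpr (by simpa using h8)
  obtain rfl := Nat.le_zero.mp h11
  exact h5 (h2.exists_sing_iff.mpr ⟨h7 ▸ h9, fun h => h4.mpr (h10 (h.trans h7))⟩)

end

theorem forall_sing_closed {m : ℕ} (hm : 2 * m < n)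
    (h : r ∣ Nat.card {U : Submodule F V // finrank F U = m ∧ ∀ u ∈ U, Q u = 0}) :
    (∀ g : End F V, (∀ v, Q (g v) = Q v) → g ^ r = 1 → g ≠ 1 →
      ∃ U : Submodule F V, (finrank F U = m ∧ ∀ u ∈ U, Q u = 0) ∧ U.map g ≤ U) ↔
      (Odd i ∧ i ≤ m ∧ ((n % c = 0 → Tp Q) → 2 * (m % i) ≤ n % c ∧ (2 * (m % i) = n % c → Tp Q))) ∨
      (Even i ∧ i ≤ m ∧ (r - 1) / i + 2 * (m / i) ≤ n / i ∧
        ((2 * (m % i) ≤ i ∧ n % c = 0 ∧ ¬ (Tp Q ↔ Even (n / i)) ∧
          (r - 1) / i + 2 * (m / i) < n / i) ∨ (2 * (m % i) ≤ n % c ∧ (Tp Q ↔ Even (n / i))) ∨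
          (2 * (m % i) < n % c ∧ ¬ (Tp Q ↔ Even (n / i))))) := by
  have hD := cycD_id (F := F) p hrp hr2 (ε := 1) (mul_one 1) hi hc
  have h0 := hD.pos' p hrp
  obtain ⟨j, h1, h2, h3⟩ := exists_not_tsl p hrp hr2 hi hc hQ hn rfl h
  rw [forall_sing_iff p hrp hr2 hi hc hQ hn rfl, le_iff_div_ne_zero h0.1]
  have h4 := Nat.mod_lt m h0.1
  by_cases he : Even i
  · obtain rfl : c = i := by rw [hc, if_pos he]
    obtain ⟨t, ht⟩ : ∃ t : ℕ, ∀ j, (Tp Q ↔ Even j) ↔ (t + j) % 2 = 0 := by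
      by_cases h5 : Tp Q
      · exact ⟨0, fun j => by simp [h5, Nat.even_iff]⟩
      · exact ⟨1, fun j => by simp only [h5, Nat.even_iff, false_iff]; omega⟩
    obtain ⟨N, hN⟩ := hD.exists_succ p hrp
    have h5 := two_mul_lt_lin h0.1 hm
    simp only [PT, Adm, he, Nat.not_odd_iff_even.mpr he, false_or, false_and, true_and, if_true,
      ht, true_imp_iff, not_true, false_imp_iff, and_true, Nat.mod_two_not_eq_zero] at h2 h3 ⊢
    exact tsl_closed_even (Nat.mod_lt n h0.1) h4 (by omega) h5.1 h5.2.1 h5.2.2 h1 h2 h3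
  · obtain rfl : c = 2 * i := by rw [hc, if_neg he]
    have h5 := lt_lin h0.2 hm
    rw [Nat.mul_div_mul_left _ _ two_pos, Nat.mul_mod_mul_left] at h5
    simp only [PT, Adm, he, Nat.not_even_iff_odd.mp he, true_or, false_and, true_and, if_false,
      iff_true, true_imp_iff, not_false_iff, false_imp_iff, or_false, forall_eq, one_mul] at h2 h3 ⊢
    rw [tsl_closed_odd (by omega) h5.1 h5.2, iff_and_self]
    intro H h6
    rw [h6] at h3
    refine h3 ?_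
    by_cases h7 : j = n / (2 * i)
    · have h8 := H fun h => h2 h h7
      exact ⟨by omega, fun _ => h8.2 (by omega)⟩
    · exact ⟨by omega, fun _ => by omega⟩

end Cfsg.Lib.Known
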