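import Mathlib
import Cfsg.Agent.Known.ElusOAr

/-!
Subspaces fixed by involutions of `PΩ` in odd characteristic.
-/

namespace Cfsg.Lib.Known

open Module Polynomial Cfsg.Lib.Class Cfsg.Lib.Class.Form QuadraticMap
open Cfsg.Lib.Class.Orth hiding orth stab mem_orth mem_orth'

universe u v

variable {F : Type u} [Field F] {V : Type v} [AddCommGroup V] [Module F V] {Q : QuadraticForm F V}
  {g : End F V} [FiniteDimensional F V] [Fintype F] {A C : Submodule F V}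

theorem elProd_of_sq_neg {B : LinearMap.BilinForm F V} {ε : F}
    (h : HForm (σ := RingHom.id F) B ε) (h2 : (2 : F) ≠ 0) (hε : ε * ε = 1)
    (hg : ∀ u v, B (g u) (g v) = B u v) (hJ : g ^ 2 = (-1 : F) • 1) :
    ∃ j, finrank F V = 2 * j ∧ elProd (elDiv g) = (X ^ 2 + 1) ^ j := by
  by_cases hs : IsSquare (-1 : F)
  · obtain ⟨u, h3, h4⟩ := ordR_of_sq_neg_of_isSquare h h2 hε hg hJ hs
    refine ⟨_, (finrank_top F V).symm.trans h4.rank, ?_⟩
    rw [h3, elProd_add, elProd, elProd, Multiset.map_map, ← Multiset.prod_map_mul,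
      ← Multiset.prod_replicate, ← Multiset.map_const']
    refine congrArg _ (Multiset.map_congr rfl fun x hx => ?_)
    have h5 : x ∈ elDiv g := h3 ▸ Multiset.mem_add.mpr (Or.inl hx)
    obtain ⟨h6, h7, -⟩ := isElDivs_elDiv g x h5
    have h8 := elDiv_snd_eq_one_of_squarefree (separable_X_pow_sub_C (n := 2) (-1 : F)
      (by exact_mod_cast h2) (by simp)).squarefree (by
        simp [hJ, Algebra.algebraMap_eq_smul_one]) x h5
    have h9 := forall_dvd_of_pow_eq_smul hJ x h5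
    obtain ⟨b, hb⟩ := hs
    rw [h8, pow_one, hb] at h9
    obtain ⟨a, ha, h10⟩ := eq_X_sub_C_of_dvd h6 h7 h9
    rw [← hb] at ha
    have ha0 : a ≠ 0 := by rintro rfl; simp at ha
    have h11 : (Polynomial.C a * Polynomial.C a : F[X]) = -1 := by rw [← C_mul, ha]; simp
    simp only [Function.comp, dualED, h8, h10, dualPoly_X_sub_C ha0, pow_one, RingHom.id_apply,
      show a⁻¹ = -a from inv_eq_of_mul_eq_one_right (by rw [mul_neg, ha, neg_neg]), map_neg]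
    linear_combination -h11
  · obtain ⟨j, h3, h4⟩ := elDiv_of_sq_neg h2 hJ hs
    exact ⟨j, h4, by simp [h3, elProd_replicate]⟩

theorem O_of_sq_neg (hQ : (polarBilin Q).Nondegenerate) (h2 : (2 : F) ≠ 0) (x : O Q)
    (hJ : (x.1 : End F V) ^ 2 = (-1 : F) • 1) : ∃ j, finrank F V = 2 * j ∧ tq Q = 1 ∧
      (x ∈ commutator (O Q) ↔ Even j ∨ IsSquare (2 : F)) := by
  obtain ⟨j, h3, h4⟩ := elProd_of_sq_neg (hform_polarBilin hQ) h2 (mul_one 1)
    (polar_isometry (mem_O.mp x.2)) hJ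
  have h5 := spinA_eq_of_no_one hQ h2 x (by simpa [h4, one_add_one_eq_two] using fun h => absurd h h2)
  have h6 := spinA_eq_of_no_neg_one hQ h2 x
    (by simpa [h4, one_add_one_eq_two] using fun h => absurd h h2)
  simp only [tEv, h4, h3, pow_mul, Int.units_sq, one_pow, mul_one, eval_pow, eval_add, eval_X,
    eval_one, neg_one_sq, one_add_one_eq_two] at h5 h6
  have h7 : fixs x = ⊥ := eq_bot_iff.mpr fun v hv => by
    have h8 := LinearMap.congr_fun hJ v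
    simp only [pow_two, Module.End.mul_apply, LinearEquiv.coe_coe, mem_fixs.mp hv,
      LinearMap.smul_apply, Module.End.one_apply, neg_smul, one_smul] at h8
    exact (smul_eq_zero.mp (show (2 : F) • v = 0 by rw [two_smul]; nth_rw 1 [h8]; simp)).resolve_left h2
  refine ⟨j, h3, (tq_of_ne h2).trans (by rwa [h6, eq_comm, mul_eq_left] at h5), ?_⟩
  rw [mem_commutator_O_iff hQ (not_exc_of_two_ne_zero h2), h6, dick, h7, h3, sqs_pow h2,
    ← sqs_eq_one_iff]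
  rcases Int.units_eq_one_or (sqs (2 : F)) with h | h <;> simp [h, neg_one_pow_eq_one_iff_even]

theorem exists_sq_neg (hQ : (polarBilin Q).Nondegenerate) (h2 : (2 : F) ≠ 0) {j : ℕ}
    (hj : finrank F V = 2 * j) (ht : tq Q = 1) :
    ∃ x : O Q, (x.1 : End F V) ^ 2 = (-1 : F) • 1 := by
  obtain rfl | h0 := eq_or_ne j 0
  · have := finrank_zero_iff.mp hj
    exact ⟨1, Subsingleton.elim _ _⟩
  obtain ⟨W, _, _, _, Q₁, h3, h4, h5⟩ := exists_tq h0 (fun h => absurd h h2) 1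
  have h6 := nondegenerate_prod h3 h3
  obtain ⟨e, he⟩ := exists_equiv_of_tq h6 hQ (by rw [finrank_prod]; omega)
    (by rw [(isOSum_prod Q₁ Q₁).tq_eq h6, h5, ht, mul_one])
  obtain ⟨x, hx⟩ := exists_O_eq hQ
    (g := e.conj (LinearMap.prod (-LinearMap.snd F W W) (LinearMap.fst F W W))) fun v => by
      obtain ⟨v, rfl⟩ := e.surjective v
      simp [LinearEquiv.conj_apply_apply, he, add_comm]
  refine ⟨x, LinearMap.ext fun v => ?_⟩
  obtain ⟨v, rfl⟩ := e.surjective v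
  simp [hx, pow_two, LinearEquiv.conj_apply_apply, ← map_neg, Prod.ext_iff]

theorem sqs_pow_eq_one_iff {a : F} {j : ℕ} : sqs a ^ j = 1 ↔ IsSquare a ∨ Even j := by
  rw [← sqs_eq_one_iff]
  rcases Int.units_eq_one_or (sqs a) with h | h <;> simp [h, neg_one_pow_eq_one_iff_even]

theorem tp_iff_of_tq {j : ℕ} (hj : finrank F V = 2 * j) (ht : tq Q = 1) :
    Tp Q ↔ IsSquare (-1 : F) ∨ Even j := by
  rw [Tp, ht, hj, Nat.mul_div_cancel_left _ two_pos, eq_comm, sqs_pow_eq_one_iff]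

theorem tq_eq_one_iff {j : ℕ} (hj : finrank F V = 2 * j) :
    tq Q = 1 ↔ (Tp Q ↔ IsSquare (-1 : F) ∨ Even j) := by
  rw [Tp, hj, Nat.mul_div_cancel_left _ two_pos, ← sqs_pow_eq_one_iff]
  generalize tq Q = a, sqs (-1 : F) ^ j = b
  revert a b
  decide

/-- `Ω(Q)` has an element of square `-1`. -/
theorem exists_inOm_sq_neg_iff (hQ : (polarBilin Q).Nondegenerate) (h2 : (2 : F) ≠ 0) {j : ℕ}
    (hj : finrank F V = 2 * j) : (∃ g, InOm Q g ∧ g ^ 2 = (-1 : F) • 1) ↔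
      (Tp Q ↔ IsSquare (-1 : F) ∨ Even j) ∧ (Even j ∨ IsSquare (2 : F)) := by
  rw [← tq_eq_one_iff hj]
  constructor
  · rintro ⟨_, ⟨x, hx, rfl⟩, h3⟩
    obtain ⟨j', h4, h5, h6⟩ := O_of_sq_neg hQ h2 x h3
    obtain rfl : j = j' := by omega
    exact ⟨h5, h6.mp hx⟩
  · rintro ⟨h3, h4⟩
    obtain ⟨x, hx⟩ := exists_sq_neg hQ h2 hj h3
    obtain ⟨j', h5, -, h6⟩ := O_of_sq_neg hQ h2 x hx
    obtain rfl : j = j' := by omega
    exact ⟨_, ⟨x, h6.mpr h4, rfl⟩, hx⟩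

theorem nt_iff_of_sq_neg (hQ : (polarBilin Q).Nondegenerate) (h2 : (2 : F) ≠ 0)
    (hg : ∀ v, Q (g v) = Q v) (hJ : g ^ 2 = (-1 : F) • 1) {m : ℕ} (hm : m ≤ finrank F V)
    {τ : Prop} : (∃ U, NT Q m τ U ∧ U.map g ≤ U) ↔
      Even m ∧ (τ ↔ IsSquare (-1 : F) ∨ Even (m / 2)) := by
  have key : ∀ U : Submodule F V, (∀ v ∈ U, g v ∈ U) → ND Q U → ∃ j, finrank F U = 2 * j ∧
      (Tp (Q.restrict U) ↔ IsSquare (-1 : F) ∨ Even j) := fun U h3 h4 => by
    obtain ⟨x, hx⟩ := exists_O_eq h4.restrict (g := g.restrict h3) fun v => hg v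
    obtain ⟨j, h5, h6, -⟩ := O_of_sq_neg h4.restrict h2 x (by
      rw [hx, Module.End.pow_restrict]
      exact LinearMap.ext fun v => Subtype.ext (LinearMap.congr_fun hJ v))
    exact ⟨j, h5, tp_iff_of_tq h5 h6⟩
  simp only [map_le_iff_forall]
  constructor
  · rintro ⟨U, ⟨rfl, h3, h4⟩, h5⟩
    obtain ⟨j, h6, h7⟩ := key U h5 h3
    rw [h6, Nat.mul_div_cancel_left _ two_pos, ← h4]
    exact ⟨even_two_mul j, h7⟩
  · rintro ⟨h3, h4⟩
    obtain ⟨k, rfl⟩ := h3.two_dvd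
    obtain ⟨j, h5, h6, h7⟩ := ordR_of_sq_neg (hform_polarBilin hQ) h2 (mul_one 1)
      (polar_isometry hg) hJ
    obtain ⟨U, -, h8, h9, h10⟩ : ∃ U ≤ ⊤, (∀ v ∈ U, g v ∈ U) ∧ ND Q U ∧ finrank F U = 2 * k := by
      by_cases h : IsSquare (-1 : F)
      exacts [(h6 h).nd_ex k (by omega), (h7 h).nd_ex k (by omega)]
    obtain ⟨j', h11, h12⟩ := key U h8 h9
    obtain rfl : k = j' := by omega
    rw [Nat.mul_div_cancel_left _ two_pos] at h4
    exact ⟨U, ⟨h10, h9, h12.trans h4.symm⟩, h8⟩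

theorem sing_iff_of_sq_neg (hQ : (polarBilin Q).Nondegenerate) (h2 : (2 : F) ≠ 0)
    (hg : ∀ v, Q (g v) = Q v) (hJ : g ^ 2 = (-1 : F) • 1) {m : ℕ} (hm : 2 * m ≤ finrank F V) :
    (∃ U : Submodule F V, (finrank F U = m ∧ ∀ u ∈ U, Q u = 0) ∧ U.map g ≤ U) ↔
      IsSquare (-1 : F) ∨ Even m := by
  obtain ⟨j, h5, h6, h7⟩ := ordR_of_sq_neg (hform_polarBilin hQ) h2 (mul_one 1)
    (polar_isometry hg) hJ
  simp only [map_le_iff_forall]
  by_cases h : IsSquare (-1 : F)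
  · obtain ⟨U, h8, h9, h10, h11⟩ := (h6 h).ts_ex m (by omega)
    exact iff_of_true ⟨U, ⟨by omega, (h6 h).sing_of_totIso hg h8 h9 h10⟩, h9⟩ (Or.inl h)
  rw [or_iff_right h]
  constructor
  · rintro ⟨U, ⟨rfl, h8⟩, h9⟩
    obtain ⟨j', -, h10⟩ := (h7 h).ts_of U le_top h9 fun u hu v hv => polar_eq_zero_of_forall h8 hu hv
    exact h10 ▸ even_two_mul _
  · rintro ⟨k, rfl⟩
    obtain ⟨U, h8, h9, h10, h11⟩ := (h7 h).ts_ex k (by omega)
    exact ⟨U, ⟨by omega, (h7 h).sing_of_totIso hg h8 h9 h10⟩, h9⟩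

omit [Fintype F] [FiniteDimensional F V] in
theorem ne_smul_of_sq_neg [Nontrivial V] (hQ : (polarBilin Q).Nondegenerate) (h2 : (2 : F) ≠ 0)
    (hg : ∀ v, Q (g v) = Q v) (hJ : g ^ 2 = (-1 : F) • 1) (z : F) : g ≠ z • 1 := by
  intro hz
  have h3 : z * z = 1 := (hform_polarBilin hQ).norm_of_pow_eq (polar_isometry hg) (k := 1)
    (by rw [pow_one, hz])
  rw [hz, _root_.smul_pow, one_pow, pow_two, h3] at hJ
  exact h2 (by linear_combination smul_left_injective F one_ne_zero hJ)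

omit [Fintype F] [FiniteDimensional F V] in
theorem hom_one_negO (hc : IsCompl A C) (ho : ∀ u ∈ A, ∀ v ∈ C, polar Q u v = 0) {a c : V}
    (ha : a ∈ A) (hc' : c ∈ C) :
    ((isOSum_of_isCompl Q hc ho).hom (1, negO _)).1 (a + c) = a - c :=
  ((isOSum_of_isCompl Q hc ho).hom_apply 1 (negO _) ⟨a, ha⟩ ⟨c, hc'⟩).trans (sub_eq_add_neg a c).symm

theorem FixSp.inOm_iff (hA : FixSp (σ := RingHom.id F) (polarBilin Q) g A C)
    (hQ : (polarBilin Q).Nondegenerate) (h2 : (2 : F) ≠ 0) (hs : g ^ 2 = 1) :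
    InOm Q g ↔ Even (finrank F C) ∧ tq (Q.restrict C) = 1 := by
  have h := isOSum_of_isCompl Q hA.isCompl hA.orth
  have h3 : ((h.hom (1, negO _)).1 : End F V) = g := by
    refine LinearMap.ext fun v => ?_
    obtain ⟨a, ha, c, hc, rfl⟩ := Submodule.mem_sup.mp (hA.isCompl.sup_eq_top ▸ Submodule.mem_top :
      v ∈ A ⊔ C)
    rw [map_add g, (hA.mem a).mp ha, hA.neg_of_sq hs c hc, ← sub_eq_add_neg]
    exact hom_one_negO hA.isCompl hA.orth ha hc
  have h4 := h.hom_mem_commutator_iff hQ (not_exc_of_two_ne_zero h2) 1 (negO _)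
  rw [dick_one, map_one, eq_comm, eq_comm (a := 1),
    ← mem_commutator_O_iff _ (not_exc_of_two_ne_zero h2),
    negO_mem_commutator_iff (h.nondegenerate_right hQ) h2] at h4
  rw [tq_of_ne h2, sqs_eq_one_iff, ← h4]
  refine ⟨fun ⟨x, hx, h4⟩ => ?_, fun hx => ⟨_, hx, h3⟩⟩
  rwa [← O_ext fun v => LinearMap.congr_fun (h4.trans h3.symm) v]

omit [Fintype F] in
theorem ND.exists_invol (hC : ND Q C) (hQ : (polarBilin Q).Nondegenerate) (h2 : (2 : F) ≠ 0) :
    ∃ g A, (∀ v, Q (g v) = Q v) ∧ g ^ 2 = 1 ∧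
      FixSp (σ := RingHom.id F) (polarBilin Q) g A C := by
  have hc := (isCompl_orth hQ (nd_iff_disjoint.mp hC)).symm
  have ho : ∀ u ∈ Orth.orth Q C, ∀ v ∈ C, polar Q u v = 0 := fun u hu => Orth.mem_orth'.mp hu
  obtain ⟨x, hx⟩ : ∃ x : O Q, ∀ a ∈ Orth.orth Q C, ∀ c ∈ C, x.1 (a + c) = a - c :=
    ⟨_, fun a ha c hc' => hom_one_negO hc ho ha hc'⟩
  have hs : (x.1 : End F V) ^ 2 = 1 := LinearMap.ext fun v => by
    obtain ⟨a, ha, c, hc, rfl⟩ := Submodule.mem_sup.mp (hc.sup_eq_top ▸ Submodule.mem_top :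
      v ∈ Orth.orth Q C ⊔ C)
    change x.1 (x.1 _) = _
    rw [hx a ha c hc, sub_eq_add_neg, hx a ha _ (C.neg_mem hc), sub_neg_eq_add]
    rfl
  obtain ⟨A, C', hA⟩ := exists_fixSp_of_sq (hform_polarBilin hQ) h2
    (polar_isometry (mem_O.mp x.2)) hs
  have h3 : C ≤ C' := fun v hv => by
    have h4 := hA.sub_mem v
    have h5 := hx 0 (zero_mem _) v hv
    rw [zero_add, zero_sub] at h5
    rwa [LinearEquiv.coe_coe, h5, ← neg_add', neg_mem_iff, ← two_smul F, C'.smul_mem_iff h2] at h4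
  have h4 := Submodule.finrank_mono (show Orth.orth Q C ≤ A from fun v hv => (hA.mem v).mpr (by
    simpa using hx v hv 0 (zero_mem _)))
  have h5 := hA.finrank_add
  have h6 := finrank_orth hQ C
  obtain rfl := Submodule.eq_of_le_of_finrank_le h3 (by omega)
  exact ⟨_, A, mem_O.mp x.2, hs, hA⟩

theorem nt_iff_tq (m : ℕ) (τ : Prop) : ∃ t, ∀ U : Submodule F V,
    NT Q m τ U ↔ finrank F U = m ∧ ND Q U ∧ tq (Q.restrict U) = t := by
  by_cases h : τ
  · exact ⟨sqs (-1 : F) ^ (m / 2), fun U => and_congr_right fun h1 => by simp [Tp, h, h1]⟩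
  · refine ⟨-sqs (-1 : F) ^ (m / 2), fun U => and_congr_right fun h1 => and_congr_right fun _ => ?_⟩
    simp only [Tp, h, h1, iff_false]
    generalize tq (Q.restrict U) = a, sqs (-1 : F) ^ (m / 2) = b
    revert a b
    decide

theorem FixSp.exists_nt (hA : FixSp (σ := RingHom.id F) (polarBilin Q) g A C)
    (hQ : (polarBilin Q).Nondegenerate) (h2 : (2 : F) ≠ 0) (hs : g ^ 2 = 1)
    (hC : 2 ≤ finrank F C) {m : ℕ} (h0 : m ≠ 0) (hm : m < finrank F V) (τ : Prop) :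
    ∃ U, NT Q m τ U ∧ U.map g ≤ U := by
  obtain ⟨t, ht⟩ := nt_iff_tq (Q := Q) m τ
  obtain ⟨h3, h4⟩ := hA.nondegOn (hform_polarBilin hQ)
  have h5 := hA.finrank_add
  obtain ⟨U, h6, h7⟩ := ((hform_polarBilin hQ).restrict h3).exists_nondeg_of_aniso
    (((hform_polarBilin hQ).restrict h3).exists_aniso_of_symm h2) (m - max 1 (m - finrank F A))
    (by omega)
  replace h6 : ND Q _ := nondegOn_map_subtype h6
  rw [← Submodule.finrank_map_subtype_eq] at h7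
  have h8 := A.map_subtype_le U
  obtain ⟨U', h9, h10, h11, h12⟩ := ND.exists_tq h4 (k := max 1 (m - finrank F A)) (by omega)
    (by omega) (fun h => absurd h h2) (tq (Q.restrict (U.map A.subtype)) * t)
  exact ⟨_, (ht _).mpr ⟨by rw [hA.finrank_sup h8 h9]; omega, hA.nondegOn_sup h8 h9 h6 h11, by
    rw [tq_sup h6 h11 fun u hu v hv => hA.orth u (h8 hu) v (h9 hv), h12, ← mul_assoc,
      Int.units_mul_self, one_mul]⟩,
    map_le_iff_forall.mpr (inv_sup (hA.inv_of_le h8) (hA.inv_of_sq hs h9))⟩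

theorem FixSp.sing_iff (hA : FixSp (σ := RingHom.id F) (polarBilin Q) g A C)
    (hQ : (polarBilin Q).Nondegenerate) (hs : g ^ 2 = 1) (m : ℕ) :
    (∃ U : Submodule F V, (finrank F U = m ∧ ∀ u ∈ U, Q u = 0) ∧ U.map g ≤ U) ↔
      ∃ a c, (2 * a ≤ finrank F A ∧ (2 * a = finrank F A → Tp (Q.restrict A))) ∧
        (2 * c ≤ finrank F C ∧ (2 * c = finrank F C → Tp (Q.restrict C))) ∧ a + c = m := by
  obtain ⟨h3, h4⟩ := hA.nondegOn (hform_polarBilin hQ)
  simp only [map_le_iff_forall, ← ND.exists_sing_iff h3, ← ND.exists_sing_iff h4]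
  constructor
  · rintro ⟨U, ⟨rfl, h1⟩, h2⟩
    exact ⟨_, _, ⟨_, inf_le_right, rfl, fun u hu => h1 u hu.1⟩,
      ⟨_, inf_le_right, rfl, fun u hu => h1 u hu.1⟩, hA.finrank_inf h2⟩
  · rintro ⟨_, _, ⟨U, h5, rfl, h6⟩, ⟨U', h7, rfl, h8⟩, rfl⟩
    exact ⟨_, ⟨hA.finrank_sup h5 h7, sing_sup h6 h8 fun u hu v hv => hA.orth u (h5 hu) v (h7 hv)⟩,
      inv_sup (hA.inv_of_le h5) (hA.inv_of_sq hs h7)⟩

theorem forall_inOm_sq_iff (hQ : (polarBilin Q).Nondegenerate) (h2 : (2 : F) ≠ 0)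
    (Ψ : End F V → Prop) (Φ : ℕ → ℕ → Prop)
    (H : ∀ g A C s, g ^ 2 = 1 → FixSp (σ := RingHom.id F) (polarBilin Q) g A C →
      finrank F C = 2 * s → tq (Q.restrict C) = 1 → s ≠ 0 → (Ψ g ↔ Φ (finrank F A) s)) :
    (∀ g, InOm Q g → g ^ 2 = 1 → (∀ z : F, g ≠ z • 1) → Ψ g) ↔
      ∀ k s, k + 2 * s = finrank F V → k ≠ 0 → s ≠ 0 → Φ k s := by
  constructor
  · intro h k s h3 h4 h5
    obtain ⟨C, h6, h7, h8⟩ := exists_isOSum_tq hQ (k := 2 * s) (by omega) (by omega)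
      (fun h => absurd h h2) 1
    obtain ⟨g, A, h9, h10, hA⟩ := h7.exists_invol hQ h2
    have h11 := hA.finrank_add
    obtain rfl : finrank F A = k := by omega
    exact (H g A C s h10 hA h6 h8 h5).mp (h g ((hA.inOm_iff hQ h2 h10).mpr
      ⟨h6 ▸ even_two_mul s, h8⟩) h10 (hA.ne_smul (ne_bot_of_finrank rfl (by omega))
        (ne_bot_of_finrank rfl (by omega))))
  · intro h g h3 h4 h5
    obtain ⟨A, C, hA⟩ := exists_fixSp_of_sq (hform_polarBilin hQ) h2 (polar_isometry h3.isom) h4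
    obtain ⟨h6, h7⟩ := (hA.inOm_iff hQ h2 h4).mp h3
    obtain ⟨s, hs⟩ := h6.two_dvd
    have h8 := hA.finrank_add
    have h9 : s ≠ 0 := fun h => h5 1 (LinearMap.ext fun v => by
      have := hA.sub_mem v
      rw [Submodule.finrank_eq_zero.mp (show finrank F C = 0 by omega)] at this
      simpa [sub_eq_zero] using this)
    refine (H g A C s h4 hA hs h7 h9).mpr (h _ s (by omega) (fun h => h5 (-1) ?_) h9)
    obtain rfl := Submodule.eq_top_of_finrank_eq (show finrank F C = _ by omega)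
    exact LinearMap.ext fun v => by simpa using hA.neg_of_sq h4 v trivial

theorem ne_smul_of_odd (hQ : (polarBilin Q).Nondegenerate) (h2 : (2 : F) ≠ 0)
    (hd : Odd (finrank F V)) (h3 : InOm Q g) (h4 : g ^ 2 = 1) (h5 : g ≠ 1) (z : F) :
    g ≠ z • 1 := by
  obtain ⟨A, C, hA⟩ := exists_fixSp_of_sq (hform_polarBilin hQ) h2 (polar_isometry h3.isom) h4
  have h6 := Nat.even_iff.mp ((hA.inOm_iff hQ h2 h4).mp h3).1
  have h7 := hA.finrank_add
  rw [Nat.odd_iff] at hd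
  refine hA.ne_smul (ne_bot_of_finrank rfl (by omega)) (fun h => h5 (LinearMap.ext fun v => ?_)) z
  simpa [h, sub_eq_zero] using hA.sub_mem v

theorem forall_inOm_two_iff [Nontrivial V] (hQ : (polarBilin Q).Nondegenerate) (h2 : (2 : F) ≠ 0)
    (Ψ : End F V → Prop) :
    (∀ g, InOm Q g → (∃ z : F, g ^ 2 = z • 1) → (∀ z : F, g ≠ z • 1) → Ψ g) ↔
      (∀ g, InOm Q g → g ^ 2 = 1 → (∀ z : F, g ≠ z • 1) → Ψ g) ∧
      ∀ g, InOm Q g → g ^ 2 = (-1 : F) • 1 → Ψ g :=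
  ⟨fun h => ⟨fun g h3 h4 => h g h3 ⟨1, by rw [h4, one_smul]⟩, fun g h3 h4 =>
    h g h3 ⟨_, h4⟩ (ne_smul_of_sq_neg hQ h2 h3.isom h4)⟩, fun h g h3 ⟨_, h4⟩ h5 =>
    ((hform_polarBilin hQ).sq_cases (polar_isometry h3.isom) h4).elim (h.1 g h3 · h5) (h.2 g h3)⟩

theorem forall_nt_two_iff (hQ : (polarBilin Q).Nondegenerate) (h2 : (2 : F) ≠ 0) {d : ℕ}
    (hd : finrank F V = 2 * d) {m : ℕ} (h0 : m ≠ 0) (hm : m < 2 * d) (τ : Prop) :
    (∀ g, InOm Q g → (∃ z : F, g ^ 2 = z • 1) → (∀ z : F, g ≠ z • 1) →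
      ∃ U, NT Q m τ U ∧ U.map g ≤ U) ↔
    ((Tp Q ↔ IsSquare (-1 : F) ∨ Even d) → (Even d ∨ IsSquare (2 : F)) →
      Even m ∧ (τ ↔ IsSquare (-1 : F) ∨ Even (m / 2))) := by
  have : Nontrivial V := Module.nontrivial_of_finrank_pos (R := F) (by omega)
  rw [forall_inOm_two_iff hQ h2, ← and_imp, ← exists_inOm_sq_neg_iff hQ h2 hd,
    forall_inOm_sq_iff hQ h2 _ (fun _ _ => True) fun g A C s h3 hA h4 _ h5 =>
      iff_true_intro (hA.exists_nt hQ h2 h3 (by omega) h0 (by omega) τ), exists_imp,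
    and_iff_right fun _ _ _ _ _ => trivial]
  exact forall_congr' fun g => and_imp.symm.trans (imp_congr_right fun h =>
    nt_iff_of_sq_neg hQ h2 h.1.isom h.2 (by omega))

theorem exists_nt_of_odd (hQ : (polarBilin Q).Nondegenerate) (h2 : (2 : F) ≠ 0)
    (hd : Odd (finrank F V)) {m : ℕ} (h0 : m ≠ 0) (hm : m < finrank F V) (τ : Prop) :
    ∀ g, InOm Q g → g ^ 2 = 1 → g ≠ 1 → ∃ U, NT Q m τ U ∧ U.map g ≤ U := by
  intro g h3 h4 h5
  refine (forall_inOm_sq_iff hQ h2 _ (fun _ _ => True) fun g A C s h3 hA h4 _ h5 =>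
      iff_true_intro (hA.exists_nt hQ h2 h3 (by omega) h0 hm τ)).mpr (fun _ _ _ _ _ => trivial)
      g h3 h4 (ne_smul_of_odd hQ h2 hd h3 h4 h5)

theorem forall_sing_sq_iff (hQ : (polarBilin Q).Nondegenerate) (h2 : (2 : F) ≠ 0) {n m : ℕ}
    (hn : finrank F V = n) (h3 : 3 ≤ n) (hm : 2 * m < n) :
    (∀ g, InOm Q g → g ^ 2 = 1 → (∀ z : F, g ≠ z • 1) →
      ∃ U : Submodule F V, (finrank F U = m ∧ ∀ u ∈ U, Q u = 0) ∧ U.map g ≤ U) ↔
    IsSquare (-1 : F) ∨ 2 * m + 3 ≤ n ∨ (2 * m + 2 = n ∧ ¬ Tp Q) := by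
  rw [forall_inOm_sq_iff hQ h2 _ (fun k s => ∃ a c,
    (2 * a ≤ k ∧ (2 * a = k → (Tp Q ↔ IsSquare (-1 : F) ∨ Even s))) ∧
      (2 * c ≤ 2 * s ∧ (2 * c = 2 * s → IsSquare (-1 : F) ∨ Even s)) ∧ a + c = m)
    fun g A C s h4 hA h5 h6 _ => by
      have h7 := tp_iff_of_tq h5 h6
      rw [hA.sing_iff hQ h4, tp_iff_of_isCompl hQ hA.isCompl hA.orth (h5 ▸ even_two_mul s) h7, h7,
        h5], hn]
  constructor
  · intro H
    obtain ⟨a, c, h4, h5, h6⟩ := H (n - 2) 1 (by omega) (by omega) one_ne_zero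
    by_contra h7
    simp only [not_or, not_and, not_not] at h7
    simp only [h7.1, Nat.not_even_one, or_false, iff_false, imp_false] at h4 h5
    exact h4.2 (by omega) (h7.2.2 (by omega))
  · intro H k s h4 h5 h6
    by_cases h7 : IsSquare (-1 : F) ∨ Even s
    · exact ⟨m - min m s, min m s, ⟨by omega, fun _ => by omega⟩, ⟨by omega, fun _ => h7⟩, by omega⟩
    · replace H := H.resolve_left fun h => h7 (Or.inl h)
      exact ⟨m - min m (s - 1), min m (s - 1), ⟨by omega, fun _ => iff_of_false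
        (H.resolve_left (by omega)).2 h7⟩, ⟨by omega, fun _ => by omega⟩, by omega⟩

theorem forall_sing_two_iff (hQ : (polarBilin Q).Nondegenerate) (h2 : (2 : F) ≠ 0) {d m : ℕ}
    (hd : finrank F V = 2 * d) (h3 : 2 ≤ d) (hm : m < d) :
    (∀ g, InOm Q g → (∃ z : F, g ^ 2 = z • 1) → (∀ z : F, g ≠ z • 1) →
      ∃ U : Submodule F V, (finrank F U = m ∧ ∀ u ∈ U, Q u = 0) ∧ U.map g ≤ U) ↔
    (IsSquare (-1 : F) ∨ m + 2 ≤ d ∨ ¬ Tp Q) ∧ ((Tp Q ↔ IsSquare (-1 : F) ∨ Even d) →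
      (Even d ∨ IsSquare (2 : F)) → IsSquare (-1 : F) ∨ Even m) := by
  have : Nontrivial V := Module.nontrivial_of_finrank_pos (R := F) (by omega)
  rw [forall_inOm_two_iff hQ h2, ← and_imp, ← exists_inOm_sq_neg_iff hQ h2 hd,
    forall_sing_sq_iff hQ h2 hd (by omega) (by omega), exists_imp]
  refine and_congr (or_congr_right ?_) (forall_congr' fun g => and_imp.symm.trans
    (imp_congr_right fun h => sing_iff_of_sq_neg hQ h2 h.1.isom h.2 (by omega)))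
  by_cases Tp Q <;> simp [*] <;> omega

theorem isSquare_two_iff_mod (h2 : (2 : F) ≠ 0) :
    IsSquare (2 : F) ↔ Fintype.card F % 8 = 1 ∨ Fintype.card F % 8 = 7 := by
  have := isSquare_neg_one_iff_mod h2
  rw [FiniteField.isSquare_two_iff]
  by_cases h : IsSquare (-1 : F)
  · have := this.1.mp h; omega
  · have := this.2.mp h; omega

theorem not_dvd_sing_char (p : ℕ) [Fact p.Prime] [CharP F p] (hQ : (polarBilin Q).Nondegenerate)
    {m : ℕ} (hm : 2 * m < finrank F V) :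
    ¬ p ∣ Nat.card {U : Submodule F V // finrank F U = m ∧ ∀ u ∈ U, Q u = 0} := by
  refine not_dvd_card_submodule (O Q) _ (fun g hg W hW => ⟨(g.finrank_map_eq W).trans hW.1, by
      rintro _ ⟨u, hu, rfl⟩
      exact (mem_O.mp hg u).trans (hW.2 u hu)⟩) (fun W W' h1 h2 => by
      obtain ⟨g, hg⟩ := exists_O_map_eq_of_singular hQ (h1.1.trans h2.1.symm) h1.2 h2.2
      exact ⟨g, g.2, hg⟩) fun P hP hp => ?_
  obtain ⟨U, h1, h2, -, h3⟩ := (hform_polarBilin hQ).exists_ts_pGroup hp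
    (fun g hg => polar_isometry (g := (g : End F V)) (mem_O.mp (hP hg))) (fun v => Q v = 0)
    (map_zero Q) (fun g hg v hv => (mem_O.mp (hP hg) v).trans hv)
    (fun u v hu hv huv => by rw [Q_add, hu, hv, zero_add, zero_add]; exact huv)
    (fun c v hv => by rw [Q_smul, hv, mul_zero])
    (fun v h => (polar_self' v).trans (by rw [h, mul_zero])) m fun U M _ _ h1 h2 _ h3 => by
      obtain ⟨f, -, hf⟩ := FiniteField.card F p
      refine (hf ▸ dvd_pow_self p f.ne_zero : p ∣ Fintype.card F).trans ?_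
      rw [← Nat.card_eq_fintype_card]
      change _ ∣ sing (Q.restrict M)
      obtain ⟨e, he⟩ : ∃ e, finrank F M = 2 * (e + 1) + 1 ∨ finrank F M = 2 * (e + 1) + 2 :=
        ⟨(finrank F M - 3) / 2, by omega⟩
      rcases he with he | he
      · rw [sing_odd (ND.restrict h2) he]
        exact dvd_pow_self _ (by omega)
      rw [← Int.natCast_dvd_natCast]
      have h4 := fun k => dvd_pow_self (Nat.card F : ℤ) (Nat.succ_ne_zero k)
      by_cases h : IsPlus (Q.restrict M)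
      · rw [sing_of_isPlus (ND.restrict h2) he h]
        exact (h4 _).add ((h4 _).sub (h4 _))
      · rw [sing_of_not_isPlus (ND.restrict h2) he h]
        exact (h4 _).sub ((h4 _).sub (h4 _))
  exact ⟨U, ⟨h1, h2⟩, h3⟩

omit [FiniteDimensional F V] in
theorem tp_quadPlus (d : ℕ) : Tp (quadPlus d F) :=
  (isPlus_iff_tp (quadPlus_nondegenerate d) (isPlus_quadPlus d).even).mp (isPlus_quadPlus d)

omit [Fintype F] in
theorem finrank_minusSp {d : ℕ} (hd : 1 ≤ d) :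
    finrank F ((Fin (d - 1) ⊕ Fin (d - 1)) ⊕ Fin 2 → F) = 2 * d := by
  simp; omega

theorem not_tp_quadMinus (d : ℕ) {a b : F} (hab : Aniso a b) : ¬ Tp (quadMinus d F a b) :=
  mt (isPlus_iff_tp (quadMinus_nondegenerate d hab) (by simp [Nat.even_add])).mpr
    (not_isPlus_quadMinus d hab)

end Cfsg.Lib.Known
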