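import Mathlib
import Cfsg.Agent.Known.ElusO3

/-!
Subspaces fixed by involutions of `Ω` in characteristic two.
-/

namespace Cfsg.Lib.Known

open Module Polynomial Cfsg.Lib.Class Cfsg.Lib.Class.Form QuadraticMap
open Cfsg.Lib.Class.Orth hiding orth stab mem_orth mem_orth'

universe u v

variable {F : Type u} [Field F] {V : Type v} {V₁ V₂ : Type*} [AddCommGroup V] [Module F V]
  [AddCommGroup V₁] [Module F V₁] [AddCommGroup V₂] [Module F V₂] {Q : QuadraticForm F V}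
  {Q₁ : QuadraticForm F V₁} {Q₂ : QuadraticForm F V₂} {e : (V₁ × V₂) ≃ₗ[F] V}

theorem IsOSum.alt_hom (h : IsOSum Q Q₁ Q₂ e) (t₁ : O Q₁) (t₂ : O Q₂) :
    (∀ v, polarBilin Q v ((h.hom (t₁, t₂)).1 v) = 0) ↔
      (∀ v, polarBilin Q₁ v (t₁.1 v) = 0) ∧ ∀ v, polarBilin Q₂ v (t₂.1 v) = 0 := by
  simp only [e.surjective.forall, Prod.forall, h.hom_apply, polarBilin_apply_apply, h.polar_eq]
  exact ⟨fun H => ⟨fun v => by simpa using H v 0, fun v => by simpa using H 0 v⟩,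
    fun H a b => by rw [H.1, H.2, add_zero]⟩

theorem IsOSum.hom_mul_self_iff (h : IsOSum Q Q₁ Q₂ e) {t₁ : O Q₁} {t₂ : O Q₂} :
    h.hom (t₁, t₂) * h.hom (t₁, t₂) = 1 ↔ t₁ * t₁ = 1 ∧ t₂ * t₂ = 1 := by
  rw [← map_mul, map_eq_one_iff _ h.hom_injective, Prod.mk_mul_mk, Prod.mk_eq_one]

variable [FiniteDimensional F V] [FiniteDimensional F V₁] [FiniteDimensional F V₂]

theorem mul_self_iff_coe {x : O Q} : x * x = 1 ↔ (x.1 : End F V) ^ 2 = 1 := by
  rw [← coe_O_pow, pow_two]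
  exact ⟨fun h => by rw [h]; rfl, fun h => O_ext fun v => LinearMap.congr_fun h v⟩

theorem finrank_resSp_add (t : O Q) : finrank F (resSp t.1) + finrank F (fixs t) = finrank F V := by
  rw [show fixs t = LinearMap.ker (resN t.1) by
    ext v; exact sub_eq_zero.symm]
  exact LinearMap.finrank_range_add_finrank_ker _

theorem IsOSum.finrank_resSp_hom (h : IsOSum Q Q₁ Q₂ e) (t₁ : O Q₁) (t₂ : O Q₂) :
    finrank F (resSp (h.hom (t₁, t₂)).1) = finrank F (resSp t₁.1) + finrank F (resSp t₂.1) := by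
  have h1 := finrank_resSp_add (h.hom (t₁, t₂))
  have h2 := finrank_resSp_add t₁
  have h3 := finrank_resSp_add t₂
  rw [h.finrank_fixs_hom, h.finrank_eq] at h1
  omega

variable [Finite F]

theorem exists_nt_of_isConj {m : ℕ} {τ : Prop} {s t : O Q} (h : IsConj s t) {W : Submodule F V}
    (hW : NT Q m τ W) (hs : ∀ v ∈ W, s.1 v ∈ W) :
    ∃ U, NT Q m τ U ∧ U.map (t.1 : End F V) ≤ U := by
  obtain ⟨c, rfl⟩ := isConj_iff.mp h
  refine ⟨_, hW.map c.2, map_le_iff_forall.mpr ?_⟩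
  rintro _ ⟨v, hv, rfl⟩
  exact ⟨_, hs v hv, by simp⟩

variable [CharP F 2]

theorem exists_O_inr_iff (hQ : (polarBilin Q).Nondegenerate) {k : ℕ} :
    (∃ t : O Q, t * t = 1 ∧ finrank F (resSp t.1) = k ∧ ∀ v, polarBilin Q v (t.1 v) = 0) ↔
      Even k ∧ 2 * k ≤ finrank F V ∧ (2 * k = finrank F V → Tp Q) := by
  rw [← exists_sing_iff hQ]
  constructor
  · rintro ⟨t, h1, rfl, h2⟩
    exact ⟨((witt2_O hQ).isInv h1).even_of_alt (witt2_O hQ).sym (polarBilin_isAlt_two Q) h2, _,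
      rfl, (alt_iff_singular t.2).mp h2⟩
  · rintro ⟨h1, X, rfl, h2⟩
    obtain ⟨t, ht, rfl⟩ := exists_O_resSp_eq hQ h2 h1
    exact ⟨t, O_ext ht.invol, rfl, (alt_iff_singular t.2).mpr h2⟩

theorem exists_O_inl' (hQ : (polarBilin Q).Nondegenerate) {k : ℕ} (h0 : k ≠ 0)
    (hk : 2 * k ≤ finrank F V) :
    ∃ t : O Q, t * t = 1 ∧ finrank F (resSp t.1) = k ∧ ¬ ∀ v, polarBilin Q v (t.1 v) = 0 := by
  obtain ⟨k, rfl⟩ := Nat.exists_eq_succ_of_ne_zero h0
  obtain ⟨X, rfl, h1⟩ := (exists_sing_iff hQ (k := k)).mpr ⟨by omega, fun _ => by omega⟩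
  obtain ⟨t, h2, h3⟩ := exists_O_inl hQ h1 le_rfl (by omega)
  exact ⟨t, mul_self_of_orderOf h2, invType_eq_inl_iff.mp h3⟩

theorem forall_inOm_char_two_iff [Nontrivial V] (hQ : (polarBilin Q).Nondegenerate) (hE : ¬ Exc Q)
    (Ψ : End F V → Prop) :
    (∀ g, InOm Q g → (∃ z : F, g ^ 2 = z • 1) → (∀ z : F, g ≠ z • 1) → Ψ g) ↔
      ∀ t : O Q, t * t = 1 → Even (finrank F (resSp t.1)) → finrank F (resSp t.1) ≠ 0 → Ψ t.1 := by
  have key : ∀ z : F, z * z = 1 → z = 1 := fun z h =>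
    (mul_self_eq_one_iff.mp h).elim id fun h => h.trans (CharTwo.neg_eq 1)
  have h := hform_polarBilin hQ
  constructor
  · intro H t h1 h2 h3
    refine H _ ⟨t, (mem_commutator_iff_even_resSp hQ hE t).mpr h2, rfl⟩
      ⟨1, by rw [mul_self_iff_coe.mp h1, one_smul]⟩ fun z hz => h3 (finrank_resSp_eq_zero_iff.mpr ?_)
    rw [key z (h.norm_of_pow_eq (polar_isometry (mem_O.mp t.2)) (k := 1) (by rw [pow_one, hz])),
      one_smul] at hz
    exact LinearEquiv.toLinearMap_injective hz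
  · rintro H _ ⟨t, h1, rfl⟩ ⟨z, hz⟩ h2
    rw [key z (h.norm_of_pow_eq (polar_isometry (mem_O.mp t.2)) hz), one_smul] at hz
    exact H t (mul_self_iff_coe.mpr hz) ((mem_commutator_iff_even_resSp hQ hE t).mp h1) fun h3 =>
      h2 1 (by rw [finrank_resSp_eq_zero_iff.mp h3, one_smul]; rfl)

theorem forall_nt_char_two_iff (hQ : (polarBilin Q).Nondegenerate) (hE : ¬ Exc Q) {d k : ℕ}
    (hd : finrank F V = 2 * d) (h0 : k ≠ 0) (hk : k < d) (τ : Prop) :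
    (∀ g, InOm Q g → (∃ z : F, g ^ 2 = z • 1) → (∀ z : F, g ≠ z • 1) →
      ∃ U, NT Q (2 * k) τ U ∧ U.map g ≤ U) ↔
    ∀ s, s ≠ 0 → 2 * s ≤ d → (2 * s = d → Tp Q) → ∃ a b, a + b = s ∧ 2 * a ≤ k ∧ (2 * a = k → τ) ∧
      2 * b + k ≤ d ∧ (2 * b + k = d → (Tp Q ↔ τ)) := by
  have : Nontrivial V := Module.nontrivial_of_finrank_pos (R := F) (by omega)
  have key : ∀ W, NT Q (2 * k) τ W → ∃ e, ∃ h : IsOSum Q (Q.restrict W)
      (Q.restrict (Orth.orth Q W)) e, finrank F (Orth.orth Q W) + 2 * k = 2 * d ∧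
      (Tp (Q.restrict (Orth.orth Q W)) ↔ (Tp Q ↔ τ)) ∧ (∀ t₁ t₂, ∀ v ∈ W,
        (h.hom (t₁, t₂)).1 v ∈ W) ∧ ∀ t : O Q, (∀ v ∈ W, t.1 v ∈ W) →
          ∃ t₁ t₂, t = h.hom (t₁, t₂) := fun W hW => by
    have h := isOSum_orth hQ (nd_iff_disjoint.mp hW.2.1)
    have h1 := finrank_orth hQ W
    refine ⟨_, h, by rw [← hd, ← h1, hW.1], tp_iff_of_isCompl hQ
      (isCompl_orth hQ (nd_iff_disjoint.mp hW.2.1)).symm (fun u hu => Orth.mem_orth'.mp hu)
      (hW.1 ▸ even_two_mul k) hW.2.2, fun t₁ t₂ v hv => ?_, fun t ht =>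
        h.exists_eq_hom hW.2.1.restrict fun a => ⟨⟨_, ht a a.2⟩, by simp⟩⟩
    simpa using (congrArg (· ∈ W) (h.hom_apply t₁ t₂ ⟨v, hv⟩ 0)).mpr (by simp)
  rw [forall_inOm_char_two_iff hQ hE]
  constructor
  · intro H s h1 h2 h3
    obtain ⟨t, h4, h5, h6⟩ := (exists_O_inr_iff hQ (k := 2 * s)).mpr
      ⟨even_two_mul s, by omega, fun _ => h3 (by omega)⟩
    obtain ⟨W, hW, h7⟩ := H t h4 (h5 ▸ even_two_mul s) (by omega)
    obtain ⟨e, h, h8, h9, -, h10⟩ := key W hW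
    obtain ⟨t₁, t₂, rfl⟩ := h10 t (map_le_iff_forall.mp h7)
    rw [h.hom_mul_self_iff] at h4
    rw [h.alt_hom] at h6
    rw [h.finrank_resSp_hom] at h5
    obtain ⟨⟨a, ha⟩, h11, h12⟩ := (exists_O_inr_iff (h.nondegenerate_left hQ)).mp
      ⟨t₁, h4.1, rfl, h6.1⟩
    obtain ⟨⟨b, hb⟩, h13, h14⟩ := (exists_O_inr_iff (h.nondegenerate_right hQ)).mp
      ⟨t₂, h4.2, rfl, h6.2⟩
    have := hW.1
    exact ⟨a, b, by omega, by omega, fun _ => hW.2.2.mp (h12 (by omega)), by omega,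
      fun _ => h9.mp (h14 (by omega))⟩
  · intro H t h1 ⟨s, hs⟩ h2
    obtain ⟨W, -, hW⟩ := (ND.exists_nt_iff (hform_polarBilin hQ).nondegOn_top (k := 2 * k)
      (τ := τ) fun _ => even_two_mul k).mpr ⟨by rw [finrank_top]; omega, fun _ => by omega,
        fun _ => by rw [finrank_top] at *; omega⟩
    obtain ⟨e, h, h3, h4, h5, -⟩ := key W hW
    have h6 := hW.1
    suffices ∃ t₁ t₂, (t₁ * t₁ = 1 ∧ t₂ * t₂ = 1) ∧
        invType (polarBilin Q) (h.hom (t₁, t₂)).1 = invType (polarBilin Q) t.1 by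
      obtain ⟨t₁, t₂, h7, h8⟩ := this
      exact exists_nt_of_isConj (((witt2_O hQ).isConj_iff (h.hom_mul_self_iff.mpr h7) h1).mpr h8)
        hW (h5 t₁ t₂)
    simp only [invType_eq_iff, h.alt_hom, h.finrank_resSp_hom]
    by_cases h7 : ∀ v, polarBilin Q v (t.1 v) = 0
    · obtain ⟨-, h8, h9⟩ := (exists_O_inr_iff hQ).mp ⟨t, h1, rfl, h7⟩
      obtain ⟨a, b, h10, h11, h12, h13, h14⟩ := H s (by omega) (by omega) fun _ => h9 (by omega)
      obtain ⟨t₁, h15, h16, h17⟩ := (exists_O_inr_iff (h.nondegenerate_left hQ) (k := 2 * a)).mpr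
        ⟨even_two_mul a, by omega, fun _ => hW.2.2.mpr (h12 (by omega))⟩
      obtain ⟨t₂, h18, h19, h20⟩ := (exists_O_inr_iff (h.nondegenerate_right hQ) (k := 2 * b)).mpr
        ⟨even_two_mul b, by omega, fun _ => h4.mpr (h14 (by omega))⟩
      exact ⟨t₁, t₂, ⟨h15, h18⟩, by omega, iff_of_true ⟨h17, h20⟩ h7⟩
    · have h8 := ((witt2_O hQ).isInv h1).two_mul_finrank_le (witt2_O hQ).sym
      obtain ⟨t₁, h15, h16, h17⟩ := exists_O_inl' (h.nondegenerate_left hQ)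
        (k := min k (s + s - 1)) (by omega) (by omega)
      obtain ⟨t₂, h18, h19, -⟩ := exists_O_inl' (h.nondegenerate_right hQ)
        (k := s + s - min k (s + s - 1)) (by omega) (by omega)
      exact ⟨t₁, t₂, ⟨h15, h18⟩, by omega, iff_of_false (fun h => h17 h.1) h7⟩

omit [Finite F] [FiniteDimensional F V] in
theorem exists_nonsing_line_iff {g : End F V} (hg : ∀ v, Q (g v) = Q v) :
    (∃ W : Submodule F V, (finrank F W = 1 ∧ ∃ v ∈ W, Q v ≠ 0) ∧ W.map g ≤ W) ↔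
      ∃ v, Q v ≠ 0 ∧ g v = v := by
  constructor
  · rintro ⟨W, ⟨h1, v, h2, h3⟩, h4⟩
    have h5 : (⟨v, h2⟩ : W) ≠ 0 := fun h => h3 (by rw [show v = 0 from congrArg Subtype.val h, map_zero])
    obtain ⟨c, hc⟩ := (finrank_eq_one_iff_of_nonzero' _ h5).mp h1 ⟨g v, h4 ⟨v, h2, rfl⟩⟩
    have h6 : c • v = g v := congrArg Subtype.val hc
    have h7 := hg v
    rw [← h6, Q_smul, mul_eq_right₀ h3, sq_eq_one_iff, CharTwo.neg_eq, or_self] at h7
    exact ⟨v, h3, by rw [← h6, h7, one_smul]⟩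
  · rintro ⟨v, h1, h2⟩
    refine ⟨Submodule.span F {v}, ⟨finrank_span_singleton (by rintro rfl; simp at h1), v,
      Submodule.mem_span_singleton_self v, h1⟩, ?_⟩
    rw [Submodule.map_span, Set.image_singleton, h2]

theorem forall_line_two_iff (hQ : (polarBilin Q).Nondegenerate) (hE : ¬ Exc Q) {d : ℕ}
    (hd : finrank F V = 2 * d) (h0 : d ≠ 0) :
    (∀ g, InOm Q g → (∃ z : F, g ^ 2 = z • 1) → (∀ z : F, g ≠ z • 1) →
      ∃ W : Submodule F V, (finrank F W = 1 ∧ ∃ v ∈ W, Q v ≠ 0) ∧ W.map g ≤ W) ↔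
      (Tp Q → Odd d) := by
  have : Nontrivial V := Module.nontrivial_of_finrank_pos (R := F) (by omega)
  have hG := witt2_O hQ
  rw [forall_inOm_char_two_iff hQ hE]
  constructor
  · intro H h1
    by_contra h2
    rw [Nat.not_odd_iff_even] at h2
    obtain ⟨t, h3, h4, h5⟩ := (exists_O_inr_iff hQ).mpr ⟨h2, hd.ge, fun _ => h1⟩
    obtain ⟨v, h6, h7⟩ := (exists_nonsing_line_iff (mem_O.mp t.2)).mp
      (H t h3 (h4 ▸ h2) (h4 ▸ h0))
    have h8 := (alt_iff_singular t.2).mp h5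
    have h9 := finrank_orth hQ (resSp t.1)
    refine h6 (h8 v ?_)
    rw [Submodule.eq_of_le_of_finrank_le (le_orth_of_forall h8) (by omega)]
    rintro _ ⟨u, rfl⟩
    refine ((hG.isInv h3).adj u v).trans ?_
    rw [resN_apply, show t.1 v = v from h7, sub_self, map_zero]
  · intro H t h1 h2 h3
    have ht := hG.isInv h1
    rw [exists_nonsing_line_iff (mem_O.mp t.2)]
    by_cases h4 : ∀ x ∈ resSp t.1, Q x = 0
    · obtain ⟨h5, h6⟩ := (exists_sing_iff hQ).mp ⟨_, rfl, h4⟩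
      obtain ⟨z, hz, hz0⟩ := exists_nonsing_orth hQ (W := resSp t.1) (lt_of_le_of_ne h5 fun h =>
        Nat.not_even_iff_odd.mpr (H (h6 h)) (by rwa [show d = finrank F (resSp t.1) by omega]))
      exact ⟨z, hz0, ht.apply_eq_of_orth hG.sym (Orth.mem_orth'.1 hz)⟩
    · push Not at h4
      obtain ⟨x, hx, hx0⟩ := h4
      exact ⟨x, hx0, ht.apply_of_mem hx⟩

theorem not_forall_line {F : Type u} [Field F] [Fintype F] [CharP F 2] [Module F V]
    [FiniteDimensional F V] {Q : QuadraticForm F V} (hQ : (polarBilin Q).Nondegenerate)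
    {r : ℕ} [Fact r.Prime] (hr2 : r ≠ 2) (h0 : finrank F V ≠ 0)
    (h : r ∣ Nat.card {W : Submodule F V // finrank F W = 1 ∧ ∃ v ∈ W, Q v ≠ 0}) :
    ¬ ∀ g : End F V, (∀ v, Q (g v) = Q v) → g ^ r = 1 → g ≠ 1 →
      ∃ W : Submodule F V, (finrank F W = 1 ∧ ∃ v ∈ W, Q v ≠ 0) ∧ W.map g ≤ W := by
  obtain ⟨A, j, h1, h2, h3, h4⟩ := exists_of_dvd_card 2 hr2 hr2 rfl rfl hQ _
    (fun g hg W ⟨h1, v, h2, h3⟩ => ⟨(g.finrank_map_eq W).trans h1, g v, ⟨v, h2, rfl⟩,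
      by rwa [mem_O.mp hg]⟩) (fun W W' ⟨h1, v, h2, h3⟩ ⟨h4, w, h5, h6⟩ => by
      obtain ⟨c, hc⟩ := isSquare_of_two_eq_zero (F := F) CharTwo.two_eq_zero (Q w / Q v)
      have h7 : Q (c • v) = Q w := by rw [Q_smul, pow_two, ← hc, div_mul_cancel₀ _ h3]
      have h8 : w ≠ 0 := by rintro rfl; simp at h6
      obtain ⟨g, hg⟩ := exists_O_apply_eq hQ (by rintro h; rw [h, map_zero] at h7; exact h6 h7.symm)
        h8 h7
      refine ⟨g, g.2, (Submodule.eq_of_le_of_finrank_eq ?_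
        (h4.trans ((g.1.finrank_map_eq W).trans h1).symm)).symm⟩
      rw [← Submodule.eq_of_le_of_finrank_eq ((Submodule.span_singleton_le_iff_mem _ _).mpr h5)
        ((finrank_span_singleton h8).trans h4.symm), Submodule.span_singleton_le_iff_mem]
      exact ⟨_, W.smul_mem c h2, hg⟩) h
  have h5 : finrank F A = 0 := by
    by_contra h5
    obtain ⟨z, -, hz⟩ := exists_nonsing_orth h1.restrict (W := ⊥) (by simp; omega)
    exact h4 ⟨Submodule.span F {z.1}, (Submodule.span_singleton_le_iff_mem _ _).mpr z.2,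
      finrank_span_singleton fun h => hz (by rw [restrict_apply', h, map_zero]), _,
      Submodule.mem_span_singleton_self _, hz⟩
  rw [forall_O_prime_iff 2 hr2 hr2 rfl rfl hQ _ (fun k _ _ => k ≠ 0) fun g A C j l hg _ hA => ?_]
  · obtain ⟨l, hl⟩ := (cycD_id (F := F) 2 hr2 hr2 (ε := 1) (mul_one 1) rfl rfl).exists_adm 2 hr2 j
    exact fun H => H 0 j l (h5 ▸ h2) (by rintro rfl; exact h0 (by omega)) hl
      (fun _ => h3.mp (tp_of_finrank_zero h5)) rfl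
  rw [exists_nonsing_line_iff hg]
  constructor
  · rintro ⟨v, h6, h7⟩ h8
    have h9 := (hA.mem v).mpr h7
    rw [Submodule.finrank_eq_zero.mp h8, Submodule.mem_bot] at h9
    exact h6 (by rw [h9, map_zero])
  · intro h6
    obtain ⟨z, -, hz⟩ := exists_nonsing_orth (ND.restrict (hA.nondegOn (hform_polarBilin hQ)).1)
      (W := ⊥) (by simp; omega)
    exact ⟨z, hz, (hA.mem z).mp z.2⟩

end Cfsg.Lib.Known
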