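import Mathlib
import Cfsg.Agent.Known.ElusO4

/-!
Subspaces fixed by unipotent elements of orthogonal groups in odd characteristic.
-/

namespace Cfsg.Lib.Known

open Module Polynomial Cfsg.Lib.Class Cfsg.Lib.Class.Form QuadraticMap
open Cfsg.Lib.Class.Orth hiding orth stab mem_orth mem_orth'

universe u v

variable {F : Type u} [Field F] {V : Type v} [AddCommGroup V] [Module F V] {Q : QuadraticForm F V}
  {g : End F V} {μ : Multiset ℕ}

theorem oParity_unip_iff :
    OParity (μ.map fun e => ((X - C 1 : F[X]), e)) ↔ ∀ a, Even a → Even (μ.count a) := by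
  classical
  refine ⟨fun h a ha => by simpa only [count_map_X_sub_C] using h 1 (one_mul 1) a ha,
    fun h l _ a ha => ?_⟩
  by_cases hl : l = 1
  · simpa only [hl, count_map_X_sub_C] using h a ha
  · rw [Multiset.count_eq_zero.mpr (fun h => by
      obtain ⟨e, -, he⟩ := Multiset.mem_map.mp h
      exact hl (C_inj.mp (sub_right_inj.mp (congrArg Prod.fst he))).symm)]
    exact Even.zero

theorem unip_aux (h : ∀ e ∈ μ, 0 < e) : IsElDivs (μ.map fun e => ((X - C 1 : F[X]), e)) ∧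
    (∀ x ∈ μ.map fun e => ((X - C 1 : F[X]), e), x.1 ≠ X) ∧
    (μ.map fun e => ((X - C 1 : F[X]), e)).map (dualED (RingHom.id F)) =
      μ.map fun e => (X - C 1, e) := by
  refine ⟨by simpa using isElDivs_map_unip h, fun x hx => ?_, map_eq_self_of_forall fun x hx => ?_⟩
  · obtain ⟨e, -, rfl⟩ := Multiset.mem_map.mp hx
    simp
  · obtain ⟨e, -, rfl⟩ := Multiset.mem_map.mp hx
    exact Prod.ext (by simpa using dualPoly_X_sub_one) rfl

theorem exists_eq_add_self (h : ∀ a, Even (μ.count a)) : ∃ ν, μ = ν + ν := by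
  obtain ⟨u, o, rfl, ho⟩ := exists_half_nodup μ
  refine ⟨u, add_eq_left.mpr (Multiset.eq_zero_of_forall_notMem fun a ha => ?_)⟩
  simpa [Multiset.count_eq_one_of_mem ho ha, Nat.even_add_one] using h a

variable [FiniteDimensional F V]

theorem isPlus_of_all_two (h2 : (2 : F) ≠ 0) (hg : ∀ v, Q (g v) = Q v)
    (he : elDiv g = μ.map fun e => (X - C 1, e)) (h : ∀ e ∈ μ, e = 2) : IsPlus Q := by
  classical
  have h1 : ∀ x ∈ elDiv g, x.1 = X - C 1 ∧ x.2 ≤ 1 + 1 := fun x hx => by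
    obtain ⟨e, h3, rfl⟩ := Multiset.mem_map.mp (he ▸ hx)
    exact ⟨rfl, (h e h3).le⟩
  have h3 := (aeval_pow_eq_zero_iff (monic_X_sub_C 1) (irreducible_X_sub_C 1)).mpr h1
  have h4 := kerDim_add_count h1
  have h5 := LinearMap.finrank_range_add_finrank_ker (g - 1)
  have h6 := finrank_eq_elDeg g
  rw [← finrank_ker_eq_kerDim _ (monic_X_sub_C 1) (irreducible_X_sub_C 1), ← h6, he,
    count_map_X_sub_C, pow_one, aeval_X_sub_C_End, one_smul,
    Multiset.count_eq_card.mpr fun e he => (h e he).symm] at h4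
  rw [he, C_1, elDeg_map_unip, Multiset.eq_replicate_card.mpr h, Multiset.sum_replicate,
    smul_eq_mul] at h6
  refine ⟨LinearMap.range (g - 1), ?_, by omega⟩
  rintro _ ⟨u, rfl⟩
  have h7 : g ((g - 1) u) = (g - 1) u := by
    simpa [pow_two, sub_eq_zero] using LinearMap.congr_fun h3 u
  refine (mul_eq_zero.mp ((polar_self' _).symm.trans ?_)).resolve_left h2
  nth_rw 1 [LinearMap.sub_apply]
  rw [polar_sub_left, sub_eq_zero, ← h7]
  exact (polar_isometry hg _ _).trans (by rw [h7]; rfl)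

theorem exists_add_of_inv (hQ : (polarBilin Q).Nondegenerate) (h2 : (2 : F) ≠ 0)
    (hg : ∀ v, Q (g v) = Q v) (he : elDiv g = μ.map fun e => (X - C 1, e)) {W : Submodule F V}
    (hW : ∀ v ∈ W, g v ∈ W) (hn : ND Q W) : ∃ ν ν', μ = ν + ν' ∧ ν.sum = finrank F W ∧
      elDiv (g.restrict hW) = (ν.map fun e => (X - C 1, e)) ∧ (∀ a, Even a → Even (ν.count a)) ∧
      ((∀ e ∈ ν, e = 2) → IsPlus (Q.restrict W)) ∧
      ((∀ e ∈ ν', e = 2) → IsPlus (Q.restrict (Orth.orth Q W))) := by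
  have h := hform_polarBilin hQ
  obtain ⟨ν, ν', rfl, h1, h3⟩ :=
    exists_add_map_eq (he.symm.trans (h.elDiv_eq_add (polar_isometry hg) hW hn))
  exact ⟨ν, ν', rfl, (finrank_of_elDiv_unip h1.symm).symm, h1.symm, oParity_unip_iff.mp
    (h1 ▸ oParity_elDiv h2 (h.restrict hn) fun u v => polar_isometry hg u v),
    isPlus_of_all_two h2 (fun v => hg v) h1.symm, isPlus_of_all_two h2 (fun v => hg v) h3.symm⟩

variable [Fintype F]

theorem OT.exists_isom {s : Multiset (F[X] × ℕ)} {σ : ℤˣ} (h2 : (2 : F) ≠ 0)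
    (hQ : (polarBilin Q).Nondegenerate) (hs : OT s (tq Q) σ) (hN : elDeg s = finrank F V) :
    ∃ g : End F V, (∀ v, Q (g v) = Q v) ∧ elDiv g = s := by
  obtain ⟨W, _, _, _, Q', hQ', g, rfl, h3, -⟩ := hs
  obtain ⟨e, he⟩ := exists_equiv_of_tq hQ' hQ (hN.symm.trans (finrank_eq_elDeg _).symm)
    ((tq_of_ne h2).trans h3)
  have he' : ∀ v, Q (e v) = 1 * Q' v := by simpa using he
  exact ⟨_, mem_O.mp (OCongr e one_ne_zero he' g).2,
    (Sim.elDiv_eq ⟨e, fun v => (OCongr_apply' e one_ne_zero he' g v).symm⟩).symm⟩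

theorem exists_unip_O (hQ : (polarBilin Q).Nondegenerate) (h2 : (2 : F) ≠ 0)
    (h0 : ∀ e ∈ μ, 0 < e) (hp : ∀ a, Even a → Even (μ.count a)) (hs : μ.sum = finrank F V)
    (h : (∃ e ∈ μ, Odd e) ∨ Tp Q) :
    ∃ g : End F V, (∀ v, Q (g v) = Q v) ∧ elDiv g = μ.map fun e => (X - C 1, e) := by
  have hN : elDeg (μ.map fun e => ((X - C 1 : F[X]), e)) = finrank F V := by
    rw [C_1, elDeg_map_unip, hs]
  by_cases h1 : ∃ e ∈ μ, Odd e
  · obtain ⟨e, he, h3⟩ := h1
    obtain ⟨μ, rfl⟩ := Multiset.exists_cons_of_mem he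
    obtain ⟨h4, h5, h6⟩ := unip_aux (F := F) fun a ha => h0 a (Multiset.mem_cons_of_mem ha)
    obtain ⟨d, σ, h7⟩ := (oReal_of_parity h2 h4 h5 h6 (oParity_unip_iff.mpr fun a ha => by
      simpa [Multiset.count_cons_of_ne (show a ≠ e by
        rintro rfl; exact Nat.not_odd_iff_even.mpr ha h3)] using hp a ha)).exists_OT h2
    obtain ⟨d', σ', h8⟩ := (OReal.block h2 (mul_one 1) h3).exists_OT h2
    obtain ⟨σ'', h9⟩ := h8.scale h2 (by simpa [elDeg, -map_one] using h3) (tq Q * d)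
    have h10 := h9.add h7
    rw [mul_assoc, Int.units_mul_self, mul_one, Multiset.singleton_add] at h10
    exact OT.exists_isom h2 hQ (by simpa using h10) hN
  obtain ⟨ν, rfl⟩ := exists_eq_add_self (μ := μ) fun a => by
    by_cases ha : a ∈ μ
    · exact hp a (Nat.not_odd_iff_even.mp fun h => h1 ⟨a, ha, h⟩)
    · simp [ha]
  obtain ⟨h4, h5, h6⟩ := unip_aux (F := F) fun a ha => h0 a (Multiset.mem_add.mpr (Or.inl ha))
  obtain ⟨f, hf⟩ := h4.exists_End
  obtain ⟨B, hB⟩ := exists_hform_one (σ := RingHom.id F)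
    (V := Fin (elDeg (ν.map fun e => ((X - C 1 : F[X]), e))) → F) fun _ => rfl
  obtain ⟨f', hf'⟩ := hB.exists_inv_adj (g := f) ((injective_iff_elDiv f).mpr (by rwa [hf]))
  have h7 := hB.hyp (ε := 1) (by simp)
  have h8 := hypForm_isom hB 1 hf'
  have h9 : (polarBilin (LinearMap.BilinMap.toQuadraticMap
      (hypForm (σ := RingHom.id F) B 1))).Nondegenerate :=
    polarBilin_nondegenerate_of _ fun u hu => h7.sep u fun v => mul_left_cancel₀ h2 (by
      have := hu v
      rw [LinearMap.BilinMap.polar_toQuadraticMap, h7.sym v u] at this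
      simpa [two_mul] using this)
  have h10 : IsPlus (LinearMap.BilinMap.toQuadraticMap (hypForm (σ := RingHom.id F) B 1)) :=
    ⟨LinearMap.range (LinearMap.inl F _ _), by rintro _ ⟨u, rfl⟩; simp, by
      rw [LinearMap.finrank_range_of_inj LinearMap.inl_injective, finrank_prod, two_mul]⟩
  obtain ⟨x, hx⟩ := exists_O_eq h9 (g := f.prodMap f') fun v => h8 v v
  have h11 : elDiv x.1.toLinearMap = (ν + ν).map fun e => (X - C 1, e) := by
    rw [hx, elDiv_prodMap, hB.elDiv_inv_adj hf', hf, h6, Multiset.map_add]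
  refine OT.exists_isom h2 hQ ⟨_, _, _, inferInstance, _, h9, x, h11, ?_, rfl⟩ hN
  rw [← tq_of_ne h2, (isPlus_iff_tp h9 h10.even).mp h10, h.resolve_left h1, ← hN, ← h11,
    finrank_eq_elDeg x.1.toLinearMap]

variable (p : ℕ) [Fact p.Prime] [CharP F p]

theorem exists_add_of_forall (hQ : (polarBilin Q).Nondegenerate) (h2 : (2 : F) ≠ 0) {m : ℕ}
    {τ : Prop} (H : ∀ g : End F V, (∀ v, Q (g v) = Q v) → g ^ p = 1 → g ≠ 1 →
      ∃ U, NT Q m τ U ∧ U.map g ≤ U) (h0 : ∀ e ∈ μ, 0 < e ∧ e ≤ p)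
    (hp : ∀ a, Even a → Even (μ.count a)) (hs : μ.sum = finrank F V)
    (h : (∃ e ∈ μ, Odd e) ∨ Tp Q) (h1 : ¬ ∀ e ∈ μ, e = 1) : ∃ ν ν', μ = ν + ν' ∧ ν.sum = m ∧
      (∀ a, Even a → Even (ν.count a)) ∧ ((∀ e ∈ ν, e = 2) → τ) ∧
      ((∀ e ∈ ν', e = 2) → (Tp Q ↔ τ)) := by
  obtain ⟨g, hg, he⟩ := exists_unip_O hQ h2 (fun e he => (h0 e he).1) hp hs h
  obtain ⟨W, hW, h3⟩ := H g hg (pow_char_of_elDiv_unip p (fun e he => (h0 e he).2) he)
    (by simpa using ne_smul_of_elDiv_unip he h1 1)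
  obtain ⟨ν, ν', h4, h5, -, h6, h7, h8⟩ :=
    exists_add_of_inv hQ h2 hg he (map_le_iff_forall.mp h3) hW.2.1
  have h9 := nd_iff_disjoint.mp hW.2.1
  refine ⟨ν, ν', h4, h5.trans hW.1, h6, fun h => hW.2.2.mp
    ((isPlus_iff_tp hW.2.1.restrict (h7 h).even).mp (h7 h)), fun h => ?_⟩
  rw [(isOSum_orth hQ h9).tp_iff hQ (h8 h).even, hW.2.2,
    iff_true_right ((isPlus_iff_tp (restrict_orth_nondeg hQ h9) (h8 h).even).mp (h8 h))]

theorem exists_le_of_forall (hQ : (polarBilin Q).Nondegenerate) (h2 : (2 : F) ≠ 0) {m : ℕ}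
    (hm : m ≤ finrank F V) {τ : Prop} (H : ∀ g : End F V, (∀ v, Q (g v) = Q v) → g ^ p = 1 → g ≠ 1 →
      ∃ U, NT Q m τ U ∧ U.map g ≤ U) (h0 : ∀ e ∈ μ, 0 < e ∧ e ≤ p)
    (hp : ∀ a, Even a → Even (μ.count a)) (hs : μ.sum = finrank F V)
    (h : (∃ e ∈ μ, Odd e) ∨ Tp Q) : ∃ ν ≤ μ, ν.sum = m ∧ ∀ a, Even a → Even (ν.count a) := by
  by_cases h1 : ∀ e ∈ μ, e = 1
  · rw [Multiset.eq_replicate_card.mpr h1, Multiset.sum_replicate, smul_eq_mul, mul_one] at hs
    refine ⟨Multiset.replicate m 1, ?_, by simp, fun a ha => ?_⟩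
    · rw [Multiset.eq_replicate_card.mpr h1]
      exact (Multiset.replicate_le_replicate 1).mpr (hs ▸ hm)
    · rw [Multiset.count_replicate, if_neg (by rintro rfl; simp at ha)]
      exact Even.zero
  · obtain ⟨ν, ν', rfl, h3, h4, -⟩ := exists_add_of_forall p hQ h2 H h0 hp hs h h1
    exact ⟨ν, Multiset.le_add_right _ _, h3, h4⟩

theorem three_le_char_elus (h2 : (2 : F) ≠ 0) : 3 ≤ p := by
  have h := (Fact.out : p.Prime).two_le
  rcases h.eq_or_lt with rfl | h
  · exact absurd CharTwo.two_eq_zero h2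
  · exact h

theorem exists_two_of_forall (hQ : (polarBilin Q).Nondegenerate) (h2 : (2 : F) ≠ 0) {m : ℕ}
    {τ : Prop} (H : ∀ g : End F V, (∀ v, Q (g v) = Q v) → g ^ p = 1 → g ≠ 1 →
      ∃ U, NT Q m τ U ∧ U.map g ≤ U) {a b e : ℕ} (ha : a ≠ 0) (he : e = 1 ∨ e = 3)
    (hs : 4 * a + e * b = finrank F V) (h : b ≠ 0 ∨ Tp Q) :
    ∃ a' b', b' ≤ b ∧ 4 * a' + e * b' = m ∧ (b' = 0 → τ) ∧ (b' = b → (Tp Q ↔ τ)) := by
  have h3 := three_le_char_elus (F := F) p h2
  have h4 : e ≠ 2 := by omega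
  obtain ⟨ν, ν', h5, h6, h7, h8, h9⟩ := exists_add_of_forall p hQ h2 H
    (μ := Multiset.replicate (2 * a) 2 + Multiset.replicate b e)
    (by simp +contextual [or_imp, Multiset.mem_replicate]; omega) (fun c hc => by
      rw [Nat.even_iff] at hc
      simp only [Multiset.count_add, Multiset.count_replicate, if_neg (show e ≠ c by omega)]
      split_ifs <;> simp) (by simp [← hs]; ring)
    (h.imp_left fun h => ⟨e, by simp [h, Multiset.mem_replicate], by rcases he with rfl | rfl <;> decide⟩)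
    fun h => by simpa using h 2 (by simp [ha, Multiset.mem_replicate])
  obtain ⟨a', -, b', h10, rfl⟩ := le_replicate_add_replicate.mp (h5 ▸ Multiset.le_add_right ν ν')
  obtain ⟨a'', -, b'', -, rfl⟩ := le_replicate_add_replicate.mp (h5 ▸ Multiset.le_add_left ν' _)
  obtain ⟨k, rfl⟩ : Even a' := by simpa [Multiset.count_replicate, h4] using h7 2 even_two
  have h11 := congrArg (Multiset.count e) h5
  simp only [Multiset.count_add, Multiset.count_replicate, if_neg h4.symm, if_true] at h11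
  refine ⟨k, b', h10, by simp [← h6]; ring, ?_, fun h => h9 ?_⟩
  · rintro rfl
    exact h8 fun e he => Multiset.eq_of_mem_replicate (by simpa using he)
  · obtain rfl : b'' = 0 := by omega
    exact fun e he => Multiset.eq_of_mem_replicate (by simpa using he)

omit [Fintype F] in
theorem sing_of_fixed (hQ : (polarBilin Q).Nondegenerate) (h2 : (2 : F) ≠ 0)
    (hg : ∀ v, Q (g v) = Q v) (he : elDiv g = μ.map fun e => (X - C 1, e)) (h1 : 1 ∉ μ) {v : V}
    (hv : g v = v) : Q v = 0 := by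
  by_contra h
  obtain ⟨ν, h3, h4, -⟩ := exists_le_of_restrict_unip (hform_polarBilin hQ) (polar_isometry hg) he
    (U := Submodule.span F {v}) (fun w hw => by
      obtain ⟨c, rfl⟩ := Submodule.mem_span_singleton.mp hw
      rwa [map_smul, hv]) ((hform_polarBilin hQ).nondegOn_span
        ((polar_self' v).trans_ne (mul_ne_zero h2 h)))
  rw [finrank_span_singleton (by rintro rfl; simp at h)] at h4
  have h5 : ∀ e ∈ ν, e = 0 := fun e he => by
    have := Multiset.single_le_sum (fun _ _ => Nat.zero_le _) e he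
    have : e ≠ 1 := fun h => h1 (Multiset.mem_of_le h3 (h ▸ he))
    omega
  exact zero_ne_one ((Multiset.sum_eq_zero h5).symm.trans h4)

theorem tq_span_eq {v w : V} {c : F} (hv : v ≠ 0) (hw : w ≠ 0) (hc : c ≠ 0)
    (h : Q w = c ^ 2 * Q v) :
    tq (Q.restrict (Submodule.span F {w})) = tq (Q.restrict (Submodule.span F {v})) := by
  have key : ∀ u (hu : u ≠ 0) (U : Submodule F V), U = Submodule.span F {u} →
      tq (Q.restrict U) = tq (Q u • QuadraticMap.sq : QuadraticForm F F) := by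
    rintro u hu _ rfl
    exact tq_congr (LinearEquiv.toSpanNonzeroSingleton F V u hu) fun a => by
      simp [restrict_apply', Q_smul, pow_two, mul_comm]
  rw [key w hw _ rfl, key (c • v) (smul_ne_zero hc hv) _
    (Submodule.span_singleton_smul_eq hc.isUnit v).symm, h, Q_smul]

theorem eq_cons_of_le {a : ℕ} {ν : Multiset ℕ} (h : ν ≤ 1 ::ₘ 3 ::ₘ Multiset.replicate a 2)
    (h1 : Even (ν.count 2)) (h2 : ν.sum % 4 = 1) : ∃ k, ν = 1 ::ₘ Multiset.replicate (2 * k) 2 := by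
  have h3 := fun c => Multiset.count_le_of_le c h
  have h4 : ν = Multiset.replicate (ν.count 1) 1 + Multiset.replicate (ν.count 2) 2 +
      Multiset.replicate (ν.count 3) 3 := Multiset.ext.mpr fun c => by
    have := h3 c
    simp only [Multiset.count_cons, Multiset.count_replicate, Multiset.count_add] at this ⊢
    split_ifs at this ⊢ <;> subst_vars <;> omega
  have h5 := h3 1
  have h6 := h3 3
  obtain ⟨k, hk⟩ := h1.two_dvd
  rw [h4] at h2
  simp [Multiset.count_replicate, hk] at h2 h5 h6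
  exact ⟨k, by rw [h4, hk, show ν.count 1 = 1 by omega, show ν.count 3 = 0 by omega]; simp⟩

theorem exists_fixed_tq (hQ : (polarBilin Q).Nondegenerate) (h2 : (2 : F) ≠ 0)
    (hg : ∀ v, Q (g v) = Q v) {k : ℕ}
    (he : elDiv g = (1 ::ₘ Multiset.replicate (2 * k) 2).map fun e => (X - C 1, e)) :
    ∃ v, Q v ≠ 0 ∧ g v = v ∧ tq Q = tq (Q.restrict (Submodule.span F {v})) := by
  obtain ⟨U, hU, h3, h4⟩ := WallData.exists_nondeg (ν := {1})
    ⟨hform_polarBilin hQ, polar_isometry hg, mul_one 1, rfl⟩ (by simp [he]) fun j => by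
      rcases j with - | j <;> simp [h2]
  have h5 := finrank_of_elDiv_unip h4
  obtain ⟨ν, ν', h6, -, h7, -, -, h8⟩ := exists_add_of_inv hQ h2 hg he hU h3
  obtain rfl : ν = {1} := Multiset.map_injective (fun _ _ h => congrArg Prod.snd h)
    (h7.symm.trans h4)
  rw [Multiset.singleton_add, Multiset.cons_inj_right] at h6
  have h9 := h8 fun e he => Multiset.eq_of_mem_replicate (h6 ▸ he)
  have h10 := nd_iff_disjoint.mp h3
  have h11 := finrank_orth hQ U
  rw [finrank_eq_elDeg g, he, C_1, elDeg_map_unip, h5] at h11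
  have h12 := (isPlus_iff_tp (restrict_orth_nondeg hQ h10) h9.even).mp h9
  rw [Tp, show finrank F (Orth.orth Q U) / 2 = 2 * k by simp at h11; omega, pow_mul, Int.units_sq,
    one_pow] at h12
  have h13 := (isOSum_orth hQ h10).tq_eq hQ
  obtain ⟨v, h14, rfl⟩ := exists_eq_span_of_finrank_eq_one h5
  have hv := Submodule.mem_span_singleton_self (R := F) v
  refine ⟨v, fun h => h14 (h3 v hv fun w hw => ?_), ?_, by rw [h13, h12, mul_one]⟩
  · obtain ⟨c, rfl⟩ := Submodule.mem_span_singleton.mp hw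
    simp [polar_self', h]
  · have h15 := pow_eq_smul_of_forall_dvd (g := g.restrict hU) (k := 1) (c := 1) (by simp [h4])
    simpa using congrArg Subtype.val (LinearMap.congr_fun h15 ⟨v, hv⟩)

/-- A unipotent element `J₁ ⊥ J₃ ⊥ J₂ ⊥ ⋯ ⊥ J₂` with a prescribed class of `J₁`. -/
theorem exists_unip_tq (hQ : (polarBilin Q).Nondegenerate) (h2 : (2 : F) ≠ 0) {a : ℕ}
    (ha : finrank F V = 4 * a + 4) (t : ℤˣ) : ∃ g : End F V, (∀ v, Q (g v) = Q v) ∧ g ^ p = 1 ∧
      g ≠ 1 ∧ ∀ W : Submodule F V, (∀ v ∈ W, g v ∈ W) → ND Q W → finrank F W % 4 = 1 →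
        tq (Q.restrict W) = t := by
  have h3 := three_le_char_elus (F := F) p h2
  obtain ⟨L, h4, h5, rfl⟩ := exists_isOSum_tq hQ one_ne_zero (by omega) (fun h => absurd h h2) t
  have h := isOSum_orth hQ (nd_iff_disjoint.mp h5)
  have h6 := finrank_orth hQ L
  obtain ⟨g, hg, he⟩ := exists_unip_O (h.nondegenerate_right hQ) h2
    (μ := 3 ::ₘ Multiset.replicate (2 * a) 2) (by simp +contextual [Multiset.mem_replicate])
    (fun c hc => by
      rw [Nat.even_iff] at hc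
      simp only [Multiset.count_cons, Multiset.count_replicate, if_neg (show c ≠ 3 by omega)]
      split_ifs <;> simp) (by simp; omega) (Or.inl ⟨3, by simp, by decide⟩)
  obtain ⟨x, rfl⟩ := exists_O_eq (h.nondegenerate_right hQ) hg
  have h7 : elDiv (h.hom (1, x)).1.toLinearMap =
      (1 ::ₘ 3 ::ₘ Multiset.replicate (2 * a) 2).map fun e => (X - C 1, e) := by
    rw [← Sim.elDiv_eq (f := LinearMap.prodMap (1 : End F L) x.1.toLinearMap)
      ⟨_, fun ⟨u, v⟩ => (h.hom_apply 1 x u v).symm⟩, elDiv_prodMap, he, elDiv_one, h4,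
      Multiset.replicate_one, Multiset.singleton_add, Multiset.map_cons _ 1, C_1]
  refine ⟨_, mem_O.mp (h.hom (1, x)).2, pow_char_of_elDiv_unip p
    (by simp +contextual [Multiset.mem_replicate]; omega) h7,
    by simpa using ne_smul_of_elDiv_unip h7 (fun h => by simpa using h 3 (by simp)) 1,
    fun W hW h8 h9 => ?_⟩
  obtain ⟨ν, ν', h10, h11, h12, h13, -⟩ :=
    exists_add_of_inv hQ h2 (mem_O.mp (h.hom (1, x)).2) h7 hW h8
  obtain ⟨k, rfl⟩ := eq_cons_of_le (h10 ▸ Multiset.le_add_right ν ν') (h13 2 even_two) (h11 ▸ h9)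
  obtain ⟨v, h14, h15, h16⟩ := exists_fixed_tq h8.restrict h2
    (fun v => mem_O.mp (h.hom (1, x)).2 v) h12
  obtain ⟨w, h17, rfl⟩ := exists_eq_span_of_finrank_eq_one h4
  obtain ⟨⟨y, z⟩, h18⟩ := (Submodule.prodEquivOfIsCompl _ _
    (isCompl_orth hQ (nd_iff_disjoint.mp h5))).surjective v.1
  have h19 : (h.hom (1, x)).1 v.1 = v.1 := congrArg Subtype.val h15
  rw [← h18, h.hom_apply, EmbeddingLike.apply_eq_iff_eq, Prod.mk.injEq] at h19
  obtain ⟨c, hc⟩ := Submodule.mem_span_singleton.mp y.2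
  have h20 : Q v = c ^ 2 * Q w := by
    rw [← h18, h, sing_of_fixed (h.nondegenerate_right hQ) h2 hg he
      (by simp [Multiset.mem_replicate]) h19.2, add_zero, restrict_apply', ← hc, Q_smul]
  rw [h16, ← tq_map_subtype, ← tq_span_eq h17 (fun h => h14 (by rw [restrict_apply', h, map_zero]))
    (by rintro rfl; exact h14 (by simpa using h20)) h20]
  congr! 2 <;> simp

theorem not_forall_nt_of_odd (hQ : (polarBilin Q).Nondegenerate) (h2 : (2 : F) ≠ 0) {d m : ℕ}
    (hd : finrank F V = 2 * d) (h4 : 4 ≤ d) (hm : Odd m) (τ : Prop) :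
    ¬ ∀ g : End F V, (∀ v, Q (g v) = Q v) → g ^ p = 1 → g ≠ 1 → ∃ U, NT Q m τ U ∧ U.map g ≤ U := by
  intro H
  rw [Nat.odd_iff] at hm
  by_cases h5 : d % 2 = 1
  · obtain ⟨_, _, h6, h7, -⟩ := exists_two_of_forall p hQ h2 H (a := (d - 1) / 2) (b := 2)
      (by omega) (Or.inl rfl) (by omega) (by simp)
    obtain ⟨_, _, h8, h9, -⟩ := exists_two_of_forall p hQ h2 H (a := (d - 3) / 2) (b := 2)
      (by omega) (Or.inr rfl) (by omega) (by simp)
    omega
  obtain ⟨t, ht⟩ := nt_iff_tq (Q := Q) m τ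
  obtain ⟨g, hg, h6, h7, h8⟩ := exists_unip_tq p hQ h2 (a := d / 2 - 1) (by omega)
    (if m % 4 = 1 then -t else -(tq Q * t))
  obtain ⟨W, hW, h9⟩ := H g hg h6 h7
  obtain ⟨h10, h11, h12⟩ := (ht W).mp hW
  rw [map_le_iff_forall] at h9
  split_ifs at h8 with h
  · exact absurd (h12.symm.trans (h8 W h9 h11 (h10 ▸ h))) ((by decide : ∀ t : ℤˣ, t ≠ -t) t)
  · have h13 := finrank_orth hQ W
    have h14 := (isOSum_orth hQ (nd_iff_disjoint.mp h11)).tq_eq hQ
    rw [h12, h8 (Orth.orth Q W) ((hform_polarBilin hQ).mem_orth_of_isometry (polar_isometry hg) h9)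
      ((hform_polarBilin hQ).nondegOn_orth h11) (by omega)] at h14
    exact (by decide : ∀ s t : ℤˣ, s ≠ t * -(s * t)) _ _ h14

end Cfsg.Lib.Known
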