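import Mathlib
import Cfsg.Agent.Known.ElusO5

/-!
Elements of prime order modulo scalars which are conjugate into a given subgroup.
-/

namespace Cfsg.Lib.Known

open Module Polynomial Cfsg.Lib.Class Cfsg.Lib.Class.Form QuadraticMap
open Cfsg.Lib.Class.Orth hiding orth stab mem_orth mem_orth'

universe u v

theorem dvd_of_mul_eq_pow_mul {r n q a b P R : ℕ} (hr : r.Prime) (hq : ¬ r ∣ q) (hP : P ≠ 0)
    (h : n * (q ^ b * P) = q ^ a * (P * R)) (hn : r ∣ n) : r ∣ R := by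
  have h1 : n * q ^ b = q ^ a * R := Nat.eq_of_mul_eq_mul_left (Nat.pos_of_ne_zero hP) (by
    linear_combination h)
  exact ((hr.dvd_mul.mp (h1 ▸ hn.mul_right _)).resolve_left fun h => hq (hr.dvd_of_dvd_pow h))

theorem prod_range_mul_eq (f : ℕ → ℕ) {k : ℕ} (hk : 0 < k) {m n : ℕ} (h : n / k = m) :
    ∏ j ∈ Finset.range n, f (j + 1) = (∏ j ∈ Finset.range m, f (k * (j + 1))) *
      ∏ j ∈ (Finset.range n).filter (fun j => ¬ k ∣ j + 1), f (j + 1) := by
  rw [← Finset.prod_filter_mul_prod_filter_not _ fun j => k ∣ j + 1]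
  congr 1
  symm
  refine Finset.prod_bij (fun j _ => k * (j + 1) - 1) (fun j hj => ?_) (fun i _ j _ h => ?_)
    (fun j hj => ?_) fun j _ => ?_
  · have h1 : (j + 1) * k ≤ n := (Nat.le_div_iff_mul_le hk).mp (h ▸ Finset.mem_range.mp hj)
    have h2 : 0 < k * (j + 1) := by positivity
    rw [Finset.mem_filter, Finset.mem_range, Nat.sub_add_cancel h2]
    exact ⟨by rw [mul_comm] at h1; omega, dvd_mul_right _ _⟩
  · have h1 : 0 < k * (i + 1) := by positivity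
    have h2 : 0 < k * (j + 1) := by positivity
    have := Nat.eq_of_mul_eq_mul_left hk (show k * (i + 1) = k * (j + 1) by omega)
    omega
  · obtain ⟨h1, c, hc⟩ := Finset.mem_filter.mp hj
    obtain ⟨c, rfl⟩ : ∃ e, c = e + 1 := ⟨c - 1, by rcases c with _ | c <;> simp at hc ⊢⟩
    refine ⟨c, Finset.mem_range.mpr (h ▸ (Nat.le_div_iff_mul_le hk).mpr ?_), by omega⟩
    have := Finset.mem_range.mp h1
    rw [mul_comm, Nat.succ_eq_add_one]
    omega
  · rw [Nat.sub_add_cancel (Nat.mul_pos hk j.succ_pos)]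

variable {F : Type u} [Field F] {V : Type v} [AddCommGroup V] [Module F V]

/-- Every element of `G` of order `r` modulo scalars is `G`-conjugate into `H`. -/
def ElusIn (G H : Subgroup (V ≃ₗ[F] V)) (r : ℕ) : Prop :=
  ∀ x ∈ G, (∃ z : F, (x : End F V) ^ r = z • 1) → (∀ z : F, (x : End F V) ≠ z • 1) →
    ∃ g ∈ G, g⁻¹ * x * g ∈ H

section Mat

variable {ι : Type} [Fintype ι] [DecidableEq ι] {S T : Subgroup (GL ι F)}
  {G H : Subgroup ((ι → F) ≃ₗ[F] (ι → F))}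

theorem elusIn_iff (hS : ∀ g, g ∈ S ↔ glLin ι F g ∈ G) (hT : ∀ g ∈ S, g ∈ T ↔ glLin ι F g ∈ H)
    (r : ℕ) : (∀ x ∈ S, (∃ z : F, ((x ^ r : GL ι F) : Matrix ι ι F) = z • 1) →
      (∀ z : F, (x : Matrix ι ι F) ≠ z • 1) → ∃ g ∈ S, g⁻¹ * x * g ∈ T) ↔ ElusIn G H r := by
  rw [ElusIn, (glLin ι F).surjective.forall]
  refine forall_congr' fun x => ?_
  rw [← hS, (glLin ι F).surjective.exists, glLin_toLinearMap]
  refine imp_congr_right fun hx => imp_congr ?_ (imp_congr ?_ (exists_congr fun g => ?_))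
  · simp only [toLin'_pow_eq_smul_one_iff, Units.val_pow_eq_pow_val]
  · simp only [Ne, toLin'_eq_smul_one_iff]
  · rw [← hS, ← map_inv, ← map_mul, ← map_mul]
    exact and_congr_right fun hg => hT _ (S.mul_mem (S.mul_mem (S.inv_mem hg) hx) hg)

theorem relIndex_glLin (hS : ∀ g, g ∈ S ↔ glLin ι F g ∈ G)
    (hT : ∀ g ∈ S, g ∈ T ↔ glLin ι F g ∈ H) : T.relIndex S = H.relIndex G := by
  have h1 : T ⊓ S = (H ⊓ G).comap (glLin ι F).toMonoidHom := Subgroup.ext fun g =>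
    ⟨fun h => ⟨(hT g h.2).mp h.1, (hS g).mp h.2⟩,
      fun h => ⟨(hT g ((hS g).mpr h.2)).mpr h.1, (hS g).mpr h.2⟩⟩
  rw [← Subgroup.inf_relIndex_right, h1, Subgroup.relIndex_comap, ← H.inf_relIndex_right]
  congr 1
  ext g
  obtain ⟨g, rfl⟩ := (glLin ι F).surjective g
  exact (Subgroup.mem_map_iff_mem (glLin ι F).injective).trans (hS g)

theorem mem_spGL_iff_glLin (d : ℕ) (g : GL (Fin d ⊕ Fin d) F) :
    g ∈ spGL d F ↔ glLin _ F g ∈ SpB (sympBilin d F) := by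
  simp [mem_spGL, mem_SpB]

end Mat

variable {G H : Subgroup (V ≃ₗ[F] V)} {r : ℕ} {σ : F →+* F} {ε : F}

theorem ElusIn.exists_sim (h : ElusIn G H r) {x : V ≃ₗ[F] V} (hx : x ∈ G) {z : F}
    (h1 : (x : End F V) ^ r = z • 1) (h2 : ∀ z : F, (x : End F V) ≠ z • 1) :
    ∃ y ∈ H, y ∈ G ∧ Sim (y : End F V) (x : End F V) := by
  obtain ⟨g, hg, h3⟩ := h x hx ⟨z, h1⟩ h2
  exact ⟨_, h3, G.mul_mem (G.mul_mem (G.inv_mem hg) hx) hg, g, fun v => by simp⟩

theorem Sim.pow_eq_one {W : Type*} [AddCommGroup W] [Module F W] {f : End F V} {g : End F W}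
    (h : Sim f g) (hg : g ^ r = 1) : f ^ r = 1 := by
  obtain ⟨e, he⟩ := h.pow r
  exact LinearMap.ext fun v => e.injective (by rw [he, hg]; rfl)

theorem Sim.finrank_ker_sub_one {W : Type*} [AddCommGroup W] [Module F W] {f : End F V}
    {g : End F W} (h : Sim f g) :
    finrank F (LinearMap.ker (f - 1)) = finrank F (LinearMap.ker (g - 1)) := by
  obtain ⟨e, he⟩ := h
  exact Sim.finrank_ker ⟨e, fun v => by simp [he]⟩

theorem conj_eq_of_apply {x y g : V ≃ₗ[F] V} (h : ∀ v, g (y v) = x (g v)) : g⁻¹ * x * g = y :=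
  LinearEquiv.ext fun v => g.injective (by simp [h])

theorem exists_negOn {A C : Submodule F V} (hc : IsCompl A C) :
    ∃ x : V ≃ₗ[F] V, (x : End F V) ^ 2 = 1 ∧ ∀ a ∈ A, ∀ c ∈ C, x (a + c) = a - c := by
  let e := Submodule.prodEquivOfIsCompl A C hc
  have h : ∀ a ∈ A, ∀ c ∈ C, (e.symm.trans (((LinearEquiv.refl F A).prodCongr
      (LinearEquiv.neg F)).trans e)) (a + c) = a - c := fun a ha c hc' => by
    rw [LinearEquiv.trans_apply, show a + c = e (⟨a, ha⟩, ⟨c, hc'⟩) from rfl, e.symm_apply_apply]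
    simp [e, sub_eq_add_neg]
  refine ⟨_, LinearMap.ext fun v => ?_, h⟩
  obtain ⟨a, ha, c, hc', rfl⟩ := Submodule.mem_sup.mp (hc.sup_eq_top ▸ Submodule.mem_top :
    v ∈ A ⊔ C)
  rw [pow_two, Module.End.mul_apply, LinearEquiv.coe_coe, h a ha c hc', sub_eq_add_neg,
    h a ha _ (C.neg_mem hc'), sub_neg_eq_add, Module.End.one_apply]

theorem ker_negOn (h2 : (2 : F) ≠ 0) {A C : Submodule F V} (hc : IsCompl A C) {x : V ≃ₗ[F] V}
    (h : ∀ a ∈ A, ∀ c ∈ C, x (a + c) = a - c) : LinearMap.ker ((x : End F V) - 1) = A := by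
  ext v
  obtain ⟨a, ha, c, hc', rfl⟩ := Submodule.mem_sup.mp (hc.sup_eq_top ▸ Submodule.mem_top :
    v ∈ A ⊔ C)
  rw [LinearMap.mem_ker, LinearMap.sub_apply, LinearEquiv.coe_coe, h a ha c hc',
    Module.End.one_apply, show a - c - (a + c) = -((2 : F) • c) by rw [two_smul]; abel,
    neg_eq_zero, smul_eq_zero_iff_right h2, Submodule.add_mem_iff_right _ ha]
  exact ⟨fun h => h ▸ zero_mem _, fun h => Submodule.disjoint_def.mp hc.disjoint c h hc'⟩

variable {B : V →ₛₗ[σ] V →ₗ[F] F}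

theorem FixSp.conj_of_map_eq {x y : End F V} {A C A' C' : Submodule F V} (hB : HForm B ε)
    (h : FixSp B x A C) (h' : FixSp B y A' C') (hx : x ^ 2 = 1) (hy : y ^ 2 = 1) {g : V ≃ₗ[F] V}
    (hg : ∀ u v, B (g u) (g v) = B u v) (hC : C.map (g : V →ₗ[F] V) = C') (v : V) :
    g (x v) = y (g v) := by
  obtain ⟨a, ha, c, hc, rfl⟩ := Submodule.mem_sup.mp (h.isCompl.sup_eq_top ▸ Submodule.mem_top :
    v ∈ A ⊔ C)
  obtain ⟨a', ha', c', hc', h1⟩ := Submodule.mem_sup.mp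
    (h'.isCompl.sup_eq_top ▸ Submodule.mem_top : g a ∈ A' ⊔ C')
  obtain rfl : c' = 0 := (h'.nondegOn hB).2 c' hc' fun w hw => by
    obtain ⟨w, hw', rfl⟩ := hC.ge hw
    rw [eq_sub_of_add_eq' h1, map_sub, LinearMap.sub_apply, h'.orth a' ha' _ hw,
      LinearEquiv.coe_coe, hg, h.orth a ha w hw', sub_zero]
  rw [add_zero] at h1
  rw [map_add, map_add, map_add, map_add, (h.mem a).mp ha, ← h1, (h'.mem a').mp ha',
    h.neg_of_sq hx c hc, h'.neg_of_sq hy (g c) (hC.le ⟨c, hc, rfl⟩), map_neg]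

variable [FiniteDimensional F V]

theorem HForm.exists_equiv (h : HForm B ε) {g : End F V} (hg : ∀ u v, B (g u) (g v) = B u v) :
    ∃ x ∈ isomGroup B, (x : End F V) = g :=
  ⟨LinearEquiv.ofInjectiveEndo g (h.injective_of_isom hg), hg, rfl⟩

theorem FixSp.finrank_ker_add {g : End F V} {A C : Submodule F V} (h : FixSp B g A C) :
    finrank F (LinearMap.ker (g - 1)) + finrank F C = finrank F V := h.ker_eq ▸ h.finrank_add

theorem HForm.exists_invol (h : HForm B ε) (h2 : (2 : F) ≠ 0) {C : Submodule F V}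
    (hC : NondegOn B C) : ∃ x ∈ isomGroup B, (x : End F V) ^ 2 = 1 ∧
      finrank F (LinearMap.ker ((x : End F V) - 1)) + finrank F C = finrank F V := by
  have hc := (h.isCompl_orth hC).symm
  obtain ⟨x, h3, h4⟩ := exists_negOn hc
  have h5 : ∀ v, ∃ a ∈ Form.orth B C, ∃ c ∈ C, a + c = v := fun v =>
    Submodule.mem_sup.mp (hc.sup_eq_top ▸ Submodule.mem_top)
  refine ⟨x, fun u v => ?_, h3, ?_⟩
  · obtain ⟨a, ha, c, hc, rfl⟩ := h5 u
    obtain ⟨a', ha', c', hc', rfl⟩ := h5 v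
    have h6 : B a c' = 0 := by rw [h.sym, Form.mem_orth.mp ha c' hc', map_zero, mul_zero]
    simp [h4 _ ha _ hc, h4 _ ha' _ hc', h6, Form.mem_orth.mp ha' c hc]
  · rw [← Submodule.finrank_add_eq_of_isCompl hc, ker_negOn h2 hc h4]

variable [Fintype F] (p : ℕ) [Fact p.Prime] [CharP F p]

theorem CycD.exists_finrank_ker [Fact r.Prime] {fx : Prop} {b c : ℕ} (hD : CycD σ ε r fx b c)
    (hrp : r ≠ p) (h : HForm B ε) {g : End F V} (hg : ∀ u v, B (g u) (g v) = B u v)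
    (hr : g ^ r = 1) : ∃ j, finrank F (LinearMap.ker (g - 1)) + c * j = finrank F V := by
  obtain ⟨A, C, j, l, hA, -⟩ := hD.exists_ordR p hrp h hg hr
  exact ⟨j, hA.rank ▸ hA.finrank_ker_add⟩

variable {B : LinearMap.BilinForm F V}

omit [FiniteDimensional F V] [Fintype F] in
theorem HForm.ne_smul_of_odd (h : HForm (σ := RingHom.id F) B ε) {g : End F V}
    (hg : ∀ u v, B (g u) (g v) = B u v) (hr : Odd r) (h1 : g ^ r = 1) (h2 : g ≠ 1) (z : F) :
    g ≠ z • 1 := by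
  rintro rfl
  obtain ⟨v, hv⟩ := DFunLike.ne_iff.mp h2
  have : Nontrivial V := nontrivial_of_ne _ _ hv
  have h3 : z * z = 1 := h.norm_of_pow_eq hg (k := 1) (pow_one _)
  obtain ⟨k, rfl⟩ := hr
  rw [_root_.smul_pow, one_pow, pow_succ, pow_mul, pow_two, h3, one_pow, one_mul] at h1
  exact h2 h1

theorem HForm.exists_conj_of_sq_neg (h : HForm (σ := RingHom.id F) B ε) (h2 : (2 : F) ≠ 0)
    (hε : ε * ε = 1) {x y : End F V} (hx : ∀ u v, B (x u) (x v) = B u v)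
    (hy : ∀ u v, B (y u) (y v) = B u v) (hx' : x ^ 2 = (-1 : F) • 1)
    (hy' : y ^ 2 = (-1 : F) • 1) : ∃ g ∈ SpB B, ∀ v, g (x v) = y (g v) := by
  obtain ⟨j, h3, h4⟩ := elProd_of_sq_neg h h2 hε hx hx'
  obtain ⟨j', h5, h6⟩ := elProd_of_sq_neg h h2 hε hy hy'
  have h7 : ∀ {x : End F V}, x ^ 2 = (-1 : F) • 1 → ∀ a ∈ elDiv x, a.2 = 1 := fun hJ =>
    elDiv_snd_eq_one_of_squarefree (separable_X_pow_sub_C (n := 2) (-1 : F)
      (by exact_mod_cast h2) (by simp)).squarefree (by simp [hJ, Algebra.algebraMap_eq_smul_one])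
  exact (rig_of_sq_neg h2 hε hx').exists_isometry h h hx hy (sim_of_charpoly_eq (h7 hx') (h7 hy')
    (by rw [charpoly_eq_elProd, charpoly_eq_elProd, h4, h6, show j = j' by omega])).elDiv_eq

theorem elusIn_sp_two (h : HA (σ := RingHom.id F) B (-1)) (h2 : (2 : F) ≠ 0)
    (H1 : ∀ j, 0 < j → 2 * j < finrank F V → ∃ y ∈ H, y ∈ SpB B ∧ (y : End F V) ^ 2 = 1 ∧
      finrank F (LinearMap.ker ((y : End F V) - 1)) + 2 * j = finrank F V)
    (H2 : ∃ y ∈ H, y ∈ SpB B ∧ (y : End F V) ^ 2 = (-1 : F) • 1) : ElusIn (SpB B) H 2 := by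
  rintro x hx ⟨z, h3⟩ h4
  obtain ⟨v, hv⟩ := DFunLike.ne_iff.mp (h4 1)
  have : Nontrivial V := nontrivial_of_ne _ _ hv
  rcases h.sq_cases hx h3 with h3 | h3
  · obtain ⟨A, C, hA⟩ := exists_fixSp_of_sq h.toHForm h2 hx h3
    obtain ⟨j, hj⟩ := (h.restrict (hA.nondegOn h.toHForm).2).even rfl
    have h5 := hA.finrank_add
    obtain ⟨y, hy, h6, h7, h8⟩ := H1 j (Nat.pos_of_ne_zero fun h0 => h4 1 (LinearMap.ext fun v => by
      simpa using (hA.mem v).mp (Submodule.eq_top_of_finrank_eq (by omega : finrank F A = _) ▸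
        Submodule.mem_top))) (lt_of_not_ge fun h0 => h4 (-1) (LinearMap.ext fun v => by
      simpa using hA.neg_of_sq h3 v (Submodule.eq_top_of_finrank_eq (by omega : finrank F C = _) ▸
        Submodule.mem_top)))
    obtain ⟨A', C', hA'⟩ := exists_fixSp_of_sq h.toHForm h2 h6 h7
    have h9 := hA'.finrank_ker_add
    obtain ⟨g, hg, h10⟩ := h.exists_map_eq (hA'.nondegOn h.toHForm).2 (hA.nondegOn h.toHForm).2
      (by omega)
    exact ⟨g, hg, conj_eq_of_apply (hA'.conj_of_map_eq h.toHForm hA h7 h3 hg h10) ▸ hy⟩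
  · obtain ⟨y, hy, h5, h6⟩ := H2
    obtain ⟨g, hg, h7⟩ := h.exists_conj_of_sq_neg h2 (by simp) h5 hx h6 h3
    exact ⟨g, hg, conj_eq_of_apply h7 ▸ hy⟩

theorem ElusIn.sp_char (hE : ElusIn (SpB B) H p) (h : HA (σ := RingHom.id F) B (-1))
    (h0 : finrank F V ≠ 0) : ∃ y ∈ H, y ∈ SpB B ∧
      finrank F (LinearMap.ker ((y : End F V) - 1)) + 1 = finrank F V := by
  classical
  have hp := (Fact.out : p.Prime)
  obtain ⟨d, hd⟩ := h.even rfl
  obtain ⟨g, hg, h1⟩ := h.exists_unip (μ := Multiset.replicate (d + d - 2) 1 +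
    Multiset.replicate 1 2) (by simp +contextual [or_imp, Multiset.mem_replicate]) (by simp; omega)
    fun _ a ha => by
      rw [Multiset.count_add, Multiset.count_replicate, Multiset.count_replicate,
        if_neg (c := 2 = a) (by rintro rfl; exact absurd ha (by decide)), add_zero]
      split_ifs
      exacts [⟨d - 1, by omega⟩, Even.zero]
  obtain ⟨x, hx, rfl⟩ := h.exists_equiv hg
  obtain ⟨y, hy, h2, h3⟩ := hE.exists_sim hx ((pow_char_of_elDiv_unip p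
    (by simp +contextual [or_imp, Multiset.mem_replicate, hp.two_le, hp.one_le]) h1).trans
    (one_smul F _).symm) (ne_smul_of_elDiv_unip h1 fun h => by simpa using h 2 (by simp))
  rw [Multiset.map_add, Multiset.map_replicate, Multiset.map_replicate] at h1
  have h7 := finrank_ker_of_two h1 (monic_X_sub_C 1) (irreducible_X_sub_C 1)
  rw [show aeval (x : End F V) (X - C 1 : F[X]) = (x : End F V) - 1 by simp,
    if_pos rfl, if_pos rfl, natDegree_X_sub_C] at h7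
  exact ⟨y, hy, h2, by rw [h3.finrank_ker_sub_one]; omega⟩

theorem ElusIn.sp_two (hE : ElusIn (SpB B) H 2) (h : HA (σ := RingHom.id F) B (-1))
    (h2 : (2 : F) ≠ 0) {j : ℕ} (h0 : 0 < j) (hj : 2 * j < finrank F V) :
    ∃ y ∈ H, y ∈ SpB B ∧ (y : End F V) ^ 2 = 1 ∧
      finrank F (LinearMap.ker ((y : End F V) - 1)) + 2 * j = finrank F V := by
  obtain ⟨C, -, h3, hC⟩ := h.exists_nondeg (A := ⊤) (fun u _ hu => h.sep u fun v => hu v trivial)
    (k := 2 * j) (by rw [finrank_top]; omega) fun _ => even_two_mul j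
  obtain ⟨x, hx, h4, h5⟩ := h.toHForm.exists_invol h2 hC
  obtain ⟨A, C', hA⟩ := exists_fixSp_of_sq h.toHForm h2 hx h4
  have h6 := hA.finrank_add
  have h7 := hA.finrank_ker_add
  obtain ⟨y, hy, h8, h9⟩ := hE.exists_sim hx (h4.trans (one_smul F _).symm)
    (hA.ne_smul (ne_bot_of_finrank rfl (by omega)) (ne_bot_of_finrank rfl (by omega)))
  exact ⟨y, hy, h8, h9.pow_eq_one h4, by rw [h9.finrank_ker_sub_one]; omega⟩

theorem ElusIn.sp_odd [Fact r.Prime] (hE : ElusIn (SpB B) H r) (h : HA (σ := RingHom.id F) B (-1))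
    (hrp : r ≠ p) (hr2 : r ≠ 2) {i c : ℕ} (hi : i = orderOf (Fintype.card F : ZMod r))
    (hc : c = if Even i then i else 2 * i) {j : ℕ} (h0 : j ≠ 0) (hj : c * j ≤ finrank F V) :
    ∃ y ∈ H, y ∈ SpB B ∧ (y : End F V) ^ r = 1 ∧
      finrank F (LinearMap.ker ((y : End F V) - 1)) + c * j = finrank F V := by
  have hD := cycD_id (F := F) p hrp hr2 (ε := -1) (by simp) hi hc
  obtain ⟨l, hl⟩ := hD.exists_adm p hrp j
  obtain ⟨g, A, C, hg, h1, hA, -⟩ := h.exists_ordR p hD hrp (Nat.sub_add_cancel hj) hl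
  obtain ⟨x, hx, rfl⟩ := h.exists_equiv hg
  obtain ⟨y, hy, h2, h3⟩ := hE.exists_sim hx (h1.trans (one_smul F _).symm)
    (h.ne_smul_of_odd hx ((Fact.out : r.Prime).odd_of_ne_two hr2) h1
      ((hA.ne_one_iff (hD.pos' p hrp).2.ne').mpr h0))
  exact ⟨y, hy, h2, h3.pow_eq_one h1, by rw [h3.finrank_ker_sub_one, ← hA.rank, hA.finrank_ker_add]⟩

end Cfsg.Lib.Known
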