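import Mathlib
import Cfsg.Agent.Known.ElusG
import Cfsg.Agent.Known.F4Prime
import Cfsg.Agent.Class.AO.Descent
import Cfsg.Agent.Class.OFieldAvg
import Cfsg.Agent.Class.FieldExtBridge

/-!
Elements of prime order normalising an extension field.
-/

namespace Cfsg.Lib.Known

open Module Cfsg.Lib.Class Cfsg.Lib.Class.Form QuadraticMap
open Cfsg.Lib.Class.OMax (semiN mem_semiN_of)

universe u v w

theorem exists_mul_card_eq {G L : Type*} [Group G] [Group L] {S H : Subgroup G} (φ : L →* G)
    (hφ : Function.Injective φ) (h : ∀ x, φ x ∈ H ∧ φ x ∈ S) {r : ℕ} (hr : r ∣ H.relIndex S) :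
    ∃ n, r ∣ n ∧ n * Nat.card L = Nat.card S :=
  ⟨_, hr.trans (Subgroup.relIndex_dvd_of_le_left (H := φ.range) S
    (by rintro _ ⟨x, rfl⟩; exact (h x).1)), by
    rw [Nat.card_congr (MonoidHom.ofInjective hφ).toEquiv]
    exact relIndex_mul_card_of_le (by rintro _ ⟨x, rfl⟩; exact (h x).2)⟩

theorem mem_subalgebraNormalizer_iff_semiN {F : Type*} [Field F] [Finite F] {ι : Type} [Fintype ι]
    [DecidableEq ι] [Nonempty ι] {k : ℕ} {K : Subalgebra F (Matrix ι ι F)}
    (hK : Geo.IsFieldSubalgebra k K) (g : GL ι F) :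
    letI := (Asch.isField_of_isFieldSubalgebra hK).toField
    g ∈ Geo.subalgebraNormalizer K ↔ glLin ι F g ∈ semiN F K (ι → F) := by
  letI := (Asch.isField_of_isFieldSubalgebra hK).toField
  refine ⟨fun hg => mem_semiN_of fun k => ⟨⟨_, (hg k).1 k.2⟩, fun x => ?_⟩, fun hg => ?_⟩
  · change (g : Matrix ι ι F).mulVec ((k : Matrix ι ι F).mulVec x) =
      Matrix.mulVec _ ((g : Matrix ι ι F).mulVec x)
    simp only [Matrix.mulVec_mulVec, mul_assoc, Units.inv_mul, mul_one]
  · refine Asch.Nrm.le_subalgebraNormalizer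
      (H := (semiN F K (ι → F)).comap (glLin ι F).toMonoidHom) (fun g ⟨σ, hσ⟩ k hk => ?_) hg
    have : (g : Matrix ι ι F) * k = σ ⟨k, hk⟩ * g := mat_ext_mulVec fun x => by
      rw [← Matrix.mulVec_mulVec, ← Matrix.mulVec_mulVec]
      exact hσ ⟨k, hk⟩ x
    rw [Asch.cj_apply, this, mul_assoc, Units.mul_inv, mul_one]
    exact (σ ⟨k, hk⟩).2

variable {F : Type u} {K : Type w} {V : Type v} [Field F] [Field K] [Algebra F K] [AddCommGroup V]
  [Module F V] [Module K V] [IsScalarTower F K V]

/-- A `K`-linear `F`-automorphism as a `K`-endomorphism. -/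
def toK (y : V ≃ₗ[F] V) (h : ∀ (k : K) x, y (k • x) = k • y x) : End K V where
  toFun := y
  map_add' := y.map_add
  map_smul' := h

theorem toK_pow_eq_one {y : V ≃ₗ[F] V} (h : ∀ (k : K) x, y (k • x) = k • y x) {r : ℕ}
    (hr : (y : End F V) ^ r = 1) : toK y h ^ r = 1 := LinearMap.ext fun v => by
  have := LinearMap.congr_fun hr v
  rw [Module.End.pow_apply] at this ⊢
  exact this

theorem finrank_ker_toK {y : V ≃ₗ[F] V} (h : ∀ (k : K) x, y (k • x) = k • y x) :
    finrank F (LinearMap.ker ((y : End F V) - 1)) =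
      finrank F K * finrank K (LinearMap.ker (toK y h - 1)) := by
  rw [Module.finrank_mul_finrank, show LinearMap.ker ((y : End F V) - 1) =
    (LinearMap.ker (toK y h - 1)).restrictScalars F from Submodule.ext fun _ => Iff.rfl]
  exact (Submodule.restrictScalarsEquiv F K V _).restrictScalars F |>.finrank_eq

theorem finrank_ker_restrictScalars (x : V ≃ₗ[K] V) :
    finrank F (LinearMap.ker ((x.restrictScalars F : End F V) - 1)) =
      finrank F K * finrank K (LinearMap.ker ((x : End K V) - 1)) :=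
  finrank_ker_toK (y := x.restrictScalars F) x.map_smul

theorem restrictScalars_pow_eq {x : V ≃ₗ[K] V} {r : ℕ} {z : F}
    (h : (x : End K V) ^ r = algebraMap F K z • 1) :
    (x.restrictScalars F : End F V) ^ r = z • 1 := LinearMap.ext fun v => by
  simpa [Module.End.pow_apply] using LinearMap.congr_fun h v

/-- Restriction of scalars. -/
def resK (F : Type u) [Field F] [Algebra F K] [Module F V] [IsScalarTower F K V]
    (L : Subgroup (V ≃ₗ[K] V)) : L →* (V ≃ₗ[F] V) where
  toFun g := g.1.restrictScalars F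
  map_one' := rfl
  map_mul' _ _ := rfl

theorem resK_injective (L : Subgroup (V ≃ₗ[K] V)) : Function.Injective (resK F L) :=
  fun _ _ h => Subtype.ext (LinearEquiv.ext fun v => LinearEquiv.congr_fun h v)

theorem restrictScalars_mem_semiN (g : V ≃ₗ[K] V) : g.restrictScalars F ∈ semiN F K V :=
  ⟨1, g.map_smul⟩

theorem exists_algEquiv_of_mem_semiN [Nontrivial V] {y : V ≃ₗ[F] V} (hy : y ∈ semiN F K V) :
    ∃ τ : K ≃ₐ[F] K, ∀ k x, y (k • x) = τ k • y x := by
  obtain ⟨σ, hσ⟩ := hy
  obtain ⟨v, hv⟩ := exists_ne (0 : V)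
  have h := smul_left_injective K (y.map_ne_zero_iff.mpr hv)
  exact ⟨{ σ with
    map_mul' := fun a b => h (by simp only [Equiv.toFun_as_coe, mul_smul, ← hσ])
    map_add' := fun a b => h (by simp only [Equiv.toFun_as_coe, add_smul, ← hσ, map_add])
    commutes' := fun a => h (by
      simp only [Equiv.toFun_as_coe, ← hσ, algebraMap_smul, map_smul]) }, hσ⟩

theorem two_mul_finrank_ker_le [FiniteDimensional F V] {y : End F V} {k k' : K} (hk : k' ≠ k)
    (h : ∀ x, y (k • x) = k' • y x) : 2 * finrank F (LinearMap.ker (y - 1)) ≤ finrank F V := by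
  set W := LinearMap.ker (y - 1)
  have hW : ∀ x, x ∈ W ↔ y x = x := fun x => by simp [W, sub_eq_zero]
  rcases eq_or_ne k 0 with rfl | hk0
  · rw [show W = ⊥ from eq_bot_iff.mpr fun x hx => by
      simpa [(hW x).mp hx, hk] using (h x).symm]
    simp
  let s : End F V := (LinearMap.lsmul K V k).restrictScalars F
  have h1 : finrank F (W.map s) = finrank F W :=
    (Submodule.equivMapOfInjective s (smul_right_injective V hk0) W).finrank_eq.symm
  have h2 := finrank_sup_of_disjoint (U := W) (U' := W.map s) (Submodule.disjoint_def.mpr <| by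
      rintro _ hx ⟨z, hz, rfl⟩
      have e := (hW _).mp hx
      change y (k • z) = k • z at e
      rw [h, (hW z).mp hz, ← sub_eq_zero, ← sub_smul, smul_eq_zero_iff_right (sub_ne_zero.mpr hk)]
        at e
      rw [e, map_zero])
  have := Submodule.finrank_le (W ⊔ W.map s)
  omega

theorem exists_semi {ι : Type*} [Fintype ι] (b : Basis ι K V) (τ : K ≃ₐ[F] K) {l : ι → K}
    (hl : ∀ i, l i ≠ 0) : ∃ y ∈ semiN F K V, (∀ k x, y (k • x) = τ k • y x) ∧
      ∀ i, y (b i) = l i • b i := by
  classical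
  let y : V ≃ₗ[F] V := ((b.equivFun.restrictScalars F).trans (LinearEquiv.piCongrRight fun i =>
    τ.toLinearEquiv.trans ((LinearEquiv.smulOfNeZero K K _ (hl i)).restrictScalars F))).trans
    (b.equivFun.restrictScalars F).symm
  have hy : ∀ x i, b.repr (y x) i = l i * τ (b.repr x i) := fun x i =>
    congrFun ((b.equivFun.restrictScalars F).apply_symm_apply _) i
  have h : ∀ k x, y (k • x) = τ k • y x := fun k x => b.ext_elem fun i => by
    simp [hy, mul_left_comm]
  refine ⟨y, ⟨τ.toEquiv, h⟩, h, fun i => b.ext_elem fun j => ?_⟩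
  simp only [hy, Basis.repr_self, map_smul, Finsupp.smul_apply, Finsupp.single_apply]
  split_ifs with h <;> simp [h]

theorem semi_sq {ι : Type*} [Fintype ι] (b : Basis ι K V) {τ : K ≃ₐ[F] K} (hτ : ∀ k, τ (τ k) = k)
    {y : V ≃ₗ[F] V} (h : ∀ k x, y (k • x) = τ k • y x) {l : ι → K} (hy : ∀ i, y (b i) = l i • b i)
    {z : F} (hz : ∀ i, τ (l i) * l i = algebraMap F K z) : (y : End F V) ^ 2 = z • 1 :=
  LinearMap.ext fun v => by
    rw [← b.sum_repr v]
    simp only [pow_two, Module.End.mul_apply, LinearEquiv.coe_coe, map_sum, h, hy, hτ, smul_smul,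
      map_mul, mul_assoc, hz, LinearMap.smul_apply, Module.End.one_apply, ← algebraMap_smul K z,
      mul_comm (algebraMap F K z)]

theorem semi_form {ι : Type*} [Fintype ι] (b : Basis ι K V) {τ : K ≃ₐ[F] K} {s : K →+* K}
    (hs : ∀ k, s (τ k) = τ (s k)) {C : V →ₛₗ[s] V →ₗ[K] K} {y : V ≃ₗ[F] V}
    (h : ∀ k x, y (k • x) = τ k • y x) {c : K}
    (hb : ∀ i j, C (y (b i)) (y (b j)) = c * τ (C (b i) (b j))) (u v : V) :
    C (y u) (y v) = c * τ (C u v) := by
  rw [← b.sum_repr u, ← b.sum_repr v]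
  simp only [map_sum, h, LinearMap.map_smulₛₗ, LinearMap.sum_apply, LinearMap.smul_apply, hb,
    smul_eq_mul, map_mul, hs, Finset.mul_sum, RingHom.id_apply, mul_left_comm c]

variable [Finite K]

theorem semiN_cases [FiniteDimensional F V] (hk : (finrank F K).Prime) {y : V ≃ₗ[F] V}
    (hy : y ∈ semiN F K V) {r : ℕ} (hr : r.Prime) (h : (y : End F V) ^ r = 1) :
    (∀ (k : K) x, y (k • x) = k • y x) ∨ (r = finrank F K ∧
      2 * finrank F (LinearMap.ker ((y : End F V) - 1)) ≤ finrank F V) := by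
  rcases subsingleton_or_nontrivial V with _ | _
  · exact Or.inl fun _ _ => Subsingleton.elim _ _
  obtain ⟨τ, hτ⟩ := exists_algEquiv_of_mem_semiN hy
  refine (eq_or_ne τ 1).imp (fun h1 => by simpa [h1] using hτ) fun h1 => ⟨?_, ?_⟩
  · have := Fact.mk hr
    have : Finite F := Finite.of_injective _ (algebraMap F K).injective
    have h2 : ∀ n k x, ((y : End F V) ^ n) (k • x) = (τ ^ n) k • ((y : End F V) ^ n) x := fun n => by
      induction n with
      | zero => simp
      | succ n ih => simp [pow_succ', ih, hτ]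
    obtain ⟨v, hv⟩ := exists_ne (0 : V)
    have h3 := orderOf_dvd_natCard τ
    rw [orderOf_eq_prime (p := r) (AlgEquiv.ext fun k => smul_left_injective K hv (by
      simpa [h] using (h2 r k v).symm)) h1, IsGalois.card_aut_eq_finrank] at h3
    exact (Nat.prime_dvd_prime_iff_eq hr hk).mp h3
  · obtain ⟨k, hk⟩ := DFunLike.ne_iff.mp h1
    exact two_mul_finrank_ker_le hk (hτ k)

theorem eq_of_trace_mul {a b : K} (h : ∀ k, Algebra.trace F K (k * a) = Algebra.trace F K (k * b)) :
    a = b :=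
  sub_eq_zero.mp (AO.eq_zero_of_trace (F := F) fun k => by rw [mul_sub, map_sub, h, sub_self])

variable {B : LinearMap.BilinForm F V} {s : K →+* K}

theorem exists_lift_form (hadj : ∀ (k : K) u v, B (k • u) v = B u (s k • v)) :
    ∃ C : V →ₛₗ[s] V →ₗ[K] K, ∀ u v, B u v = Algebra.trace F K (C u v) := by
  choose c hc using fun u v => AO.exists_trace_eq
    (B u ∘ₗ (LinearMap.toSpanSingleton K V v).restrictScalars F)
  replace hc : ∀ u v k, Algebra.trace F K (k * c u v) = B u (k • v) := hc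
  exact ⟨LinearMap.mk₂'ₛₗ s (RingHom.id K) c
    (fun u u' v => eq_of_trace_mul (F := F) fun k => by simp [mul_add, hc])
    (fun a u v => eq_of_trace_mul (F := F) fun k => by
      rw [hc, smul_eq_mul, ← mul_assoc, hc, hadj, smul_smul, mul_comm])
    (fun u v v' => eq_of_trace_mul (F := F) fun k => by simp [mul_add, hc])
    (fun a u v => eq_of_trace_mul (F := F) fun k => by
      rw [hc, RingHom.id_apply, smul_eq_mul, ← mul_assoc, hc, smul_smul]),
    fun u v => by simpa using (hc u v 1).symm⟩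

theorem isom_toK {C : V →ₛₗ[s] V →ₗ[K] K} {a : K} (ha : a ≠ 0)
    (hC : ∀ u v, B u v = Algebra.trace F K (a * C u v)) {y : V ≃ₗ[F] V}
    (h : ∀ (k : K) x, y (k • x) = k • y x) (hy : y ∈ SpB B) (u v : V) :
    C (toK y h u) (toK y h v) = C u v :=
  mul_left_cancel₀ ha (eq_of_trace_mul (F := F) fun k => by
    have := mem_SpB.mp hy u (k • v)
    rwa [h, hC, hC, map_smul, map_smul, smul_eq_mul, smul_eq_mul, mul_left_comm,
      mul_left_comm a] at this)

end Cfsg.Lib.Known
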