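import Mathlib
import Cfsg.Agent.Known.ElusF

/-!
Elements of prime order of symplectic groups normalising an extension field.
-/

namespace Cfsg.Lib.Known

open Module Cfsg.Lib.Class Cfsg.Lib.Class.Form QuadraticMap
open Cfsg.Lib.Class.OMax (semiN mem_semiN_of)

universe u v w

variable {F : Type u} {K : Type w} {V : Type v} [Field F] [AddCommGroup V] [Module F V]
  [FiniteDimensional F V] {B : LinearMap.BilinForm F V}

theorem HA.even_finrank_ker (h : HA (σ := RingHom.id F) B (-1)) {g : End F V}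
    (hg : ∀ u v, B (g u) (g v) = B u v) {r : ℕ} (hr0 : (r : F) ≠ 0) (hr : g ^ r = 1) :
    Even (finrank F (LinearMap.ker (g - 1))) := by
  obtain ⟨A, C, hA⟩ := exists_fixSp h.toHForm hg (ssAt_of_pow_eq_one hr0 hr 1)
  rw [show LinearMap.ker (g - 1) = A from Submodule.ext fun v => by simp [hA.mem, sub_eq_zero]]
  exact (h.restrict (hA.nondegOn h.toHForm).1).even rfl

variable [Field K] [Algebra F K] [Module K V] [IsScalarTower F K V] [Fintype F] [Finite K]
  (p : ℕ) [Fact p.Prime] [CharP F p]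

theorem not_elusIn_sp_char (h : HA (σ := RingHom.id F) B (-1)) (hk : finrank F K ≠ 1)
    (hV : 2 < finrank F V) : ¬ ElusIn (SpB B) (semiN F K V) p := fun H => by
  have : FiniteDimensional K V := Module.Finite.of_restrictScalars_finite F K V
  obtain ⟨y, ⟨σ, hσ⟩, -, h1⟩ := H.sp_char p h (by omega)
  rcases FE.finrank_fixed_of_normalizes (K := K) (y : End F V) fun k => ⟨σ k, hσ k⟩ with h2 | h2
  · exact hk (Nat.dvd_one.mp ((Nat.dvd_add_right h2).mp
      (h1 ▸ ⟨_, (Module.finrank_mul_finrank F K V).symm⟩)))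
  · omega

omit [FiniteDimensional F V] in
theorem exists_invol_algEquiv (hk : finrank F K = 2) :
    ∃ τ : K ≃ₐ[F] K, τ ≠ 1 ∧ ∀ k, τ (τ k) = k := by
  have h := (IsGalois.card_aut_eq_finrank F K).trans hk
  have := Finite.one_lt_card_iff_nontrivial.mp (h ▸ one_lt_two)
  obtain ⟨τ, hτ⟩ := exists_ne (1 : K ≃ₐ[F] K)
  exact ⟨τ, hτ, DFunLike.congr_fun (show τ * τ = 1 by rw [← pow_two, ← h, pow_card_eq_one'])⟩

theorem odd_card_iff_ne_two : Odd (Fintype.card F) ↔ p ≠ 2 := by
  rw [Nat.odd_iff, ← Nat.mod_two_ne_zero, Ne, ← FiniteField.even_card_iff_char_two, ringChar.eq F p]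

include p in
theorem elusIn_sp_field (hB : B.Nondegenerate) (hA : B.IsAlt)
    (hadj : ∀ (k : K) u v, B (k • u) v = B u (k • v)) (halt : ∀ (k : K) v, B (k • v) v = 0)
    (hk : (finrank F K).Prime) {d : ℕ} (hV : finrank F V = 2 * d) (hd : 2 ≤ d) {r : ℕ}
    [Fact r.Prime] (hΩ : r ∣ (semiN F K V).relIndex (SpB B)) :
    ElusIn (SpB B) (semiN F K V) r ↔
      r = 2 ∧ d = 2 ∧ finrank F K = 2 ∧ Odd (Fintype.card F) := by
  have : FiniteDimensional K V := Module.Finite.of_restrictScalars_finite F K V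
  have := Fintype.ofFinite K
  have h := ha_of_isAlt hB hA
  obtain ⟨C, hC⟩ := exists_lift_form (B := B) (s := RingHom.id K) hadj
  have hCA : LinearMap.IsAlt C := fun v => eq_of_trace_mul (F := F) fun k => by
    rw [← smul_eq_mul, ← map_smul, ← hC, ← hadj, halt, mul_zero, map_zero]
  have hCn : LinearMap.BilinForm.Nondegenerate C := hCA.isRefl.nondegenerate_iff_separatingLeft.mpr
    fun u hu => hB.1 u fun v => by rw [hC, hu, map_zero]
  have h' := ha_of_isAlt hCn hCA
  obtain ⟨m, hm⟩ := (h'.even rfl).two_dvd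
  have hkm : d = finrank F K * m := by
    have := Module.finrank_mul_finrank F K V
    rw [hm, hV] at this
    linarith
  have hr := (Fact.out : r.Prime)
  have hres : ∀ x ∈ SpB C, x.restrictScalars F ∈ SpB B := fun x hx => mem_SpB.mpr fun u v =>
    (hC _ _).trans ((congrArg _ (hx u v)).trans (hC u v).symm)
  have hodd := odd_card_iff_ne_two (F := F) p
  by_cases hrp : r = p
  · exact iff_of_false (hrp ▸ not_elusIn_sp_char p h hk.ne_one (by omega))
      fun H => hodd.mp H.2.2.2 (hrp ▸ H.1)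
  have key : ∀ y ∈ semiN F K V, y ∈ SpB B → (y : End F V) ^ r = 1 → ∀ c,
      finrank F (LinearMap.ker ((y : End F V) - 1)) + c = 2 * d →
      2 * finrank F K ∣ c ∨ (r = finrank F K ∧ d ≤ c) := fun y hy hy' h1 c hc => by
    refine (semiN_cases hk hy hr h1).imp (fun h2 => ?_) fun h2 => ⟨h2.1, by omega⟩
    obtain ⟨e, he⟩ := (h'.even_finrank_ker (isom_toK one_ne_zero (by simpa using hC) h2 hy')
      (r := r) (by
        rw [← map_natCast (algebraMap F K), map_ne_zero, Ne, CharP.cast_eq_zero_iff F p]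
        exact fun h => hrp ((Nat.prime_dvd_prime_iff_eq Fact.out hr).mp h).symm)
      (toK_pow_eq_one h2 h1)).two_dvd
    rw [finrank_ker_toK h2, he, hkm, ← mul_assoc, mul_comm _ 2, ← mul_assoc] at hc
    exact (Nat.dvd_add_right (dvd_mul_right _ _)).mp (hc ▸ dvd_mul_right _ _)
  by_cases hr2 : r = 2
  · subst hr2
    have h2 := two_ne_zero_of_ne (F := F) p (Ne.symm hrp)
    refine ⟨fun H => ?_, fun ⟨_, hd2, hk2, _⟩ => elusIn_sp_two h h2 (fun j h0 hj => ?_) ?_⟩
    · obtain ⟨y, h1, h3, h4, h5⟩ := H.sp_two h h2 one_pos (by omega)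
      rcases key y h1 h3 h4 _ (h5.trans hV) with h6 | h6
      · have := Nat.le_of_dvd two_pos h6
        have := hk.two_le
        omega
      · exact ⟨rfl, by omega, h6.1.symm, hodd.mpr (Ne.symm hrp)⟩
    · obtain ⟨τ, h1, hτ⟩ := exists_invol_algEquiv hk2
      obtain rfl : m = 1 := by rw [hk2] at hkm; omega
      have b : Basis (Fin 2) K V := Module.finBasisOfFinrankEq K V hm
      have hb : C (b 0) (b 1) ≠ 0 := fun h0 => b.ne_zero 0 (hCn.1 _ fun v => by
        rw [← b.sum_repr v, map_sum]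
        simp [hCA (b 0), h0])
      obtain ⟨y, h3, h4, h5⟩ := exists_semi b τ (l := ![1, τ (C (b 0) (b 1)) / C (b 0) (b 1)])
        (by simp [Fin.forall_fin_two, hb])
      have h6 : y ∈ SpB B := mem_SpB.mpr fun u v => by
        rw [hC, hC, semi_form b (fun _ => rfl) h4 (c := 1), one_mul, Algebra.trace_eq_of_algEquiv]
        simp [Fin.forall_fin_two, h5, hCA _, ← hCA.neg (b 0), hb]
      have h7 := semi_sq b hτ h4 h5 (z := 1) (by simp [Fin.forall_fin_two, hb, hτ])
      rw [one_smul] at h7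
      obtain ⟨k, hk⟩ := DFunLike.ne_iff.mp h1
      have h8 := two_mul_finrank_ker_le (k := k) hk (y := (y : End F V)) (h4 k)
      have h9 := Nat.even_iff.mp (h.even_finrank_ker h6 (r := 2) (by exact_mod_cast h2) h7)
      have h10 : finrank F (LinearMap.ker ((y : End F V) - 1)) ≠ 0 := fun h0 => b.ne_zero 0
        ((Submodule.eq_bot_iff _).mp (Submodule.finrank_eq_zero.mp h0) _ (by simp [h5]))
      exact ⟨y, h3, h6, h7, by omega⟩
    · obtain ⟨g, h1, h3, -⟩ := h'.exists_sq_neg
      obtain ⟨x, h4, rfl⟩ := h'.toHForm.exists_equiv h1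
      exact ⟨x.restrictScalars F, restrictScalars_mem_semiN x, hres x h4,
        LinearMap.ext fun v => by simpa [pow_two] using LinearMap.congr_fun h3 v⟩
  refine iff_of_false (fun H => ?_) fun h => hr2 h.1
  obtain ⟨n, h1, h2⟩ := exists_mul_card_eq (resK F (SpB C)) (resK_injective _)
    (fun x => ⟨restrictScalars_mem_semiN _, hres _ x.2⟩) hΩ
  have hq := WE.not_dvd_card (F := F) p hrp
  have hq1 : 1 < Fintype.card F := Fintype.one_lt_card
  rw [card_SpB hB hA hV, card_SpB hCn hCA hm, spOrd, spOrd, Module.card_eq_pow_finrank (K := F),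
    prod_range_mul_eq (fun j => Fintype.card F ^ (2 * j) - 1) hk.pos (m := m)
      (by rw [hkm, Nat.mul_div_cancel_left _ hk.pos])] at h2
  simp only [← pow_mul, mul_left_comm (finrank F K)] at h2
  obtain ⟨j, h3, h4⟩ := hr.prime.exists_mem_finset_dvd (dvd_of_mul_eq_pow_mul hr hq
    (Finset.prod_ne_zero_iff.mpr fun i _ =>
      Nat.sub_ne_zero_of_lt (Nat.one_lt_pow (by have := hk.pos; positivity) hq1)) h2 h1)
  simp only [Finset.mem_filter, Finset.mem_range] at h3
  have h5 := lcm_two_dvd rfl ((dvd_pow_sub_one_iff (by omega) r _).mp h4) (even_two_mul _)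
  have h6 := Nat.le_of_dvd (by omega) h5
  obtain ⟨y, h7, h8, h9, h10⟩ := H.sp_odd p h hrp hr2 rfl rfl one_ne_zero (by omega)
  rcases key y h7 h8 h9 _ (h10.trans hV) with h11 | h11
  · exact h3.2 (Nat.dvd_of_mul_dvd_mul_left two_pos (h11.trans (by rwa [mul_one])))
  · have h12 := Nat.le_of_dvd (Nat.sub_pos_of_lt hr.one_lt) (lcm_two_dvd rfl
      (ZMod.orderOf_dvd_card_sub_one (mt (ZMod.natCast_eq_zero_iff _ _).mp hq))
      (hr.even_sub_one hr2))
    have h13 : finrank F K ≤ d := Nat.le_of_dvd (by omega) ⟨m, hkm⟩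
    omega

omit [FiniteDimensional F V] [Fintype F] in
theorem exists_adj_algEquiv [Nontrivial V] (hB : ∀ v, (∀ u, B u v = 0) → v = 0)
    (hadj : ∀ k : K, ∃ k' : K, ∀ u v, B (k • u) v = B u (k' • v)) :
    ∃ s : K ≃ₐ[F] K, ∀ (k : K) u v, B (k • u) v = B u (s k • v) := by
  choose s hs using hadj
  obtain ⟨v, hv⟩ := exists_ne (0 : V)
  have h : ∀ {a b : K}, (∀ u, B u (a • v) = B u (b • v)) → a = b := fun h =>
    smul_left_injective K hv (sub_eq_zero.mp (hB _ fun u => by rw [map_sub, h, sub_self]))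
  let t : K →ₐ[F] K :=
    { toFun := s
      map_one' := h fun u => by rw [← hs, one_smul, one_smul]
      map_mul' := fun a b => h fun u => by rw [← hs, mul_smul, hs, hs, smul_smul, mul_comm]
      map_zero' := h fun u => by rw [← hs]; simp
      map_add' := fun a b => h fun u => by simp [← hs, add_smul]
      commutes' := fun a => h fun u => by simp [← hs] }
  exact ⟨AlgEquiv.ofBijective t (Finite.injective_iff_bijective.mp t.injective), hs⟩

include p in
theorem elusIn_sp_unitary (hB : B.Nondegenerate) (hA : B.IsAlt)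
    (hadj : ∀ k : K, ∃ k' : K, ∀ u v, B (k • u) v = B u (k' • v))
    (hns : ¬ ∀ (k : K) u v, B (k • u) v = B u (k • v)) (hk : finrank F K = 2) (hp : p ≠ 2)
    {d : ℕ} (hV : finrank F V = 2 * d) (hd : 2 ≤ d) {r : ℕ}
    [Fact r.Prime] (hΩ : r ∣ (semiN F K V).relIndex (SpB B)) :
    ElusIn (SpB B) (semiN F K V) r ↔ r = 2 := by
  have : FiniteDimensional K V := Module.Finite.of_restrictScalars_finite F K V
  have : Nontrivial V := Module.nontrivial_of_finrank_pos (R := F) (by omega)
  have := Fintype.ofFinite K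
  have := charP_of_injective_algebraMap (algebraMap F K).injective p
  have h := ha_of_isAlt hB hA
  obtain ⟨s, hs⟩ := exists_adj_algEquiv hB.2 hadj
  obtain ⟨a, ha⟩ : ∃ a, s a ≠ a := not_forall.mp fun h => hns fun k => by simpa [h] using hs k
  have hss : ∀ k, s (s k) = k := by
    obtain ⟨v, hv⟩ := exists_ne (0 : V)
    exact fun k => smul_left_injective K hv (sub_eq_zero.mp (hB.2 _ fun u => by
      rw [map_sub, ← hs, ← hA.neg_eq, ← hs, hA.neg_eq, sub_self]))
  obtain ⟨C₀, hC₀⟩ := exists_lift_form (B := B) (s := (s : K →+* K)) hs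
  set C := (s a - a) • C₀
  have ha' := sub_ne_zero.mpr ha
  have hC : ∀ u v, B u v = Algebra.trace F K ((s a - a)⁻¹ * C u v) := fun u v => by
    simp [C, hC₀, ha']
  have hne : (s : K →+* K) ≠ RingHom.id K := fun h => ha (RingHom.congr_fun h a)
  have hH : Herm C := herm_of_isSymm hne hss ⟨fun u v => by
      have : s (C₀ u v) = -C₀ v u := eq_of_trace_mul (F := F) fun k => by
        rw [← hss k, ← map_mul, Algebra.trace_eq_of_algEquiv, ← smul_eq_mul, ← map_smul, ← hC₀,
          ← hs, ← hA.neg_eq, hC₀, hss]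
        simp
      simp only [C, LinearMap.smul_apply, smul_eq_mul, RingHom.coe_coe, map_mul, map_sub, hss, this]
      ring⟩ fun u hu => hB.1 u fun v => by rw [hC, hu, mul_zero, map_zero]
  have h' := ha_of_herm hH
  have hm : finrank K V = d := by
    have := Module.finrank_mul_finrank F K V
    rw [hk, hV] at this
    omega
  have hr := (Fact.out : r.Prime)
  have hres : ∀ x ∈ isomGroup C, x.restrictScalars F ∈ SpB B := fun x hx => mem_SpB.mpr fun u v =>
    (hC _ _).trans ((congrArg (fun c => Algebra.trace F K (_ * c)) (hx u v)).trans (hC u v).symm)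
  by_cases hrp : r = p
  · exact iff_of_false (hrp ▸ not_elusIn_sp_char p h (by omega) (by omega)) (hrp ▸ hp)
  by_cases hr2 : r = 2
  · subst hr2
    refine iff_of_true (elusIn_sp_two h (two_ne_zero_of_ne p hp) (fun j h0 hj => ?_) ?_) rfl
    · obtain ⟨U, -, h1, h2⟩ := h'.exists_nondeg h'.nondegOn_top (k := j)
        (by rw [finrank_top]; omega) fun h => absurd h hne
      obtain ⟨x, h3, h4, h5⟩ := h'.toHForm.exists_invol (two_ne_zero_of_ne p hp) h2
      refine ⟨x.restrictScalars F, restrictScalars_mem_semiN x, hres x h3,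
        LinearMap.ext (LinearMap.congr_fun h4 :), ?_⟩
      rw [finrank_ker_restrictScalars, hk, hV, ← hm, ← h5, h1, mul_add]
    · obtain ⟨b, hb⟩ := hH.exists_orthonormal_basis rfl
      obtain ⟨l, hl⟩ := hH.exists_norm_eq (μ := -1) (by simp)
      obtain ⟨y, h1, h2, h3⟩ := exists_semi b s (l := fun _ => l) fun _ h0 => by simp [h0] at hl
      refine ⟨y, h1, mem_SpB.mpr fun u v => ?_, semi_sq b hss h2 h3 fun _ => by simpa using hl⟩
      rw [hC, hC, semi_form b (fun _ => rfl) h2 (c := -1), ← Algebra.trace_eq_of_algEquiv s]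
      · rw [map_mul s, map_mul s, hss, map_inv₀, map_sub s, hss, ← neg_sub (s a), inv_neg]
        simp
      · intro i j
        simp only [h3, LinearMap.map_smulₛₗ, LinearMap.smul_apply, hb]
        split_ifs <;> simp [mul_comm l, ← hl]
  refine iff_of_false (fun H => ?_) hr2
  obtain ⟨n, h1, h2⟩ := exists_mul_card_eq (resK F (isomGroup C)) (resK_injective _)
    (fun x => ⟨restrictScalars_mem_semiN _, hres _ x.2⟩) hΩ
  have hq := WE.not_dvd_card (F := F) p hrp
  have hq1 : 1 < Fintype.card F := Fintype.one_lt_card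
  have hK : Fintype.card K = Fintype.card F ^ 2 := by rw [Module.card_eq_pow_finrank (K := F), hk]
  rw [card_SpB hB hA hV, hH.card_isomGroup hK hm, spOrd, guOrder] at h2
  set q := Fintype.card F
  have h0 : ∀ i, q ^ (2 * i) - 1 = (q ^ i + 1) * (q ^ i - 1) := fun i => by
    rw [← Nat.sq_sub_sq, ← pow_mul, mul_comm, one_pow]
  rw [Finset.prod_congr (f := fun i => q ^ (2 * (i + 1)) - 1) rfl
    (g := fun i => (if Even i then q ^ (i + 1) + 1 else q ^ (i + 1) - 1) *
      if Even i then q ^ (i + 1) - 1 else q ^ (i + 1) + 1) fun i _ => by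
        split_ifs <;> rw [h0, mul_comm], Finset.prod_mul_distrib] at h2
  obtain ⟨j, h3, h4⟩ := hr.prime.exists_mem_finset_dvd (dvd_of_mul_eq_pow_mul hr hq
    (Finset.prod_ne_zero_iff.mpr fun (i : ℕ) _ => by
      have := Nat.one_lt_pow i.add_one_ne_zero hq1
      split_ifs <;> omega) h2 h1)
  rw [Finset.mem_range] at h3
  have h5 := lcm_two_dvd rfl ((dvd_pow_sub_one_iff (q := q) (by omega) r (2 * (j + 1))).mp (by
    rw [h0]
    split_ifs at h4
    exacts [h4.mul_left _, h4.mul_right _])) (even_two_mul _)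
  have h6 := Nat.le_of_dvd (by omega) h5
  obtain ⟨y, h7, h8, h9, h10⟩ := H.sp_odd p h hrp hr2 (i := orderOf (q : ZMod r)) rfl rfl
    one_ne_zero (by omega)
  have h11 := (semiN_cases (hk ▸ Nat.prime_two) h7 hr h9).resolve_right fun h => hr2 (h.1.trans hk)
  obtain ⟨e, he⟩ := (eq_frobq hK hne hss ▸ cycD_frob p hK hrp hr2 rfl rfl rfl :
    CycD (s : K →+* K) 1 r _ _ _).exists_finrank_ker p hrp h'.toHForm
    (isom_toK (inv_ne_zero ha') hC h11 h8) (toK_pow_eq_one h11 h9)
  rw [finrank_ker_toK h11, hk] at h10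
  have h12 : (-q : ZMod r) ^ (j + 1) = -1 := by
    rw [← ZMod.natCast_eq_zero_iff] at h4
    split_ifs at h4 with h
    · rw [Nat.cast_sub (Nat.one_le_pow _ _ hq1.le), sub_eq_zero] at h4
      rw [h.add_one.neg_pow, neg_inj]
      exact_mod_cast h4
    · rw [(Nat.not_even_iff_odd.mp h).add_one.neg_pow, eq_neg_iff_add_eq_zero]
      exact_mod_cast h4
  have h14 := Nat.pos_of_dvd_of_pos h5 (by omega)
  have : Fact (2 < r) := ⟨lt_of_le_of_ne hr.two_le (Ne.symm hr2)⟩
  set i := orderOf (q : ZMod r)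
  have h13 : i % 4 ≠ 2 := fun h13 => by
    obtain ⟨c, hc⟩ : ∃ c, i = (2 * c + 1) * 2 := ⟨i / 4, by omega⟩
    have h15 : (q : ZMod r) ^ (2 * c + 1) = -1 := (sq_eq_one_iff.mp
      (by rw [← pow_mul, ← hc, pow_orderOf_eq_one])).resolve_left
      (pow_ne_one_of_lt_orderOf (by omega) (by omega))
    have h16 := congrArg (· ^ (2 * c + 1)) h12
    simp only [← pow_mul, mul_comm (j + 1)] at h16
    rw [pow_mul, (odd_two_mul_add_one c).neg_pow, h15, neg_neg, one_pow,
      (odd_two_mul_add_one c).neg_one_pow] at h16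
    exact ZMod.neg_one_ne_one h16.symm
  rw [show (if i % 4 = 0 then i else if i % 4 = 2 then i / 2 else 2 * i) =
    if Even i then i else 2 * i by simp only [Nat.even_iff]; split_ifs <;> omega] at he
  generalize (if Even i then i else 2 * i) = c at *
  rcases e with _ | e <;> nlinarith

end Cfsg.Lib.Known
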