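import Mathlib
import Cfsg.Agent.Known.ElusF2
import Cfsg.Agent.Known.ElusO5
import Cfsg.Agent.Known.ElusPair
import Cfsg.Agent.Known.OrthDescCount
import Cfsg.Agent.Class.Tens.Om

/-!
Elements of prime order of `Ω` normalising a quadratic extension field.
-/

namespace Cfsg.Lib.Known

open Module Cfsg.Lib.Class Cfsg.Lib.Class.Form QuadraticMap Cfsg.Lib.Class.Orth
open Cfsg.Lib.Class.OMax (semiN mem_semiN_of)
open Cfsg.Lib.Class.AO (IsDesc)

universe u v w

theorem sqs_finset_prod {F ι : Type*} [Field F] [Finite F] (s : Finset ι) {f : ι → F}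
    (h : ∀ i ∈ s, f i ≠ 0) : sqs (∏ i ∈ s, f i) = ∏ i ∈ s, sqs (f i) := by
  classical
  induction s using Finset.induction_on with
  | empty => simp [sqs_eq_one_iff]
  | insert a s ha ih =>
    rw [Finset.forall_mem_insert] at h
    rw [Finset.prod_insert ha, Finset.prod_insert ha,
      sqs_mul h.1 (Finset.prod_ne_zero_iff.mpr h.2), ih h.2]

variable {F : Type u} {K : Type w} {V : Type v} [Field F] [Field K] [Algebra F K] [Fintype F]
  [Finite K]

/-- The conjugation of a quadratic extension. -/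
structure QConj (τ : K ≃ₐ[F] K) : Prop where
  ne : τ ≠ 1
  invol : ∀ k, τ (τ k) = k
  fix : Tw.IsFix (τ : K ≃+* K) (algebraMap F K)
  trace : ∀ k, algebraMap F K (Algebra.trace F K k) = k + τ k

theorem exists_qConj (hk : finrank F K = 2) : ∃ τ : K ≃ₐ[F] K, QConj τ := by
  classical
  obtain ⟨τ, h1, h2⟩ := exists_invol_algEquiv hk
  have h : (Finset.univ : Finset (K ≃ₐ[F] K)) = {1, τ} := (Finset.eq_univ_of_card _ (by
    rw [Finset.card_pair h1.symm, ← hk, ← IsGalois.card_aut_eq_finrank,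
      Nat.card_eq_fintype_card])).symm
  refine ⟨τ, h1, h2, fun x => Iff.trans ⟨fun hx f => ?_, fun hx => hx τ⟩
    (IsGalois.mem_range_algebraMap_iff_fixed x).symm, fun k => ?_⟩
  · rcases Finset.mem_insert.mp (h ▸ Finset.mem_univ f) with rfl | h3
    · rfl
    · rwa [Finset.mem_singleton.mp h3]
  · rw [trace_eq_sum_automorphisms, h, Finset.sum_pair h1.symm, AlgEquiv.one_apply]

theorem QConj.orderOf_eq {τ : K ≃ₐ[F] K} (h : QConj τ) :
    orderOf ((τ : K ≃+* K) : RingAut K) = 2 :=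
  orderOf_eq_prime (RingEquiv.ext h.invol) fun h1 => h.ne (AlgEquiv.ext (RingEquiv.congr_fun h1))

theorem QConj.sqs_det {τ : K ≃ₐ[F] K} (h : QConj τ) (h2 : (2 : F) ≠ 0) (a : Fin 2 → K) {c : K}
    (h0 : (Matrix.of fun s t => Algebra.trace F K (a s * (a t * c))).det ≠ 0) :
    sqs (Matrix.of fun s t => Algebra.trace F K (a s * (a t * c))).det = -sqs c := by
  set m := (Matrix.of fun s t => Algebra.trace F K (a s * (a t * c))).det
  have h1 : algebraMap F K m = c * τ c * (a 0 * τ (a 1) - a 1 * τ (a 0)) ^ 2 := by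
    simp only [m, Matrix.det_fin_two, Matrix.of_apply, map_sub, map_mul, h.trace]
    ring
  generalize hD : a 0 * τ (a 1) - a 1 * τ (a 0) = D at h1
  have h3 : τ D = -D := by simp only [← hD, map_sub, map_mul, h.invol]; ring
  obtain ⟨n, hn⟩ := (h.fix (c * τ c)).mp (by simp [h.invol, mul_comm])
  obtain ⟨δ, hδ⟩ := (h.fix (D ^ 2)).mp (by simp [h3])
  rw [← hn, ← hδ, ← map_mul, (algebraMap F K).injective.eq_iff] at h1
  rw [h1] at h0 ⊢
  rw [sqs_mul (left_ne_zero_of_mul h0) (right_ne_zero_of_mul h0),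
    sqs_eq_of_norm h.fix h.orderOf_eq (left_ne_zero_of_mul h0) hn.symm, sqs_of_not_isSquare
      (a := δ), mul_neg_one]
  rintro ⟨x, rfl⟩
  rw [map_mul, ← pow_two, sq_eq_sq_iff_eq_or_eq_neg] at hδ
  have h4 : τ D = D := by
    rcases hδ with h | h
    · rw [← h, AlgEquiv.commutes]
    · rw [← neg_neg D, ← h, map_neg, AlgEquiv.commutes]
  have h5 : (2 : K) ≠ 0 := by rwa [← map_ofNat (algebraMap F K), map_ne_zero]
  have h6 : D = 0 := mul_left_cancel₀ h5 (by linear_combination h3 - h4)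
  simp_all

variable [AddCommGroup V] [Module F V] [Module K V] [IsScalarTower F K V] {Q : QuadraticForm F V}
  {R : QuadraticForm K V}

omit [Fintype F] in
theorem isDesc_nondeg (h : IsDesc Q R) (hR : (polarBilin R).Nondegenerate) :
    (polarBilin Q).Nondegenerate :=
  nondeg_of fun u hu => hR.2 u fun v =>
    AO.eq_zero_of_trace (F := F) fun k => (h.polar k v u).trans ((polar_comm _ _ _).trans (hu _))

theorem isDesc_tq [FiniteDimensional F V] [FiniteDimensional K V] (h : IsDesc Q R)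
    (hk : finrank F K = 2) (h2 : (2 : F) ≠ 0) (hQ : (polarBilin Q).Nondegenerate) :
    tq Q = (-1) ^ finrank K V * tq R := by
  obtain ⟨τ, hτ⟩ := exists_qConj hk
  have h5 : (2 : K) ≠ 0 := by rwa [← map_ofNat (algebraMap F K), map_ne_zero]
  have := invertibleOfNonzero h5
  obtain ⟨v, hv⟩ := LinearMap.BilinForm.exists_orthogonal_basis (B := polarBilin R)
    ⟨fun u v => polar_comm _ _ _⟩
  have a := Module.finBasisOfFinrankEq F K hk
  have h1 := sqEq_disc Q (a.smulTower v)
  have h3 := sqEq_disc R v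
  rw [show gram Q (a.smulTower v) = Matrix.blockDiagonal fun i => Matrix.of fun s t =>
    Algebra.trace F K (a s * (a t * polar R (v i) (v i))) from ?_, Matrix.det_blockDiagonal] at h1
  · rw [show gram R v = Matrix.diagonal fun i => polar R (v i) (v i) from ?_,
      Matrix.det_diagonal] at h3
    · have h4 := Finset.prod_ne_zero_iff.mp (h1.ne_zero_iff.mp (disc_ne_zero hQ))
      rw [tq_of_ne h2, tq_of_ne h5, h1.sqs_eq, h3.sqs_eq, sqs_finset_prod _ h4, sqs_finset_prod _
        (Finset.prod_ne_zero_iff.mp (h3.ne_zero_iff.mp (disc_ne_zero (h.nondeg hQ)))),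
        Finset.prod_congr rfl fun i hi => hτ.sqs_det h2 a (h4 i hi), Finset.prod_neg]
      simp
    · ext i j
      by_cases hij : i = j
      · simp [hij]
      · simpa [hij] using hv hij
  · ext ⟨s, i⟩ ⟨t, j⟩
    rw [gram_apply, Basis.smulTower_apply, Basis.smulTower_apply, ← h.polar, polar_smul_right,
      Matrix.blockDiagonal_apply']
    by_cases hij : i = j
    · simp [hij]
    · simp [hij, show polar R (v i) (v j) = 0 from hv hij]

omit [Fintype F] [Finite K] in
theorem isDesc_mem_O (h : IsDesc Q R) {x : V ≃ₗ[K] V} (hx : x ∈ O R) :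
    x.restrictScalars F ∈ O Q :=
  mem_O.mpr fun v => (h _).symm.trans ((congrArg _ (mem_O.mp hx v)).trans (h v))

theorem QConj.exists_sqrt {τ : K ≃ₐ[F] K} (h : QConj τ) {c : K} (hc : ¬ IsSquare c) :
    ∃ l : K, l * l * c = τ c ∧ τ l * l = -1 := by
  have h0 : c ≠ 0 := by rintro rfl; exact hc IsSquare.zero
  have h1 := fun z hz => sqs_eq_one_iff.mp ((sqs_eq_of_norm h.fix h.orderOf_eq (z := z) one_ne_zero
    hz).trans (sqs_of_isSquare IsSquare.one))
  obtain ⟨l, hl⟩ := h1 (τ c / c) (by simp [h.invol, h0])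
  have h2 : l * l * c = τ c := by rw [← hl, div_mul_cancel₀ _ h0]
  have h3 := congrArg τ h2
  rw [map_mul, map_mul, h.invol, ← h2] at h3
  refine ⟨l, h2, (mul_self_eq_one_iff.mp (mul_right_cancel₀ h0
    (by linear_combination h3))).resolve_left fun h4 => hc ?_⟩
  obtain ⟨a, ha⟩ := (h.fix (c * l)).mp (by
    change τ (c * l) = _
    rw [map_mul, ← h2]; linear_combination (c * l) * h4)
  have h5 : l ≠ 0 := by rintro rfl; simp at h4
  have h6 := sqs_map_of_two h.fix h.orderOf_eq (a := a) (by rintro rfl; simp_all)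
  rwa [ha, sqs_mul h0 h5, sqs_of_isSquare (h1 l (by simpa [mul_comm] using h4)), mul_one,
    sqs_eq_one_iff] at h6

omit [Fintype F] [Finite K] in
theorem finrank_dvd_finrank_ker {f : End F V} (h : ∀ (k : K) x, f (k • x) = k • f x) :
    finrank F K ∣ finrank F (LinearMap.ker f) := by
  let g : End K V := ⟨⟨f, f.map_add⟩, h⟩
  rw [show LinearMap.ker f = (LinearMap.ker g).restrictScalars F from Submodule.ext fun _ => Iff.rfl,
    ((Submodule.restrictScalarsEquiv F K V _).restrictScalars F).finrank_eq]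
  exact ⟨_, (Module.finrank_mul_finrank F K _).symm⟩

open Classical in
theorem card_O_ite [FiniteDimensional F V] (hQ : (polarBilin Q).Nondegenerate) {m : ℕ}
    (h : finrank F V = 2 * m + 2) : Nat.card (O Q) = Fintype.card F ^ ((m + 1) * m) * (2 *
      (if Tp Q then Fintype.card F ^ (m + 1) - 1 else Fintype.card F ^ (m + 1) + 1) *
      ∏ i ∈ Finset.range m, (Fintype.card F ^ (2 * (i + 1)) - 1)) := by
  rw [← isPlus_iff_tp hQ ⟨m + 1, by omega⟩, ← Nat.card_eq_fintype_card]
  split_ifs with hp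
  · rw [card_O_plus hQ h hp]; ring
  · rw [card_O_minus hQ h hp]; ring

variable [FiniteDimensional F V] [FiniteDimensional K V] (h : IsDesc Q R) (hk : finrank F K = 2)
include h hk

theorem isDesc_sub (h2 : (2 : F) ≠ 0) {W : Submodule K V} (hW : ND R W) :
    finrank F (W.restrictScalars F) = 2 * finrank K W ∧
      tq (Q.restrict (W.restrictScalars F)) = (-1) ^ finrank K W * tq (R.restrict W) := by
  have : FiniteDimensional F W := Module.Finite.trans K W
  have h1 : IsDesc (Q.comp (W.subtype.restrictScalars F)) (R.restrict W) := fun v => h v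
  have e := (Submodule.restrictScalarsEquiv F K V W).restrictScalars F
  exact ⟨by rw [e.finrank_eq, ← hk, Module.finrank_mul_finrank], (tq_congr
    ((Submodule.restrictScalarsEquiv F K V W).restrictScalars F) fun _ => rfl).symm.trans
    (isDesc_tq h1 hk h2 (isDesc_nondeg h1 hW.restrict))⟩

theorem isDesc_exists_invol (h2 : (2 : F) ≠ 0) (hQ : (polarBilin Q).Nondegenerate) {j : ℕ}
    (h0 : j ≠ 0) (hj : j < finrank K V) (t : ℤˣ) : ∃ (y : O Q) (A C : Submodule F V),
      y.1 ∈ semiN F K V ∧ (y.1 : End F V) ^ 2 = 1 ∧ finrank F C = 2 * j ∧ tq (Q.restrict C) = t ∧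
      FixSp (σ := RingHom.id F) (polarBilin Q) y.1 A C := by
  have h5 : (2 : K) ≠ 0 := by rwa [← map_ofNat (algebraMap F K), map_ne_zero]
  obtain ⟨W, h1, hW, h3⟩ := exists_isOSum_tq (h.nondeg hQ) h0 hj (absurd · h5) ((-1) ^ j * t)
  obtain ⟨g, A, h4, h6, h7⟩ := hW.exists_invol (h.nondeg hQ) h5
  obtain ⟨x, rfl⟩ := exists_O_eq (h.nondeg hQ) h4
  have h8 : (x.1.restrictScalars F : End F V) ^ 2 = 1 := LinearMap.ext (LinearMap.congr_fun h6 :)
  obtain ⟨A', C, h9⟩ := exists_fixSp_of_sq (hform_polarBilin hQ) h2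
    (polar_isometry (mem_O.mp (isDesc_mem_O h x.2))) h8
  obtain rfl : C = W.restrictScalars F := le_antisymm (fun v hv => by
    obtain ⟨u, -, rfl⟩ := h9.exists_sub h9.inv le_rfl v hv
    exact h7.sub_mem u) fun v hv => by
      obtain ⟨u, -, rfl⟩ := h7.exists_sub h7.inv le_rfl v hv
      exact h9.sub_mem u
  obtain ⟨h10, h11⟩ := isDesc_sub h hk h2 hW
  exact ⟨⟨_, isDesc_mem_O h x.2⟩, A', _, restrictScalars_mem_semiN _, h8, h1 ▸ h10,
    by rw [h11, h3, h1, ← mul_assoc, ← mul_pow, neg_mul_neg, one_mul, one_pow, one_mul], h9⟩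

theorem isDesc_exists_om (h2 : (2 : F) ≠ 0) (hQ : (polarBilin Q).Nondegenerate)
    (hV : 1 < finrank K V) {x g : V ≃ₗ[F] V} (hg : g ∈ O Q) {y : O Q} (hy : g⁻¹ * x * g = y)
    {w : V} (hw : Q w ≠ 0) (h1 : y.1 ∈ semiN F K V)
    (h3 : (refl Q w * (y * refl Q w)).1 ∈ semiN F K V) :
    ∃ g ∈ Tn.Om Q, g⁻¹ * x * g ∈ semiN F K V := by
  obtain ⟨g, h4, h5⟩ : ∃ g : O Q, dick g = 1 ∧ g.1⁻¹ * x * g.1 ∈ semiN F K V := by
    rcases Int.units_eq_one_or (dick ⟨g, hg⟩) with h4 | h4
    · exact ⟨_, h4, hy ▸ h1⟩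
    · refine ⟨⟨g, hg⟩ * refl Q w, by rw [dick_mul_refl hQ _ hw, h4, neg_neg], ?_⟩
      rw [← Subgroup.coe_inv, mul_inv_rev, refl_inv]
      simpa only [Subgroup.coe_mul, Subgroup.coe_inv, mul_assoc, ← hy] using h3
  obtain ⟨y, A, C, h6, h7, h8, h9, h10⟩ := isDesc_exists_invol h hk h2 hQ one_ne_zero hV (-1)
  have hE := not_exc_of_two_ne_zero (Q := Q) h2
  have h11 : dick y = 1 := by
    have := h10.finrank_ker_add
    rw [dick, show fixs y = LinearMap.ker ((y.1 : End F V) - 1) from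
      Submodule.ext fun v => by simp [mem_fixs, sub_eq_zero]]
    exact Even.neg_one_pow (Nat.even_iff.mpr (by omega))
  obtain ⟨n, hn, h12⟩ := exists_mul_mem_commutator hQ hE ((semiN F K V).subgroupOf (O Q)) g
    (Or.inl h4) fun _ => ⟨y, h6, h11, (Int.units_eq_one_or _).resolve_left fun h12 => by
      simpa [h9] using ((h10.inOm_iff hQ h2 h7).mp
        ⟨y, (mem_commutator_O_iff hQ hE y).mpr ⟨h11, h12⟩, rfl⟩).2⟩
  replace hn : n.1 ∈ semiN F K V := hn
  exact ⟨(g * n).1, Tn.mem_Om.mpr h12, by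
    simpa only [Subgroup.coe_mul, mul_inv_rev, mul_assoc] using mul_mem (mul_mem (inv_mem hn) h5) hn⟩

omit [FiniteDimensional F V] [FiniteDimensional K V] [Fintype F] in
theorem isDesc_refl_mul_refl (h2 : (2 : F) ≠ 0) {w : V} {l : K} (hw : Q w ≠ 0)
    (hl : Q (l • w) ≠ 0) (ho : polar Q w (l • w) = 0) :
    (refl Q w * refl Q (l • w)).1 ∈ semiN F K V := by
  have h5 : (2 : K) ≠ 0 := by rwa [← map_ofNat (algebraMap F K), map_ne_zero]
  have h0 : R w ≠ 0 := fun h0 => hw (by rw [← h, h0, map_zero])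
  have h1 := (LinearIndependent.pair_iff.mpr fun s t hst => by
    have h3 : s • w + t • l • w = 0 := by
      simpa [add_smul] using congrArg (· • w) hst
    have h4 := congrArg (polar Q w) h3
    simp only [polar_add_right, polar_smul_right, ho, polar_self', polar_zero_right] at h4
    obtain rfl : s = 0 := by simpa [h2, hw] using h4
    exact ⟨rfl, by_contra fun ht => hl (by simp_all)⟩ :
      LinearIndependent F ![(1 : K), l]).span_eq_top_of_card_eq_finrank' (by simp [hk])
  rw [show (refl Q w * refl Q (l • w)).1 = (refl R w).1.restrictScalars F from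
    LinearEquiv.ext fun v => ?_]
  · exact restrictScalars_mem_semiN _
  obtain ⟨c, hc⟩ := (Submodule.mem_span_range_iff_exists_fun F).mp
    (h1 ▸ Submodule.mem_top : (2 * R w)⁻¹ * polar R v w ∈ _)
  obtain ⟨u, rfl, hu⟩ : ∃ u, v = u + c 0 • w + c 1 • l • w ∧ polar R w u = 0 := by
    refine ⟨v - ((2 * R w)⁻¹ * polar R v w) • w, by rw [← hc]; simp [add_smul, add_assoc], ?_⟩
    rw [polar_sub_right, polar_smul_right, polar_self', polar_comm R w v, smul_eq_mul]
    field_simp
    ring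
  have h6 : ∀ k : K, polar Q u (k • w) = 0 := fun k => by
    rw [polar_comm, ← h.polar, hu, mul_zero, map_zero]
  simp only [O_mul_apply, map_add, map_smul, refl_apply_self hw, refl_apply_self hl, map_neg,
    refl_apply_of_orth (h6 l), refl_apply_of_orth ho, refl_apply_of_orth (one_smul K w ▸ h6 1),
    refl_apply_of_orth ((polar_comm _ _ _).trans ho), LinearEquiv.restrictScalars_apply,
    LinearMap.map_smul_of_tower, refl_apply_self h0, refl_apply_of_orth ((polar_comm _ _ _).trans hu)]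
  simp

theorem isDesc_exists_sq_neg (h2 : (2 : F) ≠ 0) (hQ : (polarBilin Q).Nondegenerate)
    (hV : finrank K V ≠ 0) (ht : tq Q = 1) : ∃ y : O Q, y.1 ∈ semiN F K V ∧
      (y.1 : End F V) ^ 2 = (-1 : F) • 1 ∧ ∃ w, Q w ≠ 0 ∧ ∃ l : K, y.1 w = l • w := by
  obtain ⟨τ, hτ⟩ := exists_qConj hk
  have h5 : (2 : K) ≠ 0 := by rwa [← map_ofNat (algebraMap F K), map_ne_zero]
  obtain ⟨c, hc, hc'⟩ : ∃ c : K, ¬ IsSquare c ∧ Algebra.trace F K c ≠ 0 := by
    obtain ⟨c, hc⟩ := exists_not_isSquare h5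
    obtain ⟨a, ha⟩ := not_forall.mp fun h =>
      hc (AO.eq_of_trace_sq (F := F) (c := c) (d := 0) h ▸ .zero)
    refine ⟨a * a * c, fun h => hc ?_, by simpa using ha⟩
    rwa [(sqEq_mul_self_mul (by rintro rfl; simp at ha) c).isSquare_iff] at h
  have h0 : c ≠ 0 := by rintro rfl; exact hc IsSquare.zero
  set R₀ := weightedSumSquares K fun _ : Fin (finrank K V) => c
  have hg : gram R₀ (fun i => Pi.single i 1) = Matrix.diagonal fun _ => 2 * c := by
    ext i j
    simp only [R₀, gram_apply, polar, weightedSumSquares_apply, ← Finset.sum_sub_distrib]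
    rw [Finset.sum_eq_single i (by simp +contextual) (by simp), Matrix.diagonal_apply]
    split_ifs with h <;> simp [h]
    ring
  have h1 := sqEq_disc_single R₀
  rw [hg, Matrix.det_diagonal, Finset.prod_const, Finset.card_univ, Fintype.card_fin] at h1
  obtain ⟨e, he⟩ := exists_equiv_of_tq ((disc_ne_zero_iff R₀).mp (h1.ne_zero_iff.mpr
    (pow_ne_zero _ (mul_ne_zero h5 h0)))) (h.nondeg hQ) (by simp) (by
      have := sqs_map_of_two hτ.fix hτ.orderOf_eq h2
      rw [map_ofNat] at this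
      rw [tq_of_ne h5, h1.sqs_eq, sqs_pow (mul_ne_zero h5 h0), sqs_mul h5 h0, this,
        sqs_of_not_isSquare hc, one_mul, eq_comm, ← Int.units_inv_eq_self ((-1) ^ _),
        ← mul_eq_one_iff_eq_inv', ← isDesc_tq h hk h2 hQ, ht])
  set b := (Pi.basisFun K _).map e
  have hb : ∀ i j, polar R (b i) (b j) = if i = j then 2 * c else 0 := fun i j => by
    rw [← Matrix.diagonal_apply (fun _ => 2 * c), ← hg]
    simp only [b, Basis.map_apply, Pi.basisFun_apply, gram_apply, polar, ← map_add e, he]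
  obtain ⟨l, hl, hl'⟩ := hτ.exists_sqrt hc
  obtain ⟨y, h3, h4, h6⟩ := exists_semi b τ (l := fun _ => l) fun _ h => by simp [h] at hl'
  have h7 := semi_form b (s := RingHom.id K) (fun _ => rfl) (C := polarBilin R) h4 (c := 1)
    fun i j => by
      simp only [h6, polarBilin_apply_apply, polar_smul_left, polar_smul_right, hb, smul_eq_mul]
      split_ifs <;> simp [map_ofNat, ← hl, mul_assoc, mul_left_comm]
  refine ⟨⟨y, mem_O.mpr fun v => ?_⟩, h3, semi_sq b hτ.invol h4 h6 fun _ => by simpa using hl',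
    b ⟨0, by omega⟩, ?_, l, h6 _⟩
  · have := h7 v v
    simp only [polarBilin_apply_apply, polar_self', one_mul, map_mul, map_ofNat] at this
    rw [← h, mul_left_cancel₀ h5 this, Algebra.trace_eq_of_algEquiv, h]
  · have := hb ⟨0, by omega⟩ ⟨0, by omega⟩
    rw [polar_self', if_pos rfl] at this
    rwa [← h, mul_left_cancel₀ h5 this]

theorem isDesc_elusIn_two (h2 : (2 : F) ≠ 0) (hQ : (polarBilin Q).Nondegenerate)
    (hV : 1 < finrank K V) : ElusIn (Tn.Om Q) (semiN F K V) 2 := by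
  rintro _ ⟨x, hx, rfl⟩ ⟨z, h3⟩ h4
  have hB := hform_polarBilin hQ
  have hx' := polar_isometry (g := (x.1 : End F V)) (mem_O.mp x.2)
  have hn := Module.finrank_mul_finrank F K V
  have : Nontrivial V := Module.nontrivial_of_finrank_pos (R := K) (by omega)
  rw [hk] at hn
  rcases hB.sq_cases hx' h3 with h3 | h3
  · obtain ⟨A, C, hA⟩ := exists_fixSp_of_sq hB h2 hx' h3
    obtain ⟨⟨j, hj⟩, h5⟩ := (hA.inOm_iff hQ h2 h3).mp ⟨x, hx, rfl⟩
    have h6 := hA.finrank_add
    have h0 : j ≠ 0 := fun h0 => h4 1 (LinearMap.ext fun v => by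
      simpa using (hA.mem v).mp (Submodule.eq_top_of_finrank_eq (by omega : finrank F A = _) ▸
        Submodule.mem_top))
    obtain ⟨y, A', C', h7, h8, h9, h10, h11⟩ := isDesc_exists_invol h hk h2 hQ h0
      (lt_of_not_ge fun h0 => h4 (-1) (LinearMap.ext fun v => by
        simpa using hA.neg_of_sq h3 v (Submodule.eq_top_of_finrank_eq
          (by omega : finrank F C = _) ▸ Submodule.mem_top))) 1
    obtain ⟨g, hg, h12⟩ := NT.exists_map_eq hQ (m := 2 * j) (W := C') (W' := C)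
      ⟨h9, (h11.nondegOn hB).2, Iff.rfl⟩ ⟨by omega, (hA.nondegOn hB).2, by
        rw [Tp, Tp, h5, h10, h9, hj, two_mul]⟩
    have : Nontrivial C' := Module.nontrivial_of_finrank_pos (R := F) (by omega)
    obtain ⟨w, hw⟩ := exists_ne_zero_of_nondeg (ND.restrict (h11.nondegOn hB).2)
    refine isDesc_exists_om h hk h2 hQ hV hg (conj_eq_of_apply
      (h11.conj_of_map_eq hB hA h8 h3 (Tn.O_le_isom hg) h12)) (w := w) hw h7 ?_
    rw [mul_refl, ← mul_assoc, show y.1 w = (-1 : F) • w.1 by simpa using h11.neg_of_sq h8 _ w.2, refl_smul (by simp),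
      refl_mul_self, one_mul]
    exact h7
  · obtain ⟨-, -, h5, -⟩ := O_of_sq_neg hQ h2 x h3
    obtain ⟨y, h6, h7, w, hw, l, hl⟩ := isDesc_exists_sq_neg h hk h2 hQ (by omega) h5
    obtain ⟨g, hg, h8⟩ := hB.exists_conj_of_sq_neg h2 (mul_one 1)
      (polar_isometry (g := (y.1 : End F V)) (mem_O.mp y.2)) hx' h7 h3
    refine isDesc_exists_om h hk h2 hQ hV (mem_O.mpr fun v => mul_left_cancel₀ h2 (by
      simpa only [polarBilin_apply_apply, polar_self'] using mem_SpB.mp hg v v))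
      (conj_eq_of_apply h8) hw h6 ?_
    rw [mul_refl, ← mul_assoc, hl]
    refine mul_mem (isDesc_refl_mul_refl h hk h2 hw (by rwa [← hl, O_map]) ?_) h6
    have h10 := O_polar y w (y.1 w)
    rw [show y.1 (y.1 w) = -w by simpa [pow_two] using LinearMap.congr_fun h7 w, polar_neg_right,
      polar_comm] at h10
    exact hl ▸ mul_left_cancel₀ h2 (by linear_combination -h10)

open Classical in
theorem isDesc_dvd_of_relIndex (h2 : (2 : F) ≠ 0) (hQ : (polarBilin Q).Nondegenerate) {m : ℕ}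
    (hV : finrank K V = m + 1) {r : ℕ} (hr : r.Prime) (hq : ¬ r ∣ Fintype.card F)
    (hΩ : r ∣ (semiN F K V).relIndex (Tn.Om Q)) : (Even m ∧
      r ∣ if Tp Q then Fintype.card F ^ (m + 1) - 1 else Fintype.card F ^ (m + 1) + 1) ∨
      ∃ j < m, Even j ∧ r ∣ Fintype.card F ^ (2 * (j + 1)) - 1 := by
  have := Fintype.ofFinite K
  have := finite_linearEquiv (F := F) (V := V)
  have hn := Module.finrank_mul_finrank F K V
  have hq1 : 1 < Fintype.card F := Fintype.one_lt_card
  have hK : Fintype.card K = Fintype.card F ^ 2 := by rw [Module.card_eq_pow_finrank (K := F), hk]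
  have h1 := relIndex_inf_dvd ((semiN F K V).subgroupOf (O Q)) ⊤ (commutator (O Q))
  rw [top_inf_eq, Subgroup.relIndex_top_right, Subgroup.subgroupOf, Subgroup.relIndex_comap] at h1
  obtain ⟨n, h3, h4⟩ := exists_mul_card_eq (resK F (O R)) (resK_injective _)
    (fun x => ⟨restrictScalars_mem_semiN _, isDesc_mem_O h x.2⟩) (hΩ.trans h1)
  rw [hk, hV] at hn
  have h5 : ∀ s, ∏ i ∈ Finset.range s, (Fintype.card F ^ (2 * (2 * (i + 1))) - 1) ≠ 0 := fun s =>
    Finset.prod_ne_zero_iff.mpr fun i _ => Nat.sub_ne_zero_of_lt (Nat.one_lt_pow (by omega) hq1)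
  have h6 : r ∣ ∏ j ∈ (Finset.range m).filter (fun j => ¬ 2 ∣ j + 1),
      (Fintype.card F ^ (2 * (j + 1)) - 1) →
      ∃ j < m, Even j ∧ r ∣ Fintype.card F ^ (2 * (j + 1)) - 1 := fun h => by
    obtain ⟨j, h6, h7⟩ := hr.prime.exists_mem_finset_dvd h
    simp only [Finset.mem_filter, Finset.mem_range] at h6
    exact ⟨j, h6.1, Nat.even_iff.mpr (by omega), h7⟩
  rw [card_O_ite hQ hn.symm, prod_range_mul_eq (fun j => Fintype.card F ^ (2 * j) - 1) two_pos
    (n := m) rfl] at h4
  obtain ⟨s, rfl | rfl⟩ := m.even_or_odd'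
  · rw [card_O_odd (h.nondeg hQ) hV, Nat.card_eq_fintype_card, hK,
      Nat.mul_div_cancel_left _ two_pos] at h4
    simp only [← pow_mul] at h4
    exact ((Nat.Prime.dvd_mul hr).mp (dvd_of_mul_eq_pow_mul (a := (2 * s + 1) * (2 * s))
      (b := 2 * s ^ 2) hr hq (mul_ne_zero two_ne_zero (h5 s)) (by linear_combination h4) h3)).imp
      (fun h => ⟨even_two_mul s, h⟩) h6
  · obtain ⟨τ, hτ⟩ := exists_qConj hk
    have h7 := sqs_map_of_two hτ.fix hτ.orderOf_eq (neg_ne_zero.mpr (one_ne_zero (α := F)))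
    rw [map_neg, map_one] at h7
    have h8 : Tp R ↔ Tp Q := by
      rw [Tp, Tp, isDesc_tq h hk h2 hQ, h7, ← hn, hV, Nat.mul_div_cancel_left _ two_pos,
        add_assoc, ← mul_add_one 2, pow_mul, pow_mul, Int.units_sq, Int.units_sq]
      simp
    rw [card_O_ite (h.nondeg hQ) hV, hK, show (2 * s + 1) / 2 = s by omega] at h4
    simp only [← pow_mul, h8, mul_add_one 2 s] at h4
    refine Or.inr (h6 (dvd_of_mul_eq_pow_mul hr hq (mul_ne_zero (mul_ne_zero two_ne_zero ?_) (h5 s))
      (h4.trans (by rw [← mul_assoc (_ * _)])) h3))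
    have := Nat.one_lt_pow (n := 2 * s + 2) (by omega) hq1
    split_ifs <;> omega

omit [FiniteDimensional K V] h in
theorem elusIn_om_field (p : ℕ) [Fact p.Prime] [CharP F p] (hQ : (polarBilin Q).Nondegenerate)
    (hs : ∀ (k : K) u v, polar Q (k • u) v = polar Q u (k • v)) (hp : p ≠ 2) {d : ℕ}
    (hV : finrank F V = 2 * d) (hd : 2 ≤ d) {r : ℕ} [Fact r.Prime]
    (hΩ : r ∣ (semiN F K V).relIndex (Tn.Om Q)) : ElusIn (Tn.Om Q) (semiN F K V) r ↔ r = 2 := by
  have : FiniteDimensional K V := Module.Finite.of_restrictScalars_finite F K V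
  have := Fintype.ofFinite K
  have := charP_of_injective_algebraMap (algebraMap F K).injective p
  obtain ⟨R, h⟩ := AO.exists_isDesc hs
  have h2 := two_ne_zero_of_ne (F := F) p hp
  have hn := Module.finrank_mul_finrank F K V
  rw [hk] at hn
  refine ⟨fun H => by_contra fun hr2 => ?_, fun h0 => h0 ▸ isDesc_elusIn_two h hk h2 hQ (by omega)⟩
  have hr := (Fact.out : r.Prime)
  have key : ∀ g : End F V, (∀ v, Q (g v) = Q v) → g ^ r = 1 → g ≠ 1 → ∃ y ∈ O Q,
      (∀ (k : K) x, y (k • x) = k • y x) ∧ Sim (y : End F V) g := fun g hg h3 h4 => by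
    obtain ⟨x, hx, rfl⟩ := inOm_of_odd hQ (not_exc_of_two_ne_zero h2) hg (hr.odd_of_ne_two hr2) h3
    obtain ⟨y, h5, h6, h7⟩ := H.exists_sim (Tn.mem_Om.mpr hx) (z := 1) (by rwa [one_smul])
      ((hform_polarBilin hQ).ne_smul_of_odd (polar_isometry hg) (hr.odd_of_ne_two hr2) h3 h4)
    exact ⟨y, Tn.Om_le h6, (semiN_cases (hk ▸ Nat.prime_two) h5 hr (h7.pow_eq_one h3)).resolve_right
      fun h => hr2 (h.1.trans hk), h7⟩
  by_cases hrp : r = p
  · subst hrp
    have h3 := three_le_char_elus r h2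
    obtain ⟨g, hg, he⟩ := exists_unip_O (μ := 3 ::ₘ Multiset.replicate (2 * d - 3) 1) hQ h2
      (by simp +contextual [Multiset.mem_replicate]) (fun a ha => by
        rw [Multiset.count_eq_zero_of_notMem (by
          simp only [Multiset.mem_cons, Multiset.mem_replicate]
          rintro (rfl | ⟨-, rfl⟩) <;> contradiction)]
        exact .zero) (by simp; omega) (Or.inl ⟨3, by simp, by decide⟩)
    obtain ⟨y, -, h4, h5⟩ := key g hg (pow_char_of_elDiv_unip r (by
      simp +contextual [Multiset.mem_replicate, h3, hr.one_le]) he)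
      (by simpa using ne_smul_of_elDiv_unip he (by simp) 1)
    have h6 := kerDim_add_count (s := elDiv (y : End F V)) (l := 1) (k := 2) (by
      simp +contextual [h5.elDiv_eq, he, Multiset.mem_replicate, or_imp])
    rw [← finrank_ker_eq_kerDim _ (Polynomial.monic_X_sub_C 1) (Polynomial.irreducible_X_sub_C 1),
      ← finrank_eq_elDeg, h5.elDiv_eq, he, count_map_X_sub_C] at h6
    have h7 := finrank_dvd_finrank_ker (K := K)
      (f := Polynomial.aeval (y : End F V) ((Polynomial.X - Polynomial.C (1 : F)) ^ 2))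
      fun k x => by simp [pow_two, h4, smul_sub]
    rw [Multiset.count_cons_self, Multiset.count_replicate, if_neg (by decide)] at h6
    rw [hk] at h7
    omega
  have hq := WE.not_dvd_card (F := F) p hrp
  have hq1 : 1 < Fintype.card F := Fintype.one_lt_card
  obtain ⟨m, rfl⟩ : ∃ m, d = m + 1 := ⟨d - 1, by omega⟩
  set i := orderOf (Fintype.card F : ZMod r)
  set c := if Even i then i else 2 * i
  have hD := cycD_id (F := F) p hrp hr2 (ε := 1) (mul_one 1) (i := i) (c := c) rfl rfl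
  have hc := hD.pos' p hrp
  obtain ⟨j, h3, h4, h5, h6⟩ : ∃ j ≤ m, Even j ∧ c ∣ 2 * (j + 1) ∧ (j = m → (Tp Q ↔ i ∣ m + 1)) := by
    simp only [i, ← dvd_pow_sub_one_iff (q := Fintype.card F) (by omega)]
    have h3 := fun e h => lcm_two_dvd (c := c) rfl
      ((dvd_pow_sub_one_iff (q := Fintype.card F) (by omega) r (2 * e)).mp h) (even_two_mul _)
    rcases isDesc_dvd_of_relIndex h hk h2 hQ (by omega : finrank K V = m + 1) hr hq hΩ with
      ⟨h4, h5⟩ | ⟨j, h4, h5, h6⟩
    · refine ⟨m, le_rfl, h4, h3 _ ?_, fun _ => ?_⟩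
      · rw [mul_comm, pow_mul, Nat.sq_sub_sq _ 1]
        split_ifs at h5
        exacts [h5.mul_left _, h5.mul_right _]
      · split_ifs at h5 with h6
        · exact iff_of_true h6 h5
        · refine iff_of_false h6 fun h7 => hr2 ((Nat.prime_dvd_prime_iff_eq hr Nat.prime_two).mp ?_)
          have := Nat.one_le_pow (m + 1) _ hq1.le
          convert Nat.dvd_sub h5 h7 using 1
          omega
    · exact ⟨j, h4.le, h5, h3 _ h6, fun h => absurd h h4.ne⟩
  have h7 := Nat.le_of_dvd (by omega) h5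
  obtain ⟨l, hl⟩ := hD.exists_adm p hrp 1
  have h8 := (forall_O_prime_iff p hrp hr2 (i := i) (c := c) rfl rfl hQ
    (fun g => ∃ e, finrank F (LinearMap.ker (g - 1)) + 4 * e = finrank F V)
    (fun k _ _ => ∃ e, k + 4 * e = finrank F V) fun g A C j l _ _ hA => by
      rw [Nat.add_right_cancel (hA.finrank_ker_add.trans hA.finrank_add.symm)]).mp
    (fun g hg h8 h9 => by
      obtain ⟨y, h10, h11, h12⟩ := key g hg h8 h9
      obtain ⟨e, he⟩ := (cycD_id (F := K) p hrp hr2 (ε := 1) (mul_one 1) rfl rfl).exists_finrank_ker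
        p hrp (hform_polarBilin (h.nondeg hQ)) (isom_toK (B := polarBilin Q) one_ne_zero
          (fun u v => by simpa using (h.polar 1 u v).symm) h11 (Tn.O_le_isom h10))
        (toK_pow_eq_one h11 (h12.pow_eq_one h8))
      obtain ⟨a, ha⟩ := (even_c rfl).two_dvd
      rw [ha] at he
      exact ⟨a * e, by rw [← h12.finrank_ker_sub_one, finrank_ker_toK h11, hk, ← hn, ← he]; ring⟩)
    (2 * (m + 1) - c) 1 l (by omega) one_ne_zero hl fun h0 => by
      rw [h6 (by omega), dvd_half_iff hc.1 rfl (by omega : c * 1 = 2 * (m + 1))]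
  obtain ⟨e, he⟩ := h8
  obtain ⟨a, rfl⟩ := h4
  have := Dvd.dvd.trans ⟨e, by omega⟩ h5 (a := 4)
  omega

omit h hk [Fintype F] in
theorem mem_omegaGL_iff_glLin {ι : Type} [Fintype ι] [DecidableEq ι] (Q : QuadraticForm F (ι → F))
    (g : GL ι F) : g ∈ Geo.omegaGL Q ↔ glLin ι F g ∈ Tn.Om Q :=
  (mem_omegaGL_iff g).trans ⟨fun ⟨x, hx, h⟩ => ⟨x, hx, LinearEquiv.toLinearMap_injective h⟩,
    fun ⟨x, hx, h⟩ => ⟨x, hx, congrArg LinearEquiv.toLinearMap h⟩⟩

end Cfsg.Lib.Known
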