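import Mathlib
import Cfsg.Agent.Known.ElusG
import Cfsg.Agent.Known.F4Prime
import Cfsg.Agent.Class.Tens.SpOMax

/-!
Elements of prime order of symplectic groups preserving a tensor decomposition.
-/

namespace Cfsg.Lib.Known

open Module Cfsg.Lib.Class Cfsg.Lib.Class.Form Cfsg.Lib.Class.Tn
open Cfsg.Lib.Class.AO (tensG)

universe u

variable {F : Type u} {U W V : Type*} [Field F] [AddCommGroup U] [Module F U] [AddCommGroup W]
  [Module F W] [AddCommGroup V] [Module F V] [FiniteDimensional F U] [FiniteDimensional F W]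
  {T : U →ₗ[F] W →ₗ[F] V}

theorem hform_of_hm {σ : F →+* F} {B : V →ₛₗ[σ] V →ₗ[F] F} {ε : F} (h : Hm B ε) : HForm B ε :=
  ⟨h.invol, h.eps_ne, h.sym, h.sep⟩

theorem finrank_ker_mp_one (h : IsTens T) (b : End F W) :
    finrank F (LinearMap.ker (h.mp 1 b - 1)) = finrank F U * finrank F (LinearMap.ker (b - 1)) := by
  rw [← h.mp_one, ← h.mp_sub_right, h.ker_mp_one, h.finrank_map₂, finrank_top]

theorem mp_pow (h : IsTens T) (a : End F U) (b : End F W) (k : ℕ) :
    h.mp a b ^ k = h.mp (a ^ k) (b ^ k) := by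
  induction k with
  | zero => simp
  | succ k ih => rw [pow_succ, pow_succ, pow_succ, ih, h.mp_mul]

theorem mp_cases (h : IsTens T) (a : End F U) {b : End F W} (hb : Function.Injective b) :
    (∃ c : F, a = c • 1) ∨
      finrank F (LinearMap.ker (h.mp a b - 1)) + finrank F W ≤ finrank F V := by
  have := h.finiteDimensional
  refine (em _).imp LinearMap.exists_eq_smul_id_of_forall_notLinearIndependent fun h1 => ?_
  obtain ⟨v, hv⟩ := not_forall_not.mp h1
  obtain ⟨ξ, h2, h3⟩ := Submodule.exists_dual_map_eq_bot_of_notMem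
    (p := Submodule.span F {v}) (x := a v) (fun h2 => by
      obtain ⟨c, hc⟩ := Submodule.mem_span_singleton.mp h2
      simpa using (LinearIndependent.pair_iff.mp hv c (-1) (by simp [hc])).2) inferInstance
  have h4 : ξ v = 0 := (Submodule.eq_bot_iff _).mp h3 _ ⟨v, Submodule.mem_span_singleton_self v, rfl⟩
  have h5 := LinearMap.finrank_range_of_inj (f := (h.mp a b - 1) ∘ₗ T v)
    ((injective_iff_map_eq_zero _).mpr fun w hw => hb (by
      simpa [h4, h2] using congrArg (h.cL ξ) hw))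
  have := Submodule.finrank_mono (LinearMap.range_comp_le_range (T v) (h.mp a b - 1))
  have := (h.mp a b - 1).finrank_range_add_finrank_ker
  omega

theorem tens_rank (h : IsTens T) {y : V ≃ₗ[F] V} (hy : y ∈ tensG T) {c : ℕ}
    (hc : finrank F (LinearMap.ker ((y : End F V) - 1)) + c = finrank F V) :
    finrank F U ∣ c ∨ finrank F W ≤ c := by
  obtain ⟨a, b, rfl⟩ := h.mem_tensG.mp hy
  rw [h.coe_mpE] at hc
  refine (mp_cases h a b.injective).imp (fun ⟨s, hs⟩ => ?_) (by omega)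
  rw [hs, h.mp_smul_left, ← h.mp_smul_right, finrank_ker_mp_one, h.finrank_eq] at hc
  exact (Nat.dvd_add_right (dvd_mul_right _ _)).mp (hc ▸ dvd_mul_right _ _)

variable [Fintype F] (p : ℕ) [Fact p.Prime] [CharP F p] {f : LinearMap.BilinForm F U}
  {g : LinearMap.BilinForm F W} {B : LinearMap.BilinForm F V} {ε ε' : F}

theorem tens_not_odd (t : TF (σ := RingHom.id F) T f ε g ε' B) (ha : 2 ≤ finrank F U)
    (hb : 3 ≤ finrank F W) {r : ℕ} [Fact r.Prime] (hrp : r ≠ p) (hr2 : r ≠ 2) {i c : ℕ}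
    (hi : i = orderOf (Fintype.card F : ZMod r)) (hc : c = if Even i then i else 2 * i)
    {y : V ≃ₗ[F] V} (hy : y ∈ tensG T) (hB : y ∈ SpB B) (hr : (y : End F V) ^ r = 1) :
    finrank F (LinearMap.ker ((y : End F V) - 1)) + c ≠ finrank F V := fun h0 => by
  have h := t.hT
  have := h.finiteDimensional
  have : Nontrivial U := Module.nontrivial_of_finrank_pos (R := F) (by omega)
  have : Nontrivial W := Module.nontrivial_of_finrank_pos (R := F) (by omega)
  obtain ⟨a, b, rfl⟩ := h.mem_tensG.mp hy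
  rw [h.coe_mpE] at h0 hr
  have h1 : ∀ u w u' w', f (a u) (a u') * g (b w) (b w') = f u u' * g w w' := fun u w u' w' => by
    simpa [t.tens] using mem_SpB.mp hB (T u w) (T u' w')
  have hD := cycD_id (F := F) p hrp hr2 t.hf.eps hi hc
  have hc0 := (hD.pos' p hrp).2
  obtain ⟨u₀, u₁, hu⟩ := t.hf.exists_ne_pair
  obtain ⟨w₀, w₁, hw⟩ := t.hh.exists_ne_pair
  obtain ⟨s, hs⟩ : ∃ s : F, (a : End F U) = s • 1 := by
    have h2 : ∀ u u', f u u' = g (b w₀) (b w₁) * f (a u) (a u') := fun u u' => by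
      rw [mul_comm, h1, hw, mul_one]
    generalize g (b w₀) (b w₁) = ν at h2
    have h3 : ∀ k u u', f u u' = ν ^ k * f (((a : End F U) ^ k) u) (((a : End F U) ^ k) u') := by
      intro k
      induction k with
      | zero => simp
      | succ k ih => intro u u'; rw [ih, h2, ← mul_assoc, pow_succ, pow_succ']; rfl
    obtain ⟨κ, hκ⟩ : ∃ κ : F, κ • (a : End F U) ^ r = 1 := ⟨_, LinearMap.ext fun u => by
      simpa [mp_pow, hw] using congrArg (h.cR (g w₀)) (LinearMap.congr_fun hr (T u w₁))⟩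
    have h4 : ν ^ r = κ * κ := by
      have h4 := congrArg₂ (f · ·) (LinearMap.congr_fun hκ u₀) (LinearMap.congr_fun hκ u₁)
      simp only [LinearMap.smul_apply, map_smul, smul_eq_mul, End.one_apply, hu] at h4
      linear_combination -(κ * κ) * h3 r u₀ u₁ - ν ^ r * h4 + κ * κ * hu
    have h5 : (ν • (a : End F U) ^ 2) ^ r = 1 := by
      rw [smul_pow, h4, ← pow_mul, mul_comm 2, pow_mul, pow_two, ← smul_mul_smul_comm, hκ, mul_one]
    obtain ⟨j, hj⟩ := hD.exists_finrank_ker p hrp (hform_of_hm t.hf) (fun u u' => by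
      simp only [LinearMap.smul_apply, map_smul, smul_eq_mul, ← mul_assoc, ← pow_two]
      exact (h3 2 u u').symm) h5
    obtain ⟨a', h6, e, he⟩ : ∃ a', a' * (ν • (a : End F U)) = 1 ∧ Sim a' (a : End F U) :=
      ⟨(hform_of_hm t.hf).adj a, LinearMap.ext fun u => t.hf.ext_left fun v => by
        simpa [HForm.adj_left] using (h2 u v).symm, sim_of_elDiv_eq (by simp [HForm.elDiv_adj])⟩
    have h7 := Sim.finrank_ker_sub_one (f := h.mp a' b) (g := h.mp a b)
      ⟨h.mpE e 1, LinearMap.congr_fun (h.ext (a := (h.mpE e 1 : End F V) ∘ₗ h.mp a' b)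
        (b := h.mp a b ∘ₗ (h.mpE e 1 : End F V)) fun x y => by simp [he])⟩
    have h8 := Submodule.finrank_sup_add_finrank_inf_eq (LinearMap.ker (h.mp a b - 1))
      (LinearMap.ker (h.mp a' b - 1))
    have h9 := Submodule.finrank_mono (show LinearMap.ker (h.mp a b - 1) ⊓
      LinearMap.ker (h.mp a' b - 1) ≤ LinearMap.ker (h.flip.mp 1 (ν • (a : End F U) ^ 2) - 1) from
      fun v ⟨h8, h9⟩ => by
        simp only [SetLike.mem_coe, LinearMap.mem_ker, LinearMap.sub_apply, End.one_apply,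
          sub_eq_zero, h.mp_flip] at h8 h9 ⊢
        conv_lhs => rw [← h9, ← End.mul_apply, ← h.mp_mul, one_mul, pow_two, ← mul_smul_comm,
          mul_assoc, mul_eq_one_comm.mp h6, mul_one, h8])
    have h10 := Submodule.finrank_le (LinearMap.ker (h.mp a b - 1) ⊔ LinearMap.ker (h.mp a' b - 1))
    rw [finrank_ker_mp_one] at h9
    have h11 := h.finrank_eq
    rw [← hj] at h11
    obtain rfl : j = 0 := by
      by_contra h12
      nlinarith [Nat.mul_le_mul (Nat.le_mul_of_pos_right c (Nat.pos_of_ne_zero h12)) hb]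
    have h12 := sub_eq_zero.mp (LinearMap.ker_eq_top.mp (Submodule.eq_top_of_finrank_eq hj))
    obtain ⟨k, rfl⟩ := (Fact.out : r.Prime).odd_of_ne_two hr2
    have h13 := congrArg (· ^ k * (a : End F U)) h12
    have h14 : κ ≠ 0 := by rintro rfl; simp at hκ
    simp only [smul_pow, ← pow_mul, smul_mul_assoc, ← pow_succ, one_pow, one_mul] at h13
    exact ⟨ν ^ k * κ⁻¹, by rw [← hκ, smul_smul, inv_mul_cancel_right₀ h14, h13]⟩
  rw [hs, h.mp_smul_left, ← h.mp_smul_right] at h0 hr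
  obtain ⟨j, hj⟩ := (cycD_id (F := F) p hrp hr2 t.hh.eps hi hc).exists_finrank_ker p hrp
    (hform_of_hm t.hh) (g := s • b) (fun w w' => by
      have := h1 u₀ w u₁ w'
      rw [← LinearEquiv.coe_coe a, hs] at this
      simpa [hu, mul_assoc] using this)
    (h.mp_injective_right one_ne_zero (by rw [h.mp_one, ← hr, mp_pow, one_pow]))
  rw [finrank_ker_mp_one, h.finrank_eq, ← hj, mul_add, add_right_inj] at h0
  have := Nat.eq_one_of_mul_eq_one_right (Nat.eq_of_mul_eq_mul_left hc0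
    ((mul_left_comm _ _ _).trans (h0.symm.trans (mul_one c).symm)))
  omega

include p in
theorem elusIn_sp_tens (t : TF (σ := RingHom.id F) T f (-1) g 1 B) (hA : f.IsAlt)
    (hB : B.Nondegenerate) (hA' : B.IsAlt) (hp : p ≠ 2) (ha : 2 ≤ finrank F U)
    (hb : 3 ≤ finrank F W) {r : ℕ} [Fact r.Prime] (hΩ : r ∣ (tensG T).relIndex (SpB B)) :
    ElusIn (SpB B) (tensG T) r ↔ r = 2 ∧ finrank F U = 2 := by
  have := t.hT.finiteDimensional
  have h := ha_of_isAlt hB hA'
  have h2 := two_ne_zero_of_ne (F := F) p hp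
  have hn := t.hT.finrank_eq
  have h6 : 6 ≤ finrank F V := hn ▸ Nat.mul_le_mul ha hb
  by_cases hrp : r = p
  · refine iff_of_false (fun H => ?_) fun h => hp (hrp ▸ h.1)
    obtain ⟨y, h1, -, h3⟩ := (hrp ▸ H).sp_char p h (by omega)
    rcases tens_rank t.hT h1 h3 with h4 | h4
    · have := Nat.le_of_dvd one_pos h4
      omega
    · omega
  by_cases hr2 : r = 2
  · subst hr2
    refine ⟨fun H => ⟨rfl, ?_⟩, fun ⟨_, h1⟩ => elusIn_sp_two h h2 (fun j h0 hj => ?_) ?_⟩
    · obtain ⟨y, h1, -, -, h3⟩ := H.sp_two h h2 one_pos (by omega)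
      rcases tens_rank t.hT h1 h3 with h4 | h4
      · exact le_antisymm (Nat.le_of_dvd two_pos h4) ha
      · omega
    · have h3 := hform_of_hm t.hh
      rw [h1] at hn
      obtain ⟨C, h4, h5⟩ := h3.exists_nondeg_of_aniso (h3.exists_aniso_of_symm h2) j (by omega)
      obtain ⟨x, h7, h8, h9⟩ := h3.exists_invol h2 h4
      refine ⟨t.hT.mpE 1 x, t.hT.mpE_mem _ _, t.mpE_isom' (one_mem _) h7, ?_, ?_⟩
      · rw [t.hT.coe_mpE, mp_pow, h8]
        exact t.hT.mp_one
      · rw [t.hT.coe_mpE, LinearEquiv.coe_toLinearMap_one, ← End.one_eq_id, finrank_ker_mp_one, h1]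
        omega
    · have h3 : HA (σ := RingHom.id F) f (-1) := ⟨hform_of_hm t.hf, Or.inr ⟨rfl, rfl, hA⟩⟩
      obtain ⟨J, h4, h5, -⟩ := h3.exists_sq_neg
      obtain ⟨x, h7, rfl⟩ := h3.toHForm.exists_equiv h4
      refine ⟨t.hT.mpE x 1, t.hT.mpE_mem _ _, t.mpE_isom' h7 (one_mem _), ?_⟩
      rw [t.hT.coe_mpE, mp_pow, h5, t.hT.mp_smul_left]
      exact congrArg _ t.hT.mp_one
  refine iff_of_false (fun H => ?_) fun h => hr2 h.1
  obtain ⟨d, hd⟩ := (h.even rfl).two_dvd
  have hr := (Fact.out : r.Prime)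
  have h1 := hΩ.trans (Subgroup.relIndex_dvd_card _ _)
  rw [card_SpB hB hA' hd, spOrd, hr.dvd_mul] at h1
  obtain ⟨j, h3, h4⟩ := hr.prime.exists_mem_finset_dvd (h1.resolve_left fun h =>
    WE.not_dvd_card (F := F) p hrp (hr.dvd_of_dvd_pow h))
  have h5 := Nat.le_of_dvd (by omega) (lcm_two_dvd rfl
    ((dvd_pow_sub_one_iff Fintype.card_ne_zero r _).mp h4) (even_two_mul _))
  rw [Finset.mem_range] at h3
  obtain ⟨y, h7, h8, h9, h10⟩ := H.sp_odd p h hrp hr2 rfl rfl one_ne_zero (by omega)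
  exact tens_not_odd p t ha hb hrp hr2 rfl rfl h7 h8 h9 (by rwa [mul_one] at h10)

end Cfsg.Lib.Known
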