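import Mathlib
import Cfsg.Agent.Known.ElusX6
import Cfsg.Agent.Class.FieldExtMat
import Cfsg.Agent.Class.Asch.FormGeo

/-!
Elements of prime order of `PSL_n(q)` with large fixed spaces; extension-field subgroups.
-/

set_option autoImplicit false
set_option linter.unusedSectionVars false

open Polynomial Module Matrix Cfsg.Lib.Class Cfsg.Lib.Class.Asch Cfsg.Lib.Class.Form
open scoped MatrixGroups

universe u

namespace Cfsg.Lib.Known

variable {F : Type u} [Field F] {ι : Type} [Fintype ι] [DecidableEq ι]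

/-- The dimension of the fixed space. -/
noncomputable def fixd (A : Matrix ι ι F) : ℕ :=
  finrank F (LinearMap.ker (Matrix.toLin' A - 1))

open Classical in
theorem fixd_eq (A : Matrix ι ι F) : fixd A = ((elDivM A).filter fun x => x.1 = X - 1).card :=
  finrank_ker_sub_one A

open Classical in
theorem fixd_of_dT {A : Matrix ι ι F} {Λ : Multiset F} (h : elDivM A = dT Λ) :
    fixd A = Λ.count 1 := by
  rw [fixd_eq, h, dT, Multiset.filter_map, Multiset.card_map, Multiset.count_eq_card_filter_eq]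
  refine congrArg _ (Multiset.filter_congr fun θ _ => ?_)
  simp only [Function.comp_apply, ← C_1, sub_right_inj, C_inj, eq_comm]

open Classical in
/-- There is an element of order `r` of `PSL` with a representative of order `r` whose fixed space
has codimension `d` and which has an elementary divisor of multiplicity `c`. -/
def ExE (r d c : ℕ) (ι : Type) [Fintype ι] [DecidableEq ι] (F : Type u) [Field F] : Prop :=
  ∃ (y : GL ι F) (a : F), a ≠ 0 ∧ a ^ Fintype.card ι * (y : Matrix ι ι F).det = 1 ∧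
    (y : Matrix ι ι F) ^ r = 1 ∧ (∀ z : F, (y : Matrix ι ι F) ≠ z • 1) ∧
    fixd (y : Matrix ι ι F) + d = Fintype.card ι ∧ ∃ x, (elDivM (y : Matrix ι ι F)).count x = c

open Classical in
theorem ExE.not_allC {r d c : ℕ} (h : ExE r d c ι F) {H : Subgroup (GL ι F)}
    (hs : ∀ c, scalarGL ι c ∈ H) (hH : ∀ y ∈ H, (y : Matrix ι ι F) ^ r = 1 →
      fixd (y : Matrix ι ι F) + d = Fintype.card ι →
      ∀ x, (elDivM (y : Matrix ι ι F)).count x ≠ c) : ¬ AllC r H := by
  obtain ⟨y, a, ha, h1, h2, h3, h4, x, h5⟩ := h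
  refine Known.not_allC hs y h1 ha (z := 1) (by simpa using h2) h3 fun y' hy' hc => ?_
  rw [fixd_eq] at h4
  rw [isConj_iff_elDivM.mp hc] at h4 h5
  exact hH y' hy' (pow_of_isConj' hc h2) (by rwa [fixd_eq]) x h5

theorem exE_of_dT {r : ℕ} (hr : r ≠ 0) {Λ : Multiset F} (h1 : ∀ θ ∈ Λ, θ ^ r = 1 ∧ θ ≠ 1)
    (h0 : Λ ≠ 0) (hn : Λ.card < Fintype.card ι) {a : F}
    (ha : a ^ Fintype.card ι * Λ.prod = 1) {θ : F} (hθ : θ ∈ Λ) {c : ℕ}
    (hc : (open Classical in Λ.count θ) = c) : ExE r Λ.card c ι F := by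
  classical
  have h2 : ∀ θ ∈ Λ + Multiset.replicate (Fintype.card ι - Λ.card) 1, θ ^ r = 1 := fun θ hθ => by
    rcases Multiset.mem_add.mp hθ with h | h
    · exact (h1 θ h).1
    · rw [Multiset.eq_of_mem_replicate h, one_pow]
  obtain ⟨y, hy⟩ := exists_GL_dT (ι := ι) (zero_notMem_of_pow hr h2) (by simp; omega)
  refine ⟨y, a, fun e => ?_, by simpa [det_of_dT hy] using ha,
    by simpa using (pow_eq_iff_of_dT hy r 1).mpr h2, ne_smul_of_dT hy (a := θ) (b := 1)
      (by simp [hθ]) (by simp [Multiset.mem_replicate]; omega) (h1 θ hθ).2, ?_, (X - C θ, 1), ?_⟩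
  · simp [e, zero_pow (show Fintype.card ι ≠ 0 by omega)] at ha
  · rw [fixd_of_dT hy, Multiset.count_add, Multiset.count_eq_zero.mpr fun h => (h1 1 h).2 rfl,
      Multiset.count_replicate_self]
    omega
  · rw [hy, count_dT, Multiset.count_add, Multiset.count_replicate, if_neg (h1 θ hθ).2.symm, ← hc]
    rfl

theorem exE_one {r : ℕ} (hr : r ≠ 0) (hn : 2 ≤ Fintype.card ι) {θ a : F} (h1 : θ ^ r = 1)
    (h2 : θ ≠ 1) (ha : a ^ Fintype.card ι * θ = 1) : ExE r 1 1 ι F :=
  exE_of_dT (Λ := {θ}) hr (by simp [h1, h2]) (by simp) (by simp; omega) (by simpa using ha)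
    (θ := θ) (by simp) (by simp)

theorem exE_two_neg (h2 : (2 : F) ≠ 0) (hn : 3 ≤ Fintype.card ι) : ExE 2 2 2 ι F :=
  exE_of_dT (Λ := {-1, -1}) two_ne_zero
    (by simpa using fun e : (-1 : F) = 1 => h2 (by linear_combination -e)) (by simp)
    (by simp; omega) (a := 1) (by simp) (θ := -1) (by simp) (by simp)

theorem elDiv_smul_one_eq {V : Type*} [AddCommGroup V] [Module F V] [FiniteDimensional F V]
    (c : F) : elDiv (c • 1 : End F V) = finrank F V • dT {c} := by
  have h1 := Multiset.eq_replicate_of_mem fun x hx => eq_of_mem_elDiv_smul_one (V := V) (c := c) hx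
  have h2 := finrank_eq_elDeg (c • 1 : End F V)
  rw [h1, elDeg_replicate, natDegree_X_sub_C] at h2
  rw [h1, h2, dT, Multiset.map_singleton, Multiset.nsmul_singleton]
  simp

theorem dT_nsmul (k : ℕ) (Λ : Multiset F) : dT (k • Λ) = k • dT Λ := Multiset.map_nsmul _ _ _

theorem dT_univ {m : ℕ} (d : Fin m → F) : dT (Finset.univ.val.map d) = ∑ i, dT {d i} := by
  rw [dT, ← Multiset.sum_map_singleton (Multiset.map _ _), Multiset.map_map, Multiset.map_map]
  rfl

variable [Fintype F] (p : ℕ) [Fact p.Prime] [CharP F p] {r : ℕ} [Fact r.Prime]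

theorem exE_transv (hn : 2 ≤ Fintype.card ι) : ExE p 1 1 ι F := by
  classical
  obtain ⟨y, hy, h4, h5, h6⟩ := exists_GL_unip (F := F) (ι := ι) p
    (μ := 2 ::ₘ Multiset.replicate (Fintype.card ι - 2) 1) (fun a ha => by
      have := (Fact.out : p.Prime).two_le
      rcases Multiset.mem_cons.mp ha with rfl | ha
      · omega
      · rw [Multiset.eq_of_mem_replicate ha]; omega) (by simp; omega)
    fun e => absurd (e 2 (by simp)) (by decide)
  refine ⟨y, 1, one_ne_zero, by simp [h4], h5, h6, ?_, (X - 1, 2), ?_⟩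
  · rw [fixd_eq, hy, Multiset.filter_eq_self.mpr (by simp [Multiset.mem_replicate])]
    simp
    omega
  · simp [hy, Multiset.count_replicate]

theorem exE_two (hr2 : r ≠ 2) (hq : r ∣ Fintype.card F - 1) (hn : 3 ≤ Fintype.card ι) :
    ExE r 2 1 ι F := by
  classical
  have hp : r.Prime := Fact.out
  obtain ⟨ζ, hζ⟩ := exists_primitiveRoot hq
  have h0 := hζ.ne_zero hp.ne_zero
  have h1 : ζ ≠ ζ⁻¹ := fun e => hr2 ((Nat.prime_dvd_prime_iff_eq hp Nat.prime_two).mp
    (hζ.dvd_of_pow_eq_one 2 (by rw [sq]; nth_rw 2 [e]; exact mul_inv_cancel₀ h0)))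
  exact exE_of_dT (Λ := {ζ, ζ⁻¹}) hp.ne_zero
    (by simp [hζ.pow_eq_one, hζ.ne_one hp.one_lt]) (by simp) (by simp; omega) (a := 1)
    (by simp [h0]) (θ := ζ) (by simp) (by simp [h1])

include p in
theorem exE_orbit (hrp : r ≠ p) (hi1 : orderOf (Fintype.card F : ZMod r) ≠ 1)
    (hi : orderOf (Fintype.card F : ZMod r) ≤ Fintype.card ι) :
    ExE r (orderOf (Fintype.card F : ZMod r)) 1 ι F := by
  classical
  obtain ⟨y, x, hx, hy, h1, h2, h3, -⟩ := exists_GL_orbit (ι := ι) p hrp hi1 one_ne_zero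
    (by omega)
  have h4 := cycFactors_ne p hrp hx
  have h5 : x.1 ≠ X - 1 := fun e => h4 (Prod.ext e (mem_cycFactors.mp hx).2.2.2)
  refine ⟨y, 1, one_ne_zero, by simp [h1], h2, h3, ?_, x, ?_⟩
  · rw [fixd_eq, hy, Multiset.filter_add, Multiset.filter_eq_self.mpr
      (by simp [Multiset.mem_replicate]), Multiset.filter_eq_nil.mpr fun a ha =>
        Multiset.eq_of_mem_replicate ha ▸ h5]
    simp
    omega
  · simp [hy, Multiset.count_replicate, h4.symm]

include p in
theorem exists_half (hp : 2 ≠ p) {A : Matrix ι ι F} (h : A ^ 2 = 1) (hd : A.det = 1) {m : ℕ}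
    (hm : Fintype.card ι = 2 * m) :
    ∃ d : Fin m → F, (∀ i, d i ≠ 0) ∧ elDivM A = 2 • ∑ i, dT {d i} := by
  have h2 := two_ne_zero_of_ne_char (F := F) p hp
  obtain ⟨Λ, hΛ, h4⟩ := exists_dT_of_pow_eq_one p hp (two_dvd_card_sub_one h2) h
  obtain ⟨s, t, rfl⟩ := eq_replicate_add_replicate (a := (-1 : F)) (b := 1) (ν := Λ)
    fun θ hθ => (sq_eq_one_iff.mp (h4 θ hθ)).symm
  have h5 := card_of_dT hΛ
  obtain ⟨s, rfl⟩ : Even s := by
    rw [det_of_dT hΛ] at hd
    exact (neg_one_pow_eq_one_iff_even fun e => h2 (by linear_combination -e)).mp (by simpa using hd)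
  simp only [Multiset.card_add, Multiset.card_replicate] at h5
  obtain ⟨m', d, hd⟩ := exists_enum
    (Multiset.replicate s (-1 : F) + Multiset.replicate (m - s) 1)
  obtain rfl : m' = m := by
    have := congrArg Multiset.card hd
    simp at this
    omega
  refine ⟨d, fun i e => ?_, ?_⟩
  · have : (0 : F) ∈ Multiset.replicate s (-1 : F) + Multiset.replicate (m' - s) 1 :=
      hd ▸ e ▸ Multiset.mem_map_of_mem d (Finset.mem_univ i)
    simp [Multiset.mem_replicate] at this
  · rw [← dT_univ, hd, ← dT_nsmul, hΛ, smul_add, Multiset.nsmul_replicate,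
      Multiset.nsmul_replicate, show t = 2 * (m' - s) by omega, two_mul s]

include p in
theorem elDivM_of_sq_two (hp : 2 ≠ p) (hn : Fintype.card ι = 2) {A : Matrix ι ι F} (h : A ^ 2 = 1)
    (h1 : ∀ z : F, A ≠ z • 1) : elDivM A = dT {1, -1} := by
  obtain ⟨Λ, hΛ, h4⟩ := exists_dT_of_pow_eq_one p hp
    (two_dvd_card_sub_one (two_ne_zero_of_ne_char (F := F) p hp)) h
  obtain ⟨a, b, rfl⟩ := Multiset.card_eq_two.mp ((card_of_dT hΛ).trans hn)
  have h5 : a ≠ b := fun e => h1 a ((eq_smul_iff_of_dT hΛ a).mpr (by simp [e]))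
  rcases sq_eq_one_iff.mp (h4 a (by simp)) with rfl | rfl <;>
    rcases sq_eq_one_iff.mp (h4 b (by simp)) with rfl | rfl
  · exact absurd rfl h5
  · exact hΛ
  · rw [hΛ, Multiset.pair_comm]
  · exact absurd rfl h5

include p in
theorem elDivM_of_cube_three (hp : 3 ≠ p) {ζ : F} (hζ : IsPrimitiveRoot ζ 3)
    (hq : 3 ∣ Fintype.card F - 1) (hn : Fintype.card ι = 3) {A : Matrix ι ι F} (h : A ^ 3 = 1)
    (hd : A.det = 1) (h1 : ∀ z : F, A ≠ z • 1) :
    elDivM A = dT (({0, 1, 2} : Multiset (ZMod 3)).map (zp ζ)) := by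
  obtain ⟨Λ, hΛ, h4⟩ := exists_dT_of_pow_eq_one p hp hq h
  obtain ⟨T, rfl⟩ := exists_map_zp_eq hζ h4
  obtain ⟨a, b, c, rfl⟩ := Multiset.card_eq_three.mp
    (show T.card = 3 by simpa [hn] using card_of_dT hΛ)
  rw [det_of_dT hΛ, prod_map_zp hζ.pow_eq_one, ← zp_zero (r := 3) ζ] at hd
  have h5 := zp_injective hζ hd
  have h6 : ¬ (b = a ∧ c = a) := fun e =>
    h1 (zp ζ a) ((eq_smul_iff_of_dT hΛ _).mpr (by simp [e.1, e.2]))
  rw [hΛ]
  congr 2
  clear hΛ hd h4
  revert a b c
  decide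

include p in
theorem isConj_of_orderOf_eq (hrp : r ≠ p) (hr2 : r ≠ 2)
    (hi : orderOf (Fintype.card F : ZMod r) = r - 1) (hn : Fintype.card ι = r)
    {A B : Matrix ι ι F} (hA : A ^ r = 1) (hA1 : A ≠ 1) (hB : B ^ r = 1) (hB1 : B ≠ 1) :
    IsConj A B := by
  have hp : r.Prime := Fact.out
  have h3 : 3 ≤ r := by have := hp.two_le; omega
  obtain ⟨x, hx⟩ := Finset.card_eq_one.mp (show (cycFactors F r).card = 1 from
    Nat.eq_of_mul_eq_mul_left (show 0 < r - 1 by omega)
      (by rw [mul_one]; exact hi ▸ card_cycFactors (K := F) p hrp))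
  have key : ∀ A : Matrix ι ι F, A ^ r = 1 → A ≠ 1 → elDivM A =
      Multiset.replicate 1 (X - 1, 1) + Multiset.replicate 1 x := fun A hA hA1 => by
    obtain ⟨k, j, h⟩ := eq_replicate_add_replicate (a := ((X - 1 : F[X]), 1)) (b := x)
      (ν := elDivM A) fun b hb => by
        have h1 := elDivM_snd_eq_one_of_pow_eq_one (natCast_prime_ne_zero p hrp) hA b hb
        have h2 := (aeval_eq_zero_iff_elDivM A (X ^ r - 1)).mp (by simp [hA]) b hb
        obtain ⟨h4, h5, -⟩ := isElDivs_elDivM A b hb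
        rw [h1, pow_one, ← cyclotomic_prime_mul_X_sub_one] at h2
        rcases h5.prime.dvd_or_dvd h2 with h | h
        · exact Or.inr (Finset.mem_singleton.mp (hx ▸ mem_cycFactors.mpr ⟨h4, h5, h, h1⟩))
        · exact Or.inl (Prod.ext (eq_of_monic_of_associated h4 monic_X_sub_one
            (h5.associated_of_dvd irreducible_X_sub_one h)) h1)
    have h1 := elDeg_elDivM A
    rw [h, elDeg_add, elDeg_replicate, elDeg_replicate, natDegree_X_sub_one,
      natDegree_of_mem_cycFactors p hrp (hx ▸ Finset.mem_singleton_self x), hi, hn] at h1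
    have h2 : j ≠ 0 := by
      rintro rfl
      refine hA1 (sub_eq_zero.mp ((pow_one _).symm.trans ((sub_one_pow_eq_zero_iff A 1).mpr ?_)))
      simp [h, Multiset.mem_replicate]
    obtain rfl : j = 1 := by
      by_contra e
      have := Nat.mul_le_mul_right (r - 1) (show 2 ≤ j by omega)
      omega
    rw [h, show k = 1 by simp only at h1; omega]
  rw [isConj_iff_elDivM, key A hA hA1, key B hB hB1]

section Ext

variable {k : ℕ} {K : Subalgebra F (Matrix ι ι F)}

omit [Fintype F] in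
theorem scalarGL_mem_nrm (c : Fˣ) : scalarGL ι c ∈ Geo.subalgebraNormalizer K :=
  mem_subalgebraNormalizer_of_comm fun _ _ => by simp [coe_scalarGL]

omit [Fintype F] in
theorem exists_ext_model [Nonempty ι] (hK : Geo.IsFieldSubalgebra k K) :
    ∃ (E : Type u) (_ : Field E) (_ : Algebra F E) (_ : FiniteDimensional F E), finrank F E = k ∧
      ∀ (W : Type u) [AddCommGroup W] [Module F W] [Module E W] [IsScalarTower F E W]
        [FiniteDimensional F W], finrank F W = Fintype.card ι →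
        ∀ (τ : E ≃ₐ[F] E) (g : End F W), Function.Injective g →
          (∀ a w, g (a • w) = τ a • g w) →
          ∃ y ∈ Geo.subalgebraNormalizer K, Sim g (Matrix.toLin' (y : Matrix ι ι F)) := by
  let _ := (isField_of_isFieldSubalgebra hK).toField
  refine ⟨K, inferInstance, inferInstance, inferInstance, hK.finrank_eq, ?_⟩
  intro W _ _ _ _ _ hW τ g hg hτ
  have : FiniteDimensional K (ι → F) := Module.Finite.of_restrictScalars_finite F K _
  have : FiniteDimensional K W := Module.Finite.of_restrictScalars_finite F K _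
  let e : W ≃ₗ[K] (ι → F) := LinearEquiv.ofFinrankEq _ _ (Nat.eq_of_mul_eq_mul_left
    (finrank_pos (R := F) (M := K)) (by
      rw [Module.finrank_mul_finrank, Module.finrank_mul_finrank, hW,
        Module.finrank_fintype_fun_eq_card]))
  obtain ⟨g, rfl⟩ : ∃ g' : W ≃ₗ[F] W, (g' : End F W) = g :=
    ⟨LinearEquiv.ofInjectiveEndo g hg, rfl⟩
  let y := (glLin ι F).symm ((e.restrictScalars F).symm.trans (g.trans (e.restrictScalars F)))
  have hy : ∀ w, (y : Matrix ι ι F) *ᵥ e w = e (g w) := fun w => by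
    rw [← glLin_apply, MulEquiv.apply_symm_apply]
    simp
  have h1 : ∀ a : K, (y : Matrix ι ι F) * a * ((y⁻¹ : GL ι F) : Matrix ι ι F) = τ a := fun a => by
    rw [Units.mul_inv_eq_iff_eq_mul]
    refine mat_ext_mulVec fun v => ?_
    obtain ⟨w, rfl⟩ := e.surjective v
    rw [← Matrix.mulVec_mulVec, ← Matrix.mulVec_mulVec, hy]
    change (y : Matrix ι ι F) *ᵥ (a • e w) = τ a • e (g w)
    rw [← map_smul, hy, ← map_smul]
    exact congrArg e (hτ a w)
  refine ⟨y, fun a => ⟨fun ha => (h1 ⟨a, ha⟩).symm ▸ (τ ⟨a, ha⟩).2, fun ha => ?_⟩,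
    e.restrictScalars F, fun w => (hy w).symm⟩
  have h2 := h1 (τ.symm ⟨_, ha⟩)
  rw [τ.apply_symm_apply, Units.mul_left_inj, Units.mul_right_inj] at h2
  exact h2 ▸ (τ.symm ⟨_, ha⟩).2

theorem exists_frob_nrm (hK : Geo.IsFieldSubalgebra (Fintype.card ι) K) (hn : 2 ≤ Fintype.card ι) :
    ∃ y ∈ Geo.subalgebraNormalizer K, (y : Matrix ι ι F) ^ Fintype.card ι = 1 ∧
      (∀ z : F, (y : Matrix ι ι F) ≠ z • 1) ∧
      (y : Matrix ι ι F).det = (-1) ^ (Fintype.card ι + 1) := by
  have : Nonempty ι := Fintype.card_pos_iff.mp (by omega)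
  obtain ⟨E, _, _, _, hE, h⟩ := exists_ext_model hK
  have : Finite E := Module.finite_of_finite F
  obtain ⟨y, hy, h1⟩ := h E hE (FiniteField.frobeniusAlgEquivOfAlgebraic F E)
    (FiniteField.frobeniusAlgHom F E).toLinearMap (FiniteField.frobeniusAlgHom F E).injective
    fun a w => map_mul (FiniteField.frobeniusAlgHom F E) a w
  have h2 : ∀ f : F[X], aeval (y : Matrix ι ι F) f = 0 ↔ X ^ Fintype.card ι - 1 ∣ f := fun f => by
    rw [← hE, ← FiniteField.minpoly_frobeniusAlgHom, minpoly.dvd_iff, h1.aeval_eq_zero_iff,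
      ← toLin'_aeval, LinearEquiv.map_eq_zero_iff]
  have h3 : (X ^ Fintype.card ι - 1 : F[X]).natDegree = Fintype.card ι := natDegree_X_pow_sub_C
  refine ⟨y, hy, by simpa [sub_eq_zero] using (h2 _).mpr dvd_rfl, fun z hz => ?_, ?_⟩
  · have := natDegree_le_of_dvd ((h2 (X - C z)).mp (by
      simp [hz, Algebra.algebraMap_eq_smul_one])) (X_sub_C_ne_zero z)
    rw [h3, natDegree_X_sub_C] at this
    omega
  · rw [Matrix.det_eq_sign_charpoly_coeff, eq_of_monic_of_dvd_of_natDegree_le
      (monic_X_pow_sub_C 1 Fintype.card_ne_zero) (Matrix.charpoly_monic _)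
      ((h2 _).mp (Matrix.aeval_self_charpoly _))
      (by rw [Matrix.charpoly_natDegree_eq_dim, natDegree_X_pow_sub_C])]
    simp [pow_succ, coeff_X_pow, (Fintype.card_ne_zero (α := ι)).symm]

omit [Fintype F] in
theorem ExE.not_allC_nrm {r d c : ℕ} (h : ExE r d c ι F) (hK : Geo.IsFieldSubalgebra k K)
    (h1 : ¬ k ∣ d) (h2 : 2 * d < Fintype.card ι) : ¬ AllC r (Geo.subalgebraNormalizer K) := by
  have : Nonempty ι := Fintype.card_pos_iff.mp (by omega)
  refine h.not_allC scalarGL_mem_nrm fun y hy _ h3 _ _ => ?_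
  rcases finrank_fixed_of_mem_normalizer hK hy with h4 | h4
  · exact h1 ((Nat.dvd_add_right h4).mp (h3 ▸ IsFieldSubalgebra.dvd_card hK))
  · rw [fixd] at h3
    omega

include p in
theorem allC_two_nrm (hK : Geo.IsFieldSubalgebra 2 K) (hn : 2 ≤ Fintype.card ι) :
    AllC 2 (Geo.subalgebraNormalizer K) ↔ Fintype.card ι = 2 ∨ (Odd (Fintype.card F) ∧
      padicValNat 2 (Fintype.card F - 1) ≤ padicValNat 2 (Fintype.card ι)) := by
  have : Nonempty ι := Fintype.card_pos_iff.mp (by omega)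
  by_cases hp2 : 2 = p
  · subst hp2
    rw [or_iff_left fun e => not_odd_of_two_eq_zero (CharP.cast_eq_zero F 2) e.1]
    refine ⟨fun hC => by_contra fun e => (exE_transv 2 hn).not_allC_nrm hK (by decide) (by omega) hC,
      fun e => allC_two_of_char_two scalarGL_mem_nrm fun y hy h1 => ?_⟩
    obtain ⟨y', hy', h2, h3, -⟩ := exists_frob_nrm (e ▸ hK) hn
    refine ⟨y', hy', isConj_iff_elDivM.mpr ?_⟩
    rw [elDivM_regular_unipotent' ((isNilpotent_sub_one_iff _).mpr fun b hb => (hy b hb).1)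
      (by simpa [e, sub_eq_zero] using h1), elDivM_regular_unipotent' ⟨2, by
        rw [sub_pow_char_of_commute 2 (Commute.one_right _), one_pow, ← e, h2, sub_self]⟩
      (by simpa [e, sub_eq_zero] using h3 1)]
  have h2 := two_ne_zero_of_ne_char (F := F) p hp2
  have ho := odd_card_of_two_ne_zero h2
  rw [and_iff_right ho]
  refine ⟨fun hC => by_contra fun e => ?_, fun h => ?_⟩
  · rw [not_or, not_le] at e
    obtain ⟨a, ha⟩ := exists_pow_eq_neg_one (F := F) (by omega) e.2
    exact (exE_one two_ne_zero hn (θ := -1) (a := a) (by simp)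
      (fun e => h2 (by linear_combination -e)) (by simp [ha])).not_allC_nrm hK (by decide)
      (by omega) hC
  obtain ⟨m, hm⟩ := IsFieldSubalgebra.dvd_card hK
  obtain ⟨E, _, _, _, hE, hM⟩ := exists_ext_model hK
  replace hM := hM (Fin m → E) (by simp [Module.finrank_pi_fintype, hE, hm, mul_comm]) AlgEquiv.refl
  refine allC_of_ss p hp2 scalarGL_mem_nrm (fun y a ha hy h1 => ?_) fun z j hz _ _ _ => ?_
  · rcases h with h | h
    · obtain ⟨y', hy', h3, h4, -⟩ := exists_frob_nrm (h ▸ hK) hn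
      exact ⟨y', hy', isConj_iff_elDivM.mpr (by
        rw [elDivM_of_sq_two p hp2 h hy h1, elDivM_of_sq_two p hp2 h (h ▸ h3) h4])⟩
    obtain ⟨d, hd, h3⟩ := exists_half p hp2 hy (det_eq_one_of_two ha hy (by omega) h) hm
    obtain ⟨y', hy', h4⟩ := hM (piEnd fun i => d i • 1)
      (fun u v e => funext fun i => by simpa [hd i] using congrFun e i)
      fun a w => funext fun i => by simp
    refine ⟨y', hy', isConj_of_sim ?_ h4⟩
    rw [elDiv_piEnd, h3, Finset.smul_sum]
    simp only [elDiv_smul_one_eq, hE]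
  · have : Finite E := Module.finite_of_finite F
    have := Fintype.ofFinite E
    obtain ⟨t, ht⟩ := ho
    obtain ⟨s, hs⟩ := isSquare_of_pow_eq_one (F := E)
      (by rw [← map_ofNat (algebraMap F E)]; exact (_root_.map_ne_zero _).mpr h2)
      (c := algebraMap F E z) (m := 2 * t * (t + 1)) (by
        rw [Module.card_eq_pow_finrank (K := F), hE, ht]
        exact Nat.sub_eq_of_eq_add (by ring)) (by
        rw [pow_mul, ← map_pow, show 2 * t = Fintype.card F - 1 by omega,
          FiniteField.pow_card_sub_one_eq_one z hz, map_one, one_pow])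
    have hg : (DistribSMul.toLinearMap F (Fin m → E) s) ^ 2 = z • 1 :=
      LinearMap.ext fun w => by simp [sq, smul_smul, ← hs, ← algebraMap_smul E z]
    obtain ⟨y', hy', h4⟩ := hM _ (injective_of_pow_eq_smul two_ne_zero hz hg)
      fun a w => smul_comm s a w
    exact ⟨y', hy', pow_eq_of_sim h4 hg⟩

include p in
theorem allC_nrm_of_orderOf (hK : Geo.IsFieldSubalgebra r K) (hn : Fintype.card ι = r)
    (hrp : r ≠ p) (hr2 : r ≠ 2) (hi : orderOf (Fintype.card F : ZMod r) = r - 1) :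
    AllC r (Geo.subalgebraNormalizer K) := by
  have h2 := (Fact.out : r.Prime).two_le
  have : Nonempty ι := Fintype.card_pos_iff.mp (by omega)
  obtain ⟨y', hy', h3, h4, -⟩ := exists_frob_nrm (hn ▸ hK) (by omega)
  refine allC_of_ss p hrp scalarGL_mem_nrm (fun y a _ hy h1 => ⟨y', hy',
    isConj_of_orderOf_eq p hrp hr2 hi hn hy (by simpa using h1 1) (hn ▸ h3)
      (by simpa using h4 1)⟩) fun z j hz hb hj h5 => ?_
  have := (not_splitCond_of_not_pow p hrp hz hb (by rintro rfl; omega) h5).1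
  omega

include p in
theorem allC_singer (hK : Geo.IsFieldSubalgebra r K) (hn : Fintype.card ι = r) (hr : 3 < r)
    (hrp : r ≠ p) :
    AllC r (Geo.subalgebraNormalizer K) ↔ orderOf (Fintype.card F : ZMod r) = r - 1 := by
  refine ⟨fun hC => by_contra fun e => ?_, allC_nrm_of_orderOf p hK hn hrp (by omega)⟩
  have hp : r.Prime := Fact.out
  have h4 : r ≠ 4 := by rintro rfl; exact absurd hp (by decide)
  by_cases hi : orderOf (Fintype.card F : ZMod r) = 1
  · exact (exE_two (by omega) (orderOf_card_eq_one_iff.mp hi) (by omega)).not_allC_nrm hK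
      (fun h => by have := Nat.le_of_dvd two_pos h; omega) (by omega) hC
  obtain ⟨t, ht⟩ := orderOf_dvd_of_pow_eq_one (ZMod.pow_card_sub_one_eq_one
    (a := (Fintype.card F : ZMod r)) fun h => not_dvd_card (F := F) p hrp 1
      (by rwa [pow_one, ← ZMod.natCast_eq_zero_iff]))
  have h1 : 2 ≤ t := by
    rcases t with _ | _ | t <;> omega
  have h2 := Nat.mul_le_mul_left (orderOf (Fintype.card F : ZMod r)) h1
  exact (exE_orbit p hrp hi (by omega)).not_allC_nrm hK (fun h => by
    have := Nat.le_of_dvd (Nat.pos_of_ne_zero fun e => by simp [e] at ht; omega) h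
    omega) (by omega) hC

include p in
theorem allC_singer_three (hK : Geo.IsFieldSubalgebra 3 K) (hn : Fintype.card ι = 3)
    (hΩ : 3 ∣ (Geo.subalgebraNormalizer K).relIndex (Geo.specialLinear ι F)) :
    AllC 3 (Geo.subalgebraNormalizer K) ↔
      Fintype.card F % 9 = 4 ∨ Fintype.card F % 9 = 7 ∨ Fintype.card F % 9 = 8 := by
  have : Nonempty ι := Fintype.card_pos_iff.mp (by omega)
  have hq := Fintype.one_lt_card (α := F)
  by_cases hp : 3 = p
  · subst hp
    obtain ⟨n, -, h⟩ := FiniteField.card F 3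
    have : 3 ∣ Fintype.card F := h ▸ dvd_pow_self 3 n.ne_zero
    exact iff_of_false ((exE_transv 3 (by omega)).not_allC_nrm hK (by decide) (by omega)) (by omega)
  have h0 := not_dvd_card (F := F) p hp 1
  rw [pow_one] at h0
  obtain ⟨y', hy', h3, h4, h5⟩ := exists_frob_nrm (hn ▸ hK) (by omega)
  rw [hn] at h3 h5
  by_cases h1 : 3 ∣ Fintype.card F - 1
  · obtain ⟨ζ, hζ⟩ := exists_primitiveRoot h1
    by_cases h9 : 3 ^ 2 ∣ Fintype.card F - 1
    · obtain ⟨a, ha⟩ := exists_pow_eq_of_pow_eq_one (r := 3) (j := 3)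
        (c := (Units.mk0 ζ (hζ.ne_zero (by decide)))⁻¹) (by decide)
        (Units.ext (by simp [hζ.pow_eq_one])) (by
          rw [card_units_eq, padicValNat_self]
          exact (padicValNat_dvd_iff_le (by omega)).mp h9)
      refine iff_of_false ((exE_one (θ := ζ) (a := a) (by decide) (by omega) hζ.pow_eq_one
        (hζ.ne_one (by decide)) ?_).not_allC_nrm hK (by decide) (by omega)) (by omega)
      rw [hn, ← Units.val_pow_eq_pow_val, ha]
      simp [hζ.ne_zero]
    refine iff_of_true (allC_of_ss p hp scalarGL_mem_nrm (fun y a ha hy h6 => ⟨y', hy', ?_⟩)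
      fun z j _ hb hj h7 => ?_) (by omega)
    · have h7 : a ^ 3 ^ 1 = 1 := pow_eq_one_of_padicValNat (j := 2) (by
        have := congrArg (· ^ 3) ha
        simp only [mul_pow, ← Matrix.det_pow, hy, Matrix.det_one, mul_one, one_pow, hn] at this
        rwa [sq, pow_mul]) (Nat.lt_succ_iff.mp (lt_of_not_ge fun e =>
          h9 ((padicValNat_dvd_iff_le (by omega)).mpr e)))
      rw [hn, ← pow_one 3, h7, one_mul] at ha
      rw [isConj_iff_elDivM, elDivM_of_cube_three p hp hζ h1 hn hy ha h6,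
        elDivM_of_cube_three p hp hζ h1 hn h3 (h5.trans (by norm_num)) h4]
    · obtain rfl : j = 1 := by omega
      exact absurd (by rw [one_pow, ← h7]; ring) (hb 1)
  have h2 : Fintype.card F % 3 = 2 := by omega
  refine iff_of_true (allC_nrm_of_orderOf p hK hn hp (by decide) ?_) ?_
  · rw [← ZMod.natCast_mod, h2]
    exact orderOf_eq_prime (p := 2) (by decide) (by decide)
  let s : Matrix.SpecialLinearGroup ι F := ⟨y', h5.trans (by norm_num)⟩
  have h6 : orderOf s = 3 := orderOf_eq_prime (Subtype.ext (by simpa using h3))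
    fun e => h4 1 ((congrArg Subtype.val e).trans (one_smul _ _).symm)
  rw [← index_comap_toGL] at hΩ
  have h7 := mul_dvd_mul hΩ (h6 ▸ Subgroup.orderOf_dvd_natCard
    ((Geo.subalgebraNormalizer K).comap
      (Matrix.SpecialLinearGroup.toGL : Matrix.SpecialLinearGroup ι F →* GL ι F)) (x := s)
    (by rw [Subgroup.mem_comap]; convert hy'; exact Units.ext rfl))
  rw [Subgroup.index_mul_card, card_SL_eq_range, hn, ← ZMod.natCast_eq_zero_iff] at h7
  simp only [Finset.prod_range_succ, Finset.prod_range_zero, Nat.cast_mul, Nat.cast_pow,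
    Nat.cast_sub (Nat.one_le_pow _ _ hq.le), Nat.cast_one] at h7
  rw [← ZMod.natCast_mod] at h7
  by_contra e
  obtain h8 | h8 : Fintype.card F % (3 * 3) = 2 ∨ Fintype.card F % (3 * 3) = 5 := by omega
  all_goals
    rw [h8] at h7
    exact absurd h7 (by decide)

end Ext

end Cfsg.Lib.Known
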