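import Mathlib
import Cfsg.Agent.Known.ElusX7
import Cfsg.Agent.Class.Asch.Tensor

/-!
Elements of prime order of `PSL_n(q)` and the stabilisers of tensor decompositions.
-/

set_option autoImplicit false
set_option linter.unusedSectionVars false

open Polynomial Module Matrix Cfsg.Lib.Class Cfsg.Lib.Class.Asch
open scoped MatrixGroups Kronecker

universe u

namespace Cfsg.Lib.Known

variable {F : Type u} [Field F] {ι α β : Type} [Fintype ι] [DecidableEq ι] [Fintype α]
  [DecidableEq α] [Fintype β] [DecidableEq β]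

theorem elDivM_tr (e : ι ≃ α) (P : GL ι F) (A : Matrix α α F) : elDivM (tr e P A) = elDivM A := by
  rw [tr_apply, cj_apply, elDivM_conj, elDivM_submatrix]

theorem elDivM_one_kronecker (B : Matrix β β F) :
    elDivM ((1 : Matrix α α F) ⊗ₖ B) = Fintype.card α • elDivM B := by
  rw [show (1 : Matrix α α F) ⊗ₖ B = (Matrix.blockDiagonal' fun _ : α => B).submatrix
      (Equiv.sigmaEquivProd α β).symm (Equiv.sigmaEquivProd α β).symm from by
    ext ⟨i, k⟩ ⟨j, l⟩
    by_cases h : i = j
    · subst h; simp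
    · simp [h, Matrix.blockDiagonal'_apply_ne _ _ _ h], elDivM_submatrix, elDivM_blockDiagonal']
  simp

theorem scalar_of_fixd {A : Matrix α α F} {B : Matrix β β F}
    (h : Fintype.card α * Fintype.card β < fixd (A ⊗ₖ B) + Fintype.card β) :
    ∃ c : F, A = c • 1 := by
  by_contra hA
  obtain ⟨v, hv⟩ : ∃ v, LinearIndependent F ![v, Matrix.toLin' A v] := by
    by_contra! h1
    obtain ⟨c, hc⟩ := LinearMap.exists_eq_smul_id_of_forall_notLinearIndependent h1
    exact hA ⟨c, Matrix.toLin'.injective (by rw [hc, map_smul, Matrix.toLin'_one]; rfl)⟩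
  let L : (β → F) →ₗ[F] (α × β → F) :=
    ⟨⟨ptv v, fun x y => funext fun _ => mul_add _ _ _⟩, fun c x => funext fun _ => by
      simp [ptv, mul_left_comm]⟩
  have hL : Function.Injective L := (injective_iff_map_eq_zero L).mpr fun w hw =>
    by_contra fun h0 => ptv_ne_zero (hv.ne_zero 0) h0 hw
  have h1 := Submodule.finrank_add_finrank_le_of_disjoint
    (s := LinearMap.ker (Matrix.toLin' (A ⊗ₖ B) - 1)) (t := LinearMap.range L) (by
      rw [Submodule.disjoint_def]
      rintro _ hw ⟨w, rfl⟩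
      have h2 : ptv (A *ᵥ v) (B *ᵥ w) = ptv v w := by
        rw [← kronecker_mulVec_ptv]
        exact sub_eq_zero.mp hw
      rw [show w = 0 from funext fun j => (LinearIndependent.pair_iff.mp hv (w j) (-(B *ᵥ w) j)
        (funext fun i => by
          have := congrFun h2 (i, j)
          simp only [ptv] at this
          simp [← this, mul_comm (w j), mul_comm ((B *ᵥ w) j)])).1, map_zero])
  rw [LinearMap.finrank_range_of_inj hL] at h1
  simp only [Module.finrank_fintype_fun_eq_card, Fintype.card_prod] at h1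
  exact absurd h (not_lt.mpr h1)

theorem kronecker_pow (A : Matrix α α F) (B : Matrix β β F) (k : ℕ) :
    (A ⊗ₖ B) ^ k = (A ^ k) ⊗ₖ (B ^ k) := by
  rw [← kL_mul_kR, ← kL_mul_kR, map_pow, map_pow, Commute.mul_pow (kL_comm_kR A B)]

variable [Fintype F] (p : ℕ) [Fact p.Prime] [CharP F p] {r : ℕ} [Fact r.Prime]

include p in
theorem scalar_of_kronecker_pow [Nonempty α] [Nonempty β] (hrp : r ≠ p)
    (hi : Fintype.card α < orderOf (Fintype.card F : ZMod r)) {A : GL α F} {B : Matrix β β F}
    (h : ((A : Matrix α α F) ⊗ₖ B) ^ r = 1) : ∃ c : F, (A : Matrix α α F) = c • 1 := by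
  rw [kronecker_pow] at h
  obtain ⟨c, hc⟩ := scalar_of_fixd (A := (A : Matrix α α F) ^ r) (B := B ^ r) (by
    rw [h, fixd, Matrix.toLin'_one, show (LinearMap.id - 1 : End F (α × β → F)) = 0 from
      sub_self _, LinearMap.ker_zero]
    simp [Fintype.card_pos])
  obtain ⟨d, hd⟩ := exists_pow_eq_of_not_dvd (C := Fˣ) (r := r) (by
    rw [card_units_eq, ← orderOf_card_eq_one_iff]
    have := Fintype.card_pos (α := α)
    omega) (Units.mk0 c (ne_zero_of_pow_eq_smul hc))
  obtain rfl : (d : F) ^ r = c := by simpa using congrArg Units.val hd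
  refine ⟨d, (pow_one _).symm.trans ((pow_eq_smul_one_iff _ _ _).mpr fun x hx => ?_)⟩
  obtain ⟨h0, h1, h2⟩ := isElDivs_elDivM _ x hx
  rcases mem_cases_of_dvd_pow p hrp d.ne_zero h0 h1 h2
    ((pow_eq_smul_one_iff _ _ _).mp hc x hx) with rfl | ⟨h3, h4⟩
  · simp
  · have := Multiset.le_sum_of_mem
      (Multiset.mem_map_of_mem (fun x : F[X] × ℕ => x.1.natDegree * x.2) hx)
    rw [← elDeg, elDeg_elDivM, h3, h4] at this
    omega

variable {a b : ℕ} (e : ι ≃ Fin a × Fin b) (P : GL ι F)

omit [Fintype F] in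
theorem scalarGL_mem_tens (c : Fˣ) : scalarGL ι c ∈ Geo.tensorProductSubgroup a b e P :=
  (mem_tensorProductSubgroup e P _).mpr ⟨scalarGL _ c, 1, by
    simp [coe_scalarGL, Matrix.smul_kronecker]⟩

include p in
theorem ExE.not_allC_tens {d c : ℕ} (h : ExE r d c ι F) (ha : 0 < a) (hb : 0 < b) (hc : ¬ a ∣ c)
    (hd : d < b ∨ (r ≠ p ∧ a < orderOf (Fintype.card F : ZMod r))) :
    ¬ AllC r (Geo.tensorProductSubgroup a b e P) := by
  classical
  have : Nonempty (Fin a) := ⟨⟨0, ha⟩⟩
  have : Nonempty (Fin b) := ⟨⟨0, hb⟩⟩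
  refine h.not_allC (scalarGL_mem_tens e P) fun y hy h1 h2 x h3 => hc ?_
  obtain ⟨g, g', hy⟩ := (mem_tensorProductSubgroup e P y).mp hy
  obtain ⟨z, hz⟩ : ∃ z : F, (g : Matrix (Fin a) (Fin a) F) = z • 1 := by
    rcases hd with hd | hd
    · rw [fixd_eq, hy, elDivM_tr, ← fixd_eq, Fintype.card_congr e, Fintype.card_prod] at h2
      exact scalar_of_fixd (B := (g' : Matrix (Fin b) (Fin b) F)) (by simp at h2 ⊢; omega)
    · rw [hy, ← map_pow, EmbeddingLike.map_eq_one_iff] at h1
      exact scalar_of_kronecker_pow p hd.1 (by simpa using hd.2) h1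
  rw [hy, elDivM_tr, hz, Matrix.smul_kronecker, ← Matrix.kronecker_smul, elDivM_one_kronecker,
    Multiset.count_nsmul, Fintype.card_fin] at h3
  exact ⟨_, h3.symm⟩

include p in
theorem allC_tens (ha : 2 ≤ a) (hab : a < b)
    (hΩ : r ∣ (Geo.tensorProductSubgroup a b e P).relIndex (Geo.specialLinear ι F)) :
    AllC r (Geo.tensorProductSubgroup a b e P) ↔ r = 2 ∧ a = 2 ∧ Odd (Fintype.card F) ∧
      padicValNat 2 (Fintype.card F - 1) ≤ padicValNat 2 (Fintype.card ι) := by
  have hp : r.Prime := Fact.out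
  have hn : Fintype.card ι = a * b := by simpa using Fintype.card_congr e
  have hn6 : 6 ≤ Fintype.card ι := hn ▸ Nat.mul_le_mul ha (show 3 ≤ b by omega)
  have : Nonempty ι := Fintype.card_pos_iff.mp (by omega)
  have h1 : ¬ a ∣ 1 := fun h => by have := Nat.le_of_dvd one_pos h; omega
  refine ⟨fun hC => by_contra fun hex => ?_, ?_⟩
  · by_cases hrp : r = p
    · subst hrp
      exact (exE_transv r (by omega)).not_allC_tens r e P (by omega) (by omega) h1
        (Or.inl (by omega)) hC
    by_cases hr2 : r = 2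
    · subst hr2
      have h2 := two_ne_zero_of_ne_char (F := F) p hrp
      by_cases ha2 : a = 2
      · obtain ⟨c, hc⟩ := exists_pow_eq_neg_one (F := F) (n := Fintype.card ι) (by omega)
          (lt_of_not_ge fun h => hex ⟨rfl, ha2, odd_card_of_two_ne_zero h2, h⟩)
        exact (exE_one two_ne_zero (by omega) (θ := -1) (a := c) (by simp)
          (fun e => h2 (by linear_combination -e)) (by simp [hc])).not_allC_tens p e P (by omega)
          (by omega) h1 (Or.inl (by omega)) hC
      · exact (exE_two_neg h2 (by omega)).not_allC_tens p e P (by omega) (by omega)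
          (fun h => by have := Nat.le_of_dvd two_pos h; omega) (Or.inl (by omega)) hC
    by_cases hi : orderOf (Fintype.card F : ZMod r) = 1
    · exact (exE_two hr2 (orderOf_card_eq_one_iff.mp hi) (by omega)).not_allC_tens p e P (by omega)
        (by omega) h1 (Or.inl (by omega)) hC
    rw [← index_comap_toGL] at hΩ
    have h2 := hΩ.trans (Subgroup.index_dvd_card _)
    rw [card_SL_eq_range] at h2
    obtain ⟨j, hj, h3⟩ := (Prime.dvd_finsetProd_iff hp.prime _).mp
      ((hp.dvd_mul.mp h2).resolve_left (not_dvd_card p hrp _))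
    rw [Finset.mem_range] at hj
    exact (exE_orbit p hrp hi ((orderOf_le_of_pow_eq_one (by omega)
      (zmod_pow_eq_one_of_dvd Fintype.card_pos h3)).trans (by omega))).not_allC_tens p e P
      (by omega) (by omega) h1 (by omega) hC
  rintro ⟨rfl, rfl, ho, hv⟩
  have hp2 : 2 ≠ p := two_ne_char p fun h => not_odd_of_two_eq_zero h ho
  refine allC_of_ss p hp2 (scalarGL_mem_tens e P) (fun y c hc hy _ => ?_) fun z j hz _ _ _ => ?_
  · obtain ⟨d, hd, h3⟩ := exists_half p hp2 hy (det_eq_one_of_two hc hy (by omega) hv) hn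
    obtain ⟨g, hg⟩ := exists_GL_dT (ι := Fin b) (Λ := Finset.univ.val.map d)
      (by simpa using hd) (by simp)
    refine ⟨trGL e P (Matrix.GeneralLinearGroup.kronecker 1 g),
      (mem_tensorProductSubgroup e P _).mpr ⟨1, g, rfl⟩, isConj_iff_elDivM.mpr ?_⟩
    rw [h3, coe_trGL, elDivM_tr, ← dT_univ, ← hg]
    exact ((elDivM_one_kronecker (α := Fin 2) _).trans (by simp)).symm
  · let g : GL (Fin 2) F := Matrix.GeneralLinearGroup.mkOfDetNeZero !![0, z; 1, 0] (by simp [hz])
    refine ⟨trGL e P (Matrix.GeneralLinearGroup.kronecker g 1),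
      (mem_tensorProductSubgroup e P _).mpr ⟨g, 1, rfl⟩, ?_⟩
    have : (g : Matrix (Fin 2) (Fin 2) F) ^ 2 = z • 1 := by
      ext i j
      fin_cases i <;> fin_cases j <;> simp [g, sq, Matrix.mul_apply, Fin.sum_univ_two]
    rw [coe_trGL, ← map_pow]
    change tr e P (((g : Matrix (Fin 2) (Fin 2) F) ⊗ₖ (1 : Matrix (Fin b) (Fin b) F)) ^ 2) = _
    rw [kronecker_pow, this, one_pow, Matrix.smul_kronecker, Matrix.one_kronecker_one, map_smul,
      map_one]

end Cfsg.Lib.Known
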