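import Mathlib
import Cfsg.Agent.Known.ElusX8
import Cfsg.Agent.Known.GL2Mat
import Cfsg.Agent.S3742

/-!
Elements of prime order modulo scalars and normalisers of finite subgroups: general lemmas and
the normaliser of `Q₈` in `GL₂(p)`.
-/

set_option autoImplicit false
set_option linter.unusedSectionVars false

open Polynomial Module Cfsg.Lib.Class.Asch
open scoped MatrixGroups

universe u

namespace Cfsg.Lib.Known

section General

variable {F : Type u} [Field F] {ι : Type} [Fintype ι] [DecidableEq ι]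

/-- Every element of `G` of order `r` modulo scalars is `G`-conjugate into `H`. -/
def AllG (r : ℕ) (G H : Subgroup (GL ι F)) : Prop :=
  ∀ x ∈ G, (∃ z : F, (x : Matrix ι ι F) ^ r = z • 1) →
    (∀ z : F, (x : Matrix ι ι F) ≠ z • 1) → ∃ g ∈ G, g⁻¹ * x * g ∈ H

theorem allG_iff (r : ℕ) (G H : Subgroup (GL ι F)) :
    (∀ x ∈ G, (∃ z : F, ((x ^ r : GL ι F) : Matrix ι ι F) = z • 1) →
      (∀ z : F, (x : Matrix ι ι F) ≠ z • 1) → ∃ g ∈ G, g⁻¹ * x * g ∈ H) ↔ AllG r G H := by
  simp only [AllG, Units.val_pow_eq_pow_val]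

theorem scalarGL_comm (c : Fˣ) (g : GL ι F) : scalarGL ι c * g = g * scalarGL ι c :=
  Units.ext (by simp)

theorem scalarGL_mem_normalizer (R : Subgroup (GL ι F)) (c : Fˣ) :
    scalarGL ι c ∈ Geo.subgroupNormalizer R := by
  rw [Geo.subgroupNormalizer, Subgroup.mem_normalizer_iff]
  intro h
  rw [scalarGL_comm, mul_inv_cancel_right]

instance : (scalarGL ι (F := F)).range.Normal :=
  ⟨by rintro _ ⟨c, rfl⟩ g; exact ⟨c, by rw [← scalarGL_comm, mul_inv_cancel_right]⟩⟩

theorem mem_range_scalarGL [Nonempty ι] {g : GL ι F} :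
    g ∈ (scalarGL ι (F := F)).range ↔ ∃ z : F, (g : Matrix ι ι F) = z • 1 := by
  constructor
  · rintro ⟨c, rfl⟩; exact ⟨c, coe_scalarGL c⟩
  · rintro ⟨z, hz⟩
    have h0 : z ≠ 0 := by
      rintro rfl
      have := g.det_ne_zero
      rw [hz, zero_smul, Matrix.det_zero] at this
      · exact this rfl
    exact ⟨Units.mk0 z h0, Units.ext (by rw [coe_scalarGL, hz]; rfl)⟩

theorem exists_of_dvd_relIndex [Finite F] [Nonempty ι] {G H : Subgroup (GL ι F)}
    (hs : ∀ c, scalarGL ι c ∈ H) {r : ℕ} [Fact r.Prime] (h : r ∣ H.relIndex G) :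
    ∃ x ∈ G, (∃ z : F, (x : Matrix ι ι F) ^ r = z • 1) ∧ ∀ z : F, (x : Matrix ι ι F) ≠ z • 1 := by
  have h1 : (scalarGL ι (F := F)).range ≤ H := by rintro _ ⟨c, rfl⟩; exact hs c
  have h2 := h.trans (Subgroup.relIndex_dvd_of_le_left G h1)
  obtain ⟨q, hq⟩ := exists_prime_orderOf_dvd_card'
    (G := G ⧸ (scalarGL ι (F := F)).range.subgroupOf G) r h2
  obtain ⟨x, rfl⟩ := QuotientGroup.mk_surjective q
  refine ⟨x, x.2, ?_, fun z hz => ?_⟩
  · have := pow_orderOf_eq_one (QuotientGroup.mk x : G ⧸ (scalarGL ι (F := F)).range.subgroupOf G)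
    rw [hq, ← QuotientGroup.mk_pow, QuotientGroup.eq_one_iff, Subgroup.mem_subgroupOf,
      mem_range_scalarGL] at this
    simpa using this
  · have : (QuotientGroup.mk x : G ⧸ (scalarGL ι (F := F)).range.subgroupOf G) = 1 := by
      rw [QuotientGroup.eq_one_iff, Subgroup.mem_subgroupOf, mem_range_scalarGL]
      exact ⟨z, hz⟩
    rw [this, orderOf_one] at hq
    exact (Fact.out : r.Prime).one_lt.ne hq

theorem scalar_of_coprime [Nonempty ι] {y : GL ι F} {m r : ℕ} (h : m.Coprime r)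
    (hm : ∃ z : F, (y : Matrix ι ι F) ^ m = z • 1) (hr : ∃ z : F, (y : Matrix ι ι F) ^ r = z • 1) :
    ∃ z : F, (y : Matrix ι ι F) = z • 1 := by
  rw [← Units.val_pow_eq_pow_val, ← mem_range_scalarGL, ← QuotientGroup.eq_one_iff,
    QuotientGroup.mk_pow] at hm hr
  rw [← mem_range_scalarGL, ← QuotientGroup.eq_one_iff, ← orderOf_eq_one_iff]
  exact Nat.eq_one_of_dvd_coprimes h (orderOf_dvd_of_pow_eq_one hm) (orderOf_dvd_of_pow_eq_one hr)

theorem conj_pow_scalar {x g : GL ι F} {r : ℕ} {z : F} (h : (x : Matrix ι ι F) ^ r = z • 1) :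
    ((g⁻¹ * x * g : GL ι F) : Matrix ι ι F) ^ r = z • 1 := by
  have : g⁻¹ * x * g = g⁻¹ * x * g⁻¹⁻¹ := by rw [inv_inv]
  rw [← Units.val_pow_eq_pow_val, this, conj_pow, inv_inv, Units.val_mul, Units.val_mul,
    Units.val_pow_eq_pow_val, h]
  simp

theorem conj_ne_scalar {x g : GL ι F} (h : ∀ z : F, (x : Matrix ι ι F) ≠ z • 1) (z : F) :
    ((g⁻¹ * x * g : GL ι F) : Matrix ι ι F) ≠ z • 1 := fun e => by
  have := conj_pow_scalar (g := g⁻¹) (r := 1) (x := g⁻¹ * x * g) (z := z) (by rwa [pow_one])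
  rw [pow_one, inv_inv] at this
  exact h z (by simpa [mul_assoc] using this)

/-- If no non-scalar element of `H ⊓ G` has scalar `r`-th power, `AllG` fails. -/
theorem not_allG_of_dvd [Finite F] [Nonempty ι] {G H : Subgroup (GL ι F)}
    (hs : ∀ c, scalarGL ι c ∈ H) {r : ℕ} [Fact r.Prime] (h : r ∣ H.relIndex G)
    (hH : ∀ y ∈ H, y ∈ G → (∃ z : F, (y : Matrix ι ι F) ^ r = z • 1) →
      ∃ z : F, (y : Matrix ι ι F) = z • 1) : ¬ AllG r G H := fun hA => by
  obtain ⟨x, hx, ⟨z, hz⟩, hn⟩ := exists_of_dvd_relIndex hs h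
  obtain ⟨g, hg, hgx⟩ := hA x hx ⟨z, hz⟩ hn
  obtain ⟨w, hw⟩ := hH _ hgx (G.mul_mem (G.mul_mem (G.inv_mem hg) hx) hg) ⟨z, conj_pow_scalar hz⟩
  exact conj_ne_scalar hn w hw

theorem allG_SL (r : ℕ) (H : Subgroup (GL ι F)) : AllG r (Geo.specialLinear ι F) H ↔ AllC r H := by
  simp only [AllG, AllC, mem_specialLinear_det]

theorem comm_of_coprime_aut {R : Subgroup (GL ι F)} {y : GL ι F}
    (hy : y ∈ Geo.subgroupNormalizer R) {r : ℕ} (hr : r.Coprime (Nat.card (MulAut R))) {z : F}
    (h : (y : Matrix ι ι F) ^ r = z • 1) {g : GL ι F} (hg : g ∈ R) : y * g = g * y := by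
  have h1 : (R.normalizerMonoidHom ⟨y, hy⟩) ^ r = 1 := by
    rw [← map_pow]
    ext x
    have : (y ^ r) * (x : GL ι F) = x * y ^ r := Units.ext (by simp [h])
    have e : (((R.normalizerMonoidHom (⟨y, hy⟩ ^ r)) x : R) : GL ι F) =
      y ^ r * x * (y ^ r)⁻¹ := rfl
    rw [e, this]; simp
  have h2 : R.normalizerMonoidHom ⟨y, hy⟩ = 1 := by
    rw [← orderOf_eq_one_iff]
    exact Nat.eq_one_of_dvd_coprimes hr (orderOf_dvd_of_pow_eq_one h1) (orderOf_dvd_natCard _)
  have e : (((R.normalizerMonoidHom ⟨y, hy⟩) ⟨g, hg⟩ : R) : GL ι F) = y * g * y⁻¹ := rfl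
  rw [h2] at e
  exact (eq_mul_inv_iff_mul_eq.mp e).symm

end General

section Q8

variable {F : Type u} [Field F] [Fintype F] (p : ℕ) [Fact p.Prime] [CharP F p]

include p in
theorem exists_quat (hp : 2 ≠ p) {R : Subgroup (GL (Fin 2) F)} (e : R ≃* QuaternionGroup 2) :
    ∃ I ∈ R, ∃ J ∈ R, (I : GL2.M2 F) * I = -1 ∧ (J : GL2.M2 F) * J = -1 ∧
      (I : GL2.M2 F) * J = -(J * I) ∧ ∀ h : GL (Fin 2) F, h * I * h⁻¹ ∈ R → h * J * h⁻¹ ∈ R →
        h ∈ Geo.subgroupNormalizer R := by
  let φ : QuaternionGroup 2 →* GL (Fin 2) F := R.subtype.comp e.symm.toMonoidHom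
  have hφ : Function.Injective φ := R.subtype_injective.comp e.symm.injective
  have hm : ∀ q, φ q ∈ R := fun q => (e.symm q).2
  have hc : ((φ (.a 2) : GL (Fin 2) F) : GL2.M2 F) = -1 := by
    have h2 : ((φ (.a 2) : GL (Fin 2) F) : GL2.M2 F) ^ 2 = 1 := by
      rw [← Units.val_pow_eq_pow_val, ← map_pow,
        show (QuaternionGroup.a 2 : QuaternionGroup 2) ^ 2 = 1 by decide, map_one, Units.val_one]
    have hd : ((φ (.a 2) : GL (Fin 2) F) : GL2.M2 F).det = 1 := by
      have : (QuaternionGroup.a 2 : QuaternionGroup 2) * (.xa 0 * .a 1) = .a 1 * .xa 0 := by decide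
      have h3 := congrArg (Matrix.GeneralLinearGroup.det.comp φ) this
      rw [map_mul, map_mul, map_mul, mul_comm ((Matrix.GeneralLinearGroup.det.comp φ) (.a 1)),
        mul_eq_right] at h3
      exact congrArg Units.val h3
    by_cases hs : ∀ z : F, ((φ (.a 2) : GL (Fin 2) F) : GL2.M2 F) ≠ z • 1
    · have := det_of_dT (elDivM_of_sq_two p hp (by simp) h2 hs)
      rw [hd] at this
      exact absurd (by simp at this; linear_combination this) (two_ne_zero_of_ne_char p hp)
    · push Not at hs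
      obtain ⟨z, hz⟩ := hs
      rw [hz, _root_.smul_pow, one_pow] at h2
      have h4 : z ^ 2 = 1 := by simpa using congrFun (congrFun h2 0) 0
      rcases sq_eq_one_iff.mp h4 with rfl | rfl
      · rw [one_smul] at hz
        have : φ (.a 2) = φ 1 := by rw [map_one]; exact Units.ext hz
        exact absurd (hφ this) (by decide)
      · rw [hz]; simp
  refine ⟨φ (.a 1), hm _, φ (.xa 0), hm _, ?_, ?_, ?_, fun h h1 h2 => ?_⟩
  · rw [← Units.val_mul, ← map_mul, ← hc]; rfl
  · rw [← Units.val_mul, ← map_mul, ← hc]; rfl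
  · rw [← neg_one_mul, ← hc, ← Units.val_mul, ← Units.val_mul, ← Units.val_mul, ← map_mul,
      ← map_mul, ← map_mul]
    rfl
  · refine Subgroup.mem_normalizer_fintype fun n hn => ?_
    have : n = φ (e ⟨n, hn⟩) := by simp [φ]
    rw [this]
    have ha : ∀ k : ZMod (2 * 2), h * φ (.a k) * h⁻¹ ∈ R := fun k => by
      rw [← ZMod.natCast_zmod_val k, ← QuaternionGroup.a_one_pow, map_pow, ← conj_pow]
      exact R.pow_mem h1 _
    rcases e ⟨n, hn⟩ with k | k
    · exact ha k
    · have := R.mul_mem h2 (ha k)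
      rw [conj_mul, ← map_mul] at this
      simpa using this

theorem isConj_of_trace_det {A B : GL2.M2 F} (hA : ∀ z : F, A ≠ z • 1) (hB : ∀ z : F, B ≠ z • 1)
    (ht : A.trace = B.trace) (hd : A.det = B.det) : IsConj A B := by
  obtain ⟨x, hx, h⟩ := GL2.exists_conj (m := A) (n := B)
    (fun h => by obtain ⟨z, hz⟩ := GL2.isScal_iff_eq_smul.mp h; exact hA z hz)
    (fun h => by obtain ⟨z, hz⟩ := GL2.isScal_iff_eq_smul.mp h; exact hB z hz) ht hd
  exact ⟨Matrix.GeneralLinearGroup.mkOfDetNeZero x hx, h⟩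

theorem trace_det_of_sq {A : GL2.M2 F} (hA : ∀ z : F, A ≠ z • 1) {t d : F}
    (h : A * A = t • A - d • 1) : A.trace = t ∧ A.det = d := by
  have hs : ¬ GL2.IsScal A := fun h => by
    obtain ⟨z, hz⟩ := GL2.isScal_iff_eq_smul.mp h; exact hA z hz
  have := GL2.smul_add_inj hs (a := -A.det) (b := A.trace) (a' := -d) (b' := t) (by
    rw [neg_smul, neg_smul, neg_add_eq_sub, neg_add_eq_sub, ← h, GL2.mul_self_eq])
  exact ⟨this.2, neg_injective this.1⟩

theorem allC_quat (hF : Fintype.card F = p) (hp : 5 ≤ p) {R : Subgroup (GL (Fin 2) F)}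
    (e : R ≃* QuaternionGroup 2) {r : ℕ} [Fact r.Prime]
    (hΩ : r ∣ (Geo.subgroupNormalizer R).relIndex (Geo.specialLinear (Fin 2) F)) :
    AllC r (Geo.subgroupNormalizer R) ↔ r = 2 ∨ r = 3 := by
  have hp2 : 2 ≠ p := by omega
  have h2 : (2 : F) ≠ 0 := two_ne_zero_of_ne_char p hp2
  obtain ⟨I, hI, J, hJ, hII, hJJ, hIJ, hN⟩ := exists_quat p hp2 e
  have hIJ0 : ∀ b : F, b • ((I : GL2.M2 F) * J) = b • ((J : GL2.M2 F) * I) → b = 0 := fun b hb => by
    rw [hIJ, smul_neg, neg_eq_iff_add_eq_zero, ← add_smul, smul_eq_zero] at hb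
    rcases hb with hb | hb
    · exact (mul_eq_zero.mp (by linear_combination hb : 2 * b = 0)).resolve_left h2
    · exact absurd hb (J * I).ne_zero
  have hIn : ∀ z : F, (I : GL2.M2 F) ≠ z • 1 := fun z hz =>
    one_ne_zero (hIJ0 1 (by rw [hz]; simp))
  constructor
  · intro hA
    by_contra hr
    push Not at hr
    refine not_allG_of_dvd (scalarGL_mem_normalizer R) hΩ (fun y hy _ ⟨z, hz⟩ => ?_)
      ((allG_SL _ _).mpr hA)
    have hc : r.Coprime (Nat.card (MulAut R)) := by
      obtain ⟨f⟩ := Cfsg.Agent.S3742.result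
      rw [Nat.card_congr ((MulAut.congr e).trans f).toEquiv, Nat.card_eq_fintype_card,
        Fintype.card_perm, Fintype.card_fin, show (4 : ℕ).factorial = 2 ^ 3 * 3 by decide]
      exact Nat.Coprime.mul_right
        (Nat.Coprime.pow_right _ ((Nat.coprime_primes Fact.out Nat.prime_two).mpr hr.1))
        ((Nat.coprime_primes Fact.out Nat.prime_three).mpr hr.2)
    have c1 := congrArg Units.val (comm_of_coprime_aut hy hc hz hI)
    have c2 := congrArg Units.val (comm_of_coprime_aut hy hc hz hJ)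
    simp only [Units.val_mul] at c1 c2
    obtain ⟨a, b, hab⟩ := (GL2.commute_iff (fun h => by
      obtain ⟨z, hz⟩ := GL2.isScal_iff_eq_smul.mp h; exact hIn z hz) _).mp c1
    rw [hab] at c2
    simp only [add_mul, mul_add, smul_mul_assoc, mul_smul_comm, one_mul, mul_one,
      add_right_inj] at c2
    exact ⟨a, by rw [hab, hIJ0 b c2, zero_smul, add_zero]⟩
  · rintro (rfl | rfl)
    · refine allC_of_ss p hp2 (scalarGL_mem_normalizer R) (fun y a ha hy hn => ?_)
        (fun z j _ _ hj hz => ?_)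
      · have h1 := elDivM_of_sq_two p hp2 (by simp) hy hn
        rw [det_of_dT h1] at ha
        have ha2 : a ^ 2 = -1 := by simp at ha; linear_combination -ha
        have ha0 : a ≠ 0 := by rintro rfl; simp at ha2
        refine ⟨scalarGL _ (Units.mk0 a ha0) * I, (Geo.subgroupNormalizer R).mul_mem
          (scalarGL_mem_normalizer R _) (Subgroup.le_normalizer hI), ?_⟩
        rw [isConj_iff_elDivM, h1, coe_scalarGL_mul, elDivM_of_sq_two p hp2 (by simp)]
        · rw [_root_.smul_pow, Units.val_mk0, ha2, pow_two, hII]; simp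
        · intro z hz
          refine hIn (a⁻¹ * z) ?_
          rw [mul_smul, ← hz, Units.val_mk0, smul_smul, inv_mul_cancel₀ ha0, one_smul]
      · obtain rfl : j = 1 := by simp at hj; omega
        refine ⟨I, Subgroup.le_normalizer hI, ?_⟩
        rw [pow_two, hII, show z = -1 by linear_combination -hz]; simp
    · refine allC_of_ss p (by omega) (scalarGL_mem_normalizer R) (fun y a _ hy hn => ?_)
        (fun z j _ _ hj hz => ?_)
      · set w : GL2.M2 F := (-2⁻¹ : F) • (1 + I + J + I * J) with hw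
        have hJI : (J : GL2.M2 F) * I = -(I * J) := by rw [hIJ, neg_neg]
        have hIIJ : (I : GL2.M2 F) * (I * J) = -J := by rw [← mul_assoc, hII]; simp
        have hJIJ : (J : GL2.M2 F) * (I * J) = I := by
          rw [← mul_assoc, hJI, neg_mul, mul_assoc, hJJ]; simp
        have hIJI : (I : GL2.M2 F) * J * I = J := by rw [mul_assoc, hJI, mul_neg, hIIJ, neg_neg]
        have hIJJ : (I : GL2.M2 F) * J * J = -I := by rw [mul_assoc, hJJ]; simp
        have hKK : (I : GL2.M2 F) * J * (I * J) = -1 := by rw [mul_assoc, hJIJ, hII]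
        have hww : w * w = (-1 : F) • w - (1 : F) • 1 := by
          have h4 : (2⁻¹ : F) * 2 = 1 := inv_mul_cancel₀ h2
          simp only [hw, smul_mul_assoc, mul_smul_comm, add_mul, mul_add, one_mul, mul_one, hII,
            hJJ, hJI, hIIJ, hJIJ, hIJI, hIJJ, hKK]
          match_scalars <;> field_simp <;> ring
        have hwI : w * I = J * w := by
          simp only [hw, smul_mul_assoc, mul_smul_comm, add_mul, mul_add, one_mul, mul_one, hII,
            hJJ, hJI, hIIJ, hJIJ, hIJI, hIJJ, hKK]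
          module
        have hwJ : w * J = I * J * w := by
          simp only [hw, smul_mul_assoc, mul_smul_comm, add_mul, mul_add, one_mul, mul_one, hII,
            hJJ, hJI, hIIJ, hJIJ, hIJI, hIJJ, hKK]
          module
        have hw3 : w * (-w - 1) = 1 := by rw [mul_sub, mul_neg, hww]; simp
        let W : GL (Fin 2) F := ⟨w, -w - 1, hw3, mul_eq_one_comm.mp hw3⟩
        have hWI : W * I * W⁻¹ = J := by rw [mul_inv_eq_iff_eq_mul]; exact Units.ext hwI
        have hWJ : W * J * W⁻¹ = I * J := by rw [mul_inv_eq_iff_eq_mul]; exact Units.ext hwJ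
        have hW : W ∈ Geo.subgroupNormalizer R := hN W (hWI ▸ hJ) (hWJ ▸ R.mul_mem hI hJ)
        have hwn : ∀ z : F, w ≠ z • 1 := fun z hz => by
          have : W * I = I * W := Units.ext (by change w * _ = _ * w; rw [hz]; simp)
          rw [this, mul_inv_cancel_right] at hWI
          exact one_ne_zero (hIJ0 1 (by rw [hWI]))
        obtain ⟨t1, d1⟩ := trace_det_of_sq hwn hww
        set d := (y : GL2.M2 F).det with hd
        have hd0 : d ≠ 0 := y.det_ne_zero
        have hd3 : d ^ 3 = 1 := by rw [hd, ← Matrix.det_pow, hy, Matrix.det_one]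
        have hs : ¬ GL2.IsScal (y : GL2.M2 F) := fun h => by
          obtain ⟨z, hz⟩ := GL2.isScal_iff_eq_smul.mp h; exact hn z hz
        have h3 := GL2.smul_add_inj hs (a := -((y : GL2.M2 F).trace * d))
          (b := (y : GL2.M2 F).trace ^ 2 - d) (a' := 1) (b' := 0) (by
            rw [pow_succ, pow_two, GL2.mul_self_eq, sub_mul, smul_mul_assoc, GL2.mul_self_eq,
              ← hd, smul_mul_assoc, one_mul] at hy
            rw [zero_smul, add_zero, one_smul]
            refine Eq.trans ?_ hy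
            module)
        refine ⟨scalarGL _ (Units.mk0 d hd0)⁻¹ * W, (Geo.subgroupNormalizer R).mul_mem
          (scalarGL_mem_normalizer R _) hW, isConj_of_trace_det hn (fun z hz => hwn (d * z) ?_)
          ?_ ?_⟩
        · rw [coe_scalarGL_mul] at hz
          rw [mul_smul, ← hz, smul_smul]; simp [hd0, W]
        · rw [coe_scalarGL_mul, Matrix.trace_smul]
          change _ = _ • w.trace
          rw [t1, Units.val_inv_eq_inv_val, Units.val_mk0, smul_eq_mul]
          field_simp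
          linear_combination -h3.1
        · rw [coe_scalarGL_mul, Matrix.det_smul]
          change _ = _ * w.det
          rw [d1, Units.val_inv_eq_inv_val, Units.val_mk0, ← hd, Fintype.card_fin]
          field_simp
          linear_combination hd3
      · simp at hj; omega

end Q8

end Cfsg.Lib.Known
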