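import Mathlib
import Cfsg.Agent.Class.C6.SpSmall

/-!
Elements of prime order modulo scalars in the normaliser of a Pauli group on a space of
dimension four.
-/

set_option autoImplicit false
set_option linter.unusedSectionVars false

open Module

namespace Cfsg.Lib.Class.C6

variable {K V W : Type*} [Field K] [AddCommGroup V] [Module K V] [AddCommGroup W]
  [Module (ZMod 2) W]

namespace Pauli

variable (P : Pauli K V W) [FiniteDimensional K V] [Finite W]

theorem el_act_pow (g : P.N) {r : ℕ} {c : Kˣ} (h : g.1 ^ r = sc V c) : P.act g ^ r = 1 := by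
  rw [← map_pow, act_eq_one_iff, Subgroup.coe_pow, h]
  exact P.sc_mem_R c

theorem el_scalar (g : P.N) {r : ℕ} (hr : Odd r) {c : Kˣ} (h : g.1 ^ r = sc V c)
    (h2 : P.act g * P.act g = 1) : ∃ d, g.1 = sc V d := by
  obtain ⟨k, rfl⟩ := hr
  have h1 := P.el_act_pow g h
  rw [pow_succ, pow_mul, pow_two, h2, one_pow, one_mul, act_eq_one_iff] at h1
  obtain ⟨d, u, e⟩ := h1
  rw [pow_succ, pow_mul, pow_two] at h
  nth_rw 1 2 [e] at h
  rw [sc_mul_sc_mul, P.sq, mul_one, ← map_pow] at h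
  exact ⟨((d * d) ^ k)⁻¹ * c, by rw [map_mul, ← h, map_inv, inv_mul_cancel_left]⟩

theorem el_act_eq_one (hW : finrank (ZMod 2) W = 4) (g : P.N) {r : ℕ} (hr : r.Prime)
    (h2 : r ≠ 2) (h3 : r ≠ 3) (h5 : r ≠ 5) {c : Kˣ} (h : g.1 ^ r = sc V c) : P.act g = 1 := by
  have hc := card_SpB (B := P.β) (m := 2) (LinearMap.BilinForm.Nondegenerate.ofSeparatingLeft
    P.nondeg) P.alt hW
  have h1 := orderOf_dvd_natCard (⟨P.act g, P.β_act g⟩ : SpB P.β)
  rw [hc, ← Subgroup.orderOf_coe, show spOrd (Fintype.card (ZMod 2)) 2 = 2 ^ 4 * 3 ^ 2 * 5 by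
    simp [spOrd, Finset.prod_range_succ]] at h1
  refine orderOf_eq_one_iff.mp (Nat.eq_one_of_dvd_coprimes ?_
    (orderOf_dvd_of_pow_eq_one (P.el_act_pow g h)) h1)
  exact ((((Nat.coprime_primes hr Nat.prime_two).mpr h2).pow_right _).mul_right
    (((Nat.coprime_primes hr Nat.prime_three).mpr h3).pow_right _)).mul_right
    ((Nat.coprime_primes hr Nat.prime_five).mpr h5)

theorem el_rank_one (hW : finrank (ZMod 2) W = 4) (g : P.N) {a : V}
    (h : ∀ v, g.1 v - v ∈ K ∙ a) : P.act g * P.act g = 1 := by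
  by_cases ha : a = 0
  · have : g = 1 := Subtype.ext (LinearEquiv.ext fun v => sub_eq_zero.mp (by simpa [ha] using h v))
    rw [this, map_one, mul_one]
  have key : ∀ u, P.act g u + u ≠ 0 → ∃ ε, a ∈ P.Ve (P.act g u + u) ε := fun u hu => by
    obtain ⟨x, hx⟩ := P.act_spec g u
    obtain ⟨d, hd⟩ := P.mul (P.act g u) u
    have e : g.1 * P.ρ u * g.1⁻¹ * P.ρ u = sc V (sg K x * d) * P.ρ (P.act g u + u) := by
      rw [hx, mul_assoc, hd, ← mul_assoc, ← map_mul]
    have hL : ∀ v, (g.1 * P.ρ u * g.1⁻¹ * P.ρ u) v - v ∈ Submodule.span K {a, P.ρ u a} := by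
      intro v
      obtain ⟨l, hl⟩ := Submodule.mem_span_singleton.mp (h (g.1⁻¹ (P.ρ u v)))
      obtain ⟨m, hm⟩ := Submodule.mem_span_singleton.mp (h (P.ρ u (g.1⁻¹ (P.ρ u v))))
      refine Submodule.mem_span_pair.mpr ⟨m, -l, ?_⟩
      have h1 : g.1 (g.1⁻¹ (P.ρ u v)) = P.ρ u v := g.1.apply_symm_apply _
      have h2 := congrArg (P.ρ u) hl
      rw [h1, map_smul, map_sub, ρ_ρ] at h2
      rw [neg_smul, hm, h2]
      change _ = g.1 (P.ρ u (g.1⁻¹ (P.ρ u v))) - v
      abel
    obtain ⟨ε, hε⟩ : ∃ ε, ((sg K x * d : Kˣ) : K) * sg K ε - 1 ≠ 0 := by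
      by_contra! e
      have h0 := e 0
      have h1 := e 1
      simp only [sg_zero, sg_one, Units.val_one, Units.val_neg] at h0 h1
      exact P.two (by linear_combination -h0 - h1)
    have hle : P.Ve (P.act g u + u) ε ≤ Submodule.span K {a, P.ρ u a} := fun v hv => by
      have := hL v
      rw [e, LinearEquiv.mul_apply, P.mem_Ve.mp hv, sc_apply, smul_smul] at this
      nth_rw 2 [← one_smul K v] at this
      rwa [← sub_smul, Submodule.smul_mem_iff _ hε] at this
    refine ⟨ε, ?_⟩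
    rw [Submodule.eq_of_le_of_finrank_le hle]
    · exact Submodule.subset_span (by simp)
    · classical
      rw [P.finrank_Ve (m := 1) hW hu]
      refine (finrank_span_le_card _).trans ?_
      rw [Set.toFinset_insert, Set.toFinset_singleton]
      exact Finset.card_le_two
  have k2 : ∀ u w, P.β (P.act g u + u) (P.act g w + w) = 0 := fun u w => by
    by_cases hu : P.act g u + u = 0
    · rw [hu, β_zero_left]
    by_cases hw : P.act g w + w = 0
    · rw [hw, β_zero_right]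
    obtain ⟨ε, h1⟩ := key u hu
    obtain ⟨δ, h2⟩ := key w hw
    have := P.ρ_ρ_comm (P.act g u + u) (P.act g w + w) a
    rw [P.mem_Ve.mp h1, P.mem_Ve.mp h2, map_smul, map_smul, P.mem_Ve.mp h1, P.mem_Ve.mp h2,
      smul_comm ((sg K δ : Kˣ) : K)] at this
    nth_rw 1 [← one_smul K (((sg K ε : Kˣ) : K) • _)] at this
    have h3 := smul_left_injective K (smul_ne_zero (sg K ε).ne_zero
      (smul_ne_zero (sg K δ).ne_zero ha)) this
    exact sg_injective P.two (Units.ext (h3.symm.trans (by simp)))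
  refine LinearEquiv.ext fun w => P.eq_of_β fun z => ?_
  obtain ⟨u, rfl⟩ := (P.act g).surjective z
  have := k2 u w
  rw [β_add_left, β_add_right, β_add_right, β_act] at this
  rw [LinearEquiv.mul_apply, β_act, P.β_comm _ u, LinearEquiv.coe_one, id, P.β_comm w]
  linear_combination this - zmod2_add_self (P.β u w) - zmod2_add_self (P.β (P.act g u) w)

theorem el_sum_sg [Fintype W] {t : W} (ht : t ≠ 0) : ∑ u, ((sg K (P.β u t) : Kˣ) : K) = 0 := by
  obtain ⟨y, hy⟩ := P.exists_β_eq_one ht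
  refine eq_zero_of_eq_neg P.two ?_
  nth_rw 1 [← Equiv.sum_comp (Equiv.addRight y)]
  rw [← Finset.sum_neg_distrib]
  exact Finset.sum_congr rfl fun u _ => by
    simp [β_add_left, P.β_comm y, hy, sg_add]

theorem el_avg [Fintype W] (f : End K V) :
    ∑ u, (P.ρ u : End K V) * f * P.ρ u = ((Fintype.card W : K) * P.co 0 f) • 1 := by
  rw [← P.sum_co (∑ u, _), Finset.sum_eq_single 0 (fun t _ ht => ?_) (by simp), P.coe_zero]
  · simp [co_conj_ρ]
  · rw [map_sum]
    simp only [co_conj_ρ]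
    rw [← Finset.sum_mul, P.el_sum_sg ht, zero_mul, zero_smul]

theorem el_trace (hW : finrank (ZMod 2) W = 4) (g : P.N) {r : ℕ} (hr : Odd r) {c : Kˣ}
    (h : g.1 ^ r = sc V c) : LinearMap.trace K V g.1 * LinearMap.trace K V (g.1⁻¹ : V ≃ₗ[K] V) =
      Nat.card (Function.fixedPoints (P.act g)) := by
  classical
  have := Fintype.ofFinite W
  have h1 := congrArg (fun f => P.co 0 (f * ((g.1⁻¹ : V ≃ₗ[K] V) : End K V))) (P.el_avg g.1)
  have h4 : finrank K V = 4 := P.finrank_eq (m := 2) hW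
  have h16 : Fintype.card W = 16 := by rw [Module.card_eq_pow_finrank (K := ZMod 2), hW]; simp
  simp only [Finset.sum_mul, map_sum, smul_mul_assoc, one_mul, map_smul, smul_eq_mul] at h1
  rw [co_apply, co_apply, h4, h16, P.coe_zero, one_mul, one_mul] at h1
  have h2 : (4 : K) ≠ 0 := by
    rw [show (4 : K) = 2 * 2 by norm_num]; exact mul_ne_zero P.two P.two
  rw [Nat.card_eq_fintype_card, Fintype.card_subtype, Finset.natCast_card_filter]
  refine Eq.trans (by push_cast; field_simp; ring) (h1.symm.trans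
    (Finset.sum_congr rfl fun u _ => ?_))
  obtain ⟨x, hx⟩ := P.act_spec g u
  have e : P.co 0 ((P.ρ u : End K V) * g.1 * P.ρ u * ((g.1⁻¹ : V ≃ₗ[K] V) : End K V)) =
      sg K x * P.co u (P.ρ (P.act g u)) := by
    rw [mul_assoc, mul_assoc, ← mul_assoc (g.1 : End K V), ← coe_mul', ← coe_mul', hx, coe_sc_mul,
      mul_smul_comm, map_smul, co_apply, co_apply, P.coe_zero, one_mul, smul_eq_mul]
  rw [e]
  split_ifs with hu
  · rw [Function.mem_fixedPoints_iff] at hu
    rw [hu] at hx ⊢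
    have h3 : ∀ k : ℕ, g.1 ^ k * P.ρ u * (g.1 ^ k)⁻¹ = sc V (sg K x ^ k) * P.ρ u := fun k => by
      induction k with
      | zero => simp
      | succ k ih =>
        rw [pow_succ', mul_inv_rev, show g.1 * g.1 ^ k * P.ρ u * ((g.1 ^ k)⁻¹ * g.1⁻¹) =
          g.1 * (g.1 ^ k * P.ρ u * (g.1 ^ k)⁻¹) * g.1⁻¹ by group, ih, conj_sc_mul, hx,
          ← mul_assoc, ← map_mul, pow_succ]
    have h5 := h3 r
    rw [h, ← sc_comm, mul_inv_cancel_right] at h5
    have h6 := (P.eq_of_sc_ρ (c := 1) (d := sg K x ^ r) (by rw [map_one, one_mul]; exact h5)).2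
    obtain ⟨k, rfl⟩ := hr
    rw [pow_succ, pow_mul, pow_two, sg_mul_self, one_pow, one_mul] at h6
    rw [← h6, co_self]; simp
  · rw [P.co_of_ne fun e => hu e.symm, mul_zero]

theorem el_card_fix (hW : finrank (ZMod 2) W = 4) {S : W ≃ₗ[ZMod 2] W} {r : ℕ} (hr : r.Prime)
    (h : S ^ r = 1) (h1 : S ≠ 1) : Nat.card (Function.fixedPoints S) ∣ 8 ∧
      16 ≡ Nat.card (Function.fixedPoints S) [MOD r] := by
  classical
  have := Fintype.ofFinite W
  have := Fact.mk hr
  have h16 : Fintype.card W = 16 := by rw [Module.card_eq_pow_finrank (K := ZMod 2), hW]; simp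
  refine ⟨?_, ?_⟩
  · let U := LinearMap.eqLocus (S : W →ₗ[ZMod 2] W) LinearMap.id
    have e : Nat.card (Function.fixedPoints S) = 2 ^ finrank (ZMod 2) U := by
      rw [show Nat.card (Function.fixedPoints S) = Nat.card U from rfl, Nat.card_eq_fintype_card,
        Module.card_eq_pow_finrank (K := ZMod 2), ZMod.card]
    have h2 : finrank (ZMod 2) U < 4 := hW ▸ Submodule.finrank_lt fun e =>
      h1 (LinearEquiv.ext fun w => (e ▸ Submodule.mem_top : w ∈ U))
    rw [e]
    exact Nat.pow_dvd_pow 2 (n := 3) (by omega)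
  · rw [← h16, Nat.card_eq_fintype_card]
    convert Equiv.Perm.card_fixedPoints_modEq (f := (S : W → W)) (p := r) (n := 1) ?_
    rw [pow_one]
    funext w
    have : ∀ k : ℕ, (HPow.hPow (α := Function.End W) (S : W → W) k) w = (S ^ k) w := fun k => by
      induction k with
      | zero => rfl
      | succ k ih =>
        rw [pow_succ' S, LinearEquiv.mul_apply, ← ih]
        exact congrFun (pow_succ' (M := Function.End W) _ k) w
    rw [this, h]; rfl

theorem el_trace_five (hW : finrank (ZMod 2) W = 4) (g : P.N) {c : Kˣ} (h : g.1 ^ 5 = sc V c)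
    (hn : ∀ d, g.1 ≠ sc V d) :
    LinearMap.trace K V g.1 * LinearMap.trace K V (g.1⁻¹ : V ≃ₗ[K] V) = 1 := by
  obtain ⟨h1, h2⟩ := el_card_fix hW Nat.prime_five (P.el_act_pow g h) fun e => by
    obtain ⟨d, hd⟩ := P.el_scalar g (by decide) h (by rw [e, mul_one])
    exact hn d hd
  rw [P.el_trace hW g (by decide) h]
  have := Nat.le_of_dvd (by decide) h1
  generalize Nat.card (Function.fixedPoints (P.act g)) = n at *
  interval_cases n <;> simp_all (decide := true)

theorem el_trace_three (hW : finrank (ZMod 2) W = 4) (g : P.N) {c : Kˣ} (h : g.1 ^ 3 = sc V c)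
    (hn : ∀ d, g.1 ≠ sc V d) {q : W → ZMod 2} {u : Fin 5 → W} (ho : P.Ovoid q u)
    (hq : ∀ w, q (P.act g w) = q w) :
    LinearMap.trace K V g.1 * LinearMap.trace K V (g.1⁻¹ : V ≃ₗ[K] V) = 4 := by
  have h0 := P.el_act_pow g h
  obtain ⟨h1, h2⟩ := el_card_fix hW Nat.prime_three h0 fun e => by
    obtain ⟨d, hd⟩ := P.el_scalar g (by decide) h (by rw [e, mul_one])
    exact hn d hd
  rw [P.el_trace hW g (by decide) h]
  have hi : Function.Injective u := fun j k e => by
    by_contra hjk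
    have := ho.one j k hjk
    rw [e, P.alt] at this
    exact zero_ne_one this
  have : ∀ j, ∃ k, P.act g (u j) = u k := fun j =>
    (ho.of_q_zero ((hq _).trans (ho.zero j))).resolve_left (by simpa using ho.ne_zero j)
  choose f hf using this
  obtain ⟨j, hj⟩ : ∃ j, f j = j := by
    have h3 : ∀ j, f (f (f j)) = j := fun j => hi (by
      rw [← hf, ← hf, ← hf]
      simpa [pow_succ] using LinearEquiv.congr_fun h0 (u j))
    clear hf
    by_contra! e
    have := Equiv.Perm.card_fixedPoints_modEq (f := f) (p := 3) (n := 1) (funext h3)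
    rw [(Fintype.card_eq_zero_iff (α := Function.fixedPoints f)).mpr ⟨fun x => e x.1 x.2⟩] at this
    exact absurd this (by decide)
  have h3 : Nat.card (Function.fixedPoints (P.act g)) ≠ 1 := fun e =>
    ho.ne_zero j (congrArg Subtype.val ((Nat.card_eq_one_iff_unique.mp e).1.elim
      ⟨u j, by rw [Function.mem_fixedPoints_iff, hf, hj]⟩ ⟨0, map_zero _⟩))
  have := Nat.le_of_dvd (by decide) h1
  generalize Nat.card (Function.fixedPoints (P.act g)) = n at *
  interval_cases n <;> simp_all (decide := true)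

theorem el_exists_refl (hW : finrank (ZMod 2) W = 4) {X : Subgroup (V ≃ₗ[K] V)}
    (hs : ∀ u, P.s u ∈ X) (hi : sc V P.i ∈ X) :
    ∃ g ∈ X, g * g = 1 ∧ LinearEquiv.det g = -1 := by
  obtain ⟨x, hx⟩ := exists_ne_zero (m := 2) hW le_rfl
  obtain ⟨y, hy⟩ := P.exists_β_eq_one hx
  obtain ⟨e, f, h⟩ := P.exists_sBasis hW hy
  have he : e ≠ 0 := fun e0 => by simpa [e0] using h.ef
  have hxe : x + e ≠ 0 := fun e0 => by
    have := h.xf
    rw [add_eq_zero_iff'.mp e0, h.ef] at this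
    exact one_ne_zero this
  have c1 := P.commute_s_s h.xe
  have c2 : Commute (P.s x) (P.s (x + e)) := P.commute_s_s (by simp [P.alt, h.xe])
  have c3 : Commute (P.s e) (P.s (x + e)) := P.commute_s_s (by simp [P.alt, P.β_comm e, h.xe])
  obtain ⟨a, ha⟩ := P.mul_of_β_zero h.xe
  have h1 : P.s x * P.s e * P.s (x + e) * (P.s x * P.s e * P.s (x + e)) = sc V (sg K a) := by
    rw [(c2.mul_left c3).symm.mul_mul_mul_comm, c1.symm.mul_mul_mul_comm, s_mul_s, s_mul_s,
      s_mul_s, ha, mul_assoc, P.sq, mul_one]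
  have h2 : LinearEquiv.det (P.s x * P.s e * P.s (x + e)) = -1 := by
    rw [map_mul, map_mul, P.det_s (m := 1) hW hx, P.det_s (m := 1) hW he,
      P.det_s (m := 1) hW hxe, pow_one, pow_two, P.i_sq]
    simp
  have h3 := mul_mem (mul_mem (hs x) (hs e)) (hs (x + e))
  rcases zmod2_cases a with rfl | rfl
  · exact ⟨_, h3, by rw [h1, sg_zero, map_one], h2⟩
  · refine ⟨sc V P.i * _, mul_mem hi h3, ?_, ?_⟩
    · rw [sc_mul_sc_mul, h1, P.i_sq, ← map_mul]; simp
    · rw [map_mul, h2, det_sc, P.finrank_eq (m := 2) hW]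
      simp [P.i_pow_four]

theorem el_co_pair {a b : W} (h : P.β a b = 1) {f : End K V} (ha : f * P.ρ a = P.ρ a * f)
    (hb : f * P.ρ b = P.ρ b * f) :
    P.co 0 (f * ((P.s a * (P.s b)⁻¹ : V ≃ₗ[K] V) : End K V)) = 2⁻¹ * P.co 0 f := by
  have k : ∀ t, P.co 0 (f * P.ρ t) = P.co t f := fun t => by
    rw [co_apply, co_apply, P.coe_zero, one_mul, LinearMap.trace_mul_comm]
  obtain ⟨c, hc⟩ := P.mul a b
  have h1 := P.co_eq_zero_of_commute ha h
  have h2 := P.co_eq_zero_of_commute hb (P.β_comm a b ▸ h)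
  have h3 := P.co_eq_zero_of_commute (t := a + b) ha (by simp [P.alt, h])
  rw [coe_mul', coe_s, coe_s_inv]
  simp only [mul_add, add_mul, smul_mul_assoc, mul_smul_comm, one_mul, mul_one, map_add, map_smul,
    ← coe_mul', hc, coe_sc_mul, k, h1, h2, h3, smul_eq_mul, mul_zero, add_zero]
  have := P.two
  field_simp
  linear_combination P.two_α_mul * P.co 0 f

theorem el_exists_three (hW : finrank (ZMod 2) W = 4) {X : Subgroup (V ≃ₗ[K] V)}
    (hs : ∀ u, P.s u ∈ X) (hi : sc V P.i ∈ X) :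
    ∃ g ∈ X, ∃ h ∈ X, g ^ 3 = 1 ∧ h ^ 3 = 1 ∧ LinearMap.trace K V g = -2 ∧
      LinearMap.trace K V h = 1 := by
  obtain ⟨x, hx⟩ := exists_ne_zero (m := 2) hW le_rfl
  obtain ⟨y, hy⟩ := P.exists_β_eq_one hx
  obtain ⟨e, f, h⟩ := P.exists_sBasis hW hy
  have h4 : finrank K V = 4 := P.finrank_eq (m := 2) hW
  have ht : ∀ k : End K V, LinearMap.trace K V k = 4 * P.co 0 k := fun k => by
    have := P.finrank_ne_zero
    rw [co_apply, P.coe_zero, one_mul, ← mul_assoc]
    rw [h4] at this ⊢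
    rw [Nat.cast_ofNat] at this ⊢
    rw [mul_inv_cancel₀ this, one_mul]
  have c3 : ∀ {a b}, P.β a b = 1 → (P.s a * (P.s b)⁻¹) ^ 3 = sc V (-1) := fun hab => by
    rw [pow_succ, pow_two, P.cube hab]
  have hc : ∀ w, P.β w x = 0 → P.β w y = 0 → Commute (P.s x * (P.s y)⁻¹) (P.ρ w) :=
    fun w h1 h2 => ((P.commute_ρ_s h1).mul_right (P.commute_ρ_s h2).inv_right).symm
  have c1 := hc e (P.β_comm _ _ ▸ h.xe) (P.β_comm _ _ ▸ h.ye)
  have c2 := hc f (P.β_comm _ _ ▸ h.xf) (P.β_comm _ _ ▸ h.yf)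
  have h1 : P.co 0 ((P.s x * (P.s y)⁻¹ : V ≃ₗ[K] V) : End K V) = 2⁻¹ := by
    simpa only [one_mul, co_zero_one, mul_one] using P.el_co_pair hy (f := 1) (by simp) (by simp)
  have h2 := P.two
  refine ⟨sc V (-1) * (P.s x * (P.s y)⁻¹), mul_mem ?_ (mul_mem (hs x) (inv_mem (hs y))),
    P.s x * (P.s y)⁻¹ * (P.s e * (P.s f)⁻¹), mul_mem (mul_mem (hs x) (inv_mem (hs y)))
      (mul_mem (hs e) (inv_mem (hs f))), ?_, ?_, ?_, ?_⟩
  · rw [← P.i_sq, map_mul]; exact mul_mem hi hi
  · rw [(commute_sc _ _).symm.mul_pow, c3 hy, ← map_pow, ← map_mul]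
    norm_num
  · rw [((P.commute_s_of_commute c1).mul_right (P.commute_s_of_commute c2).inv_right).mul_pow,
      c3 hy, c3 h.ef, ← map_mul]
    simp
  · rw [ht, coe_sc_mul, map_smul, h1]
    simp only [Units.val_neg, Units.val_one, smul_eq_mul]
    field_simp
    norm_num
  · rw [ht, coe_mul', P.el_co_pair h.ef (by rw [← coe_mul', c1.eq, coe_mul'])
      (by rw [← coe_mul', c2.eq, coe_mul']), h1]
    field_simp
    norm_num

theorem el_exists_five (hW : finrank (ZMod 2) W = 4) {q : W → ZMod 2} {u : Fin 5 → W}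
    (ho : P.Ovoid q u) {X : Subgroup (V ≃ₗ[K] V)}
    (hs : ∀ a b, q a = 1 → q b = 1 → P.s a * (P.s b)⁻¹ ∈ X) : ∃ g ∈ X, g ^ 5 = 1 ∧ g ≠ 1 := by
  have t1 : ∀ j k, j ≠ k → P.tv (u j + u k) (u j) = u k := fun j k h => by
    rw [tv_apply, β_add_right, P.alt, ho.one j k h, zero_add, one_smul, self_add_add]
  have t2 : ∀ j k, j ≠ k → P.tv (u j + u k) (u k) = u j := fun j k h => by
    rw [add_comm, t1 k j h.symm]
  have t3 : ∀ j k l, l ≠ j → l ≠ k → P.tv (u j + u k) (u l) = u l := fun j k l h h' => by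
    rw [tv_apply, β_add_right, ho.one l j h, ho.one l k h', zmod2_add_self, zero_smul, add_zero]
  set S := P.tv (u 0 + u 1) * P.tv (u 1 + u 2) * (P.tv (u 2 + u 3) * P.tv (u 3 + u 4)) with hS
  set g := P.s (u 0 + u 1) * (P.s (u 1 + u 2))⁻¹ * (P.s (u 2 + u 3) * (P.s (u 3 + u 4))⁻¹) with hg
  have hI : P.Ind g S := (ind_s_mul _ _).mul (ind_s_mul _ _)
  have hIk : ∀ k : ℕ, P.Ind (g ^ k) (S ^ k) := fun k => by
    induction k with
    | zero => exact ind_of_mem_R (one_mem _)
    | succ k ih => rw [pow_succ, pow_succ]; exact ih.mul hI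
  have h1 : ∀ j, S (u j) = u (j + 1) := fun j => by
    fin_cases j <;> simp (decide := true) [hS, t1, t2, t3]
  have h2 : ∀ k : ℕ, ∀ j, (S ^ k) (u j) = u (j + k • 1) := fun k j => by
    induction k with
    | zero => simp
    | succ k ih => rw [pow_succ', LinearEquiv.mul_apply, ih, h1, succ_nsmul, add_assoc]
  have h5 : S ^ 5 = 1 := LinearEquiv.ext (ho.induct (by simp)
    (fun j => by rw [h2, show 5 • (1 : Fin 5) = 0 by decide, add_zero]; rfl) fun a b ha hb => by rw [map_add, map_add, ha, hb])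
  obtain ⟨c, w, e⟩ := (h5 ▸ hIk 5).mem_R
  have h6 : g ^ 10 = sc V (c * c) := by
    rw [show 10 = 5 + 5 from rfl, pow_add, e, sc_mul_sc_mul, P.sq, mul_one]
  have hq : ∀ j k, j ≠ k → u j + u k ≠ 0 := fun j k h => ho.quad.ne_zero (ho.q_add h)
  have hd : LinearEquiv.det g = 1 := by
    simp (decide := true) only [hg, map_mul, map_inv, P.det_s (m := 1) hW (hq _ _ _), ne_eq,
      not_false_eq_true, mul_inv_cancel, mul_one]
  have h7 := congrArg LinearEquiv.det h6
  rw [map_pow, hd, one_pow, det_sc, P.finrank_eq (m := 2) hW] at h7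
  refine ⟨g ^ 8, pow_mem (mul_mem (hs _ _ (ho.q_add (by decide)) (ho.q_add (by decide)))
    (hs _ _ (ho.q_add (by decide)) (ho.q_add (by decide)))) _, ?_, fun e => ?_⟩
  · rw [← pow_mul, show 8 * 5 = 10 * 2 ^ 2 from rfl, pow_mul, h6, ← map_pow, ← h7, map_one]
  · have := h2 8 0
    rw [(hIk 8).unique (e ▸ ind_of_mem_R (one_mem _))] at this
    have h8 := ho.one 0 (0 + 8 • 1) (by decide)
    rw [← this, LinearEquiv.coe_one, id, P.alt] at h8
    exact zero_ne_one h8

end Pauli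

theorem BC.trace_ext {F V₀ : Type*} [Field F] [AddCommGroup V₀] [Module F V₀]
    [FiniteDimensional F V₀] (b : BC F V₀ K V) (g : V₀ ≃ₗ[F] V₀) :
    LinearMap.trace K V (b.ext g) = b.f (LinearMap.trace F V₀ g) := by
  let e := Module.finBasis F V₀
  have h1 : ⊤ ≤ Submodule.span K (Set.range fun i => b.j (e i)) := fun v _ => by
    refine b.induct (p := fun v => v ∈ Submodule.span K (Set.range fun i => b.j (e i)))
      (fun v => ?_) (fun _ _ => add_mem) (fun c _ => Submodule.smul_mem _ c) v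
    rw [← e.sum_repr v, map_sum]
    exact sum_mem fun i _ => by
      rw [map_smulₛₗ]; exact Submodule.smul_mem _ _ (Submodule.subset_span ⟨i, rfl⟩)
  let e' := basisOfTopLeSpanOfCardEqFinrank _ h1 (by rw [b.rank, Fintype.card_fin])
  have he : ∀ i, b.j (e i) = e' i := fun i => by simp [e']
  rw [LinearMap.trace_eq_matrix_trace K e', LinearMap.trace_eq_matrix_trace F e, Matrix.trace,
    Matrix.trace, map_sum]
  refine Finset.sum_congr rfl fun i _ => ?_
  simp only [Matrix.diag_apply, LinearMap.toMatrix_apply, LinearEquiv.coe_coe]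
  rw [← he, b.ext_j, ← e.sum_repr (g (e i)), map_sum]
  simp [map_smulₛₗ, he, Finsupp.single_apply]

end Cfsg.Lib.Class.C6
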