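import Mathlib

/-!
Lang's theorem for `GL_n`: an injective `q`-semilinear map on a finite-dimensional space over an
algebraically closed field has a basis of fixed vectors.
-/

set_option autoImplicit false

namespace Cfsg.Lib.Known

open Polynomial

section Lang

variable {K : Type*} [Field K] [IsAlgClosed K] {q : ℕ} {σ : K →+* K}

/-- The auxiliary polynomials `x₀ = a₀ X^q`, `x_{i+1} = x_i^q + a_{i+1} X^q`. -/
noncomputable def langPoly (q : ℕ) (a : ℕ → K) (i : ℕ) : K[X] :=
  Nat.rec (C (a 0) * X ^ q) (fun i x => x ^ q + C (a (i + 1)) * X ^ q) i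

omit [IsAlgClosed K] in
theorem langPoly_zero (q : ℕ) (a : ℕ → K) : langPoly q a 0 = C (a 0) * X ^ q := rfl

omit [IsAlgClosed K] in
theorem langPoly_succ (q : ℕ) (a : ℕ → K) (i : ℕ) :
    langPoly q a (i + 1) = langPoly q a i ^ q + C (a (i + 1)) * X ^ q := rfl

omit [IsAlgClosed K] in
theorem X_pow_dvd_langPoly (hq : 2 ≤ q) (a : ℕ → K) (i : ℕ) : X ^ q ∣ langPoly q a i := by
  induction i with
  | zero => rw [langPoly_zero]; exact Dvd.intro_left _ rfl
  | succ i ih =>
    rw [langPoly_succ]
    exact dvd_add (ih.trans (dvd_pow_self _ (by omega))) (Dvd.intro_left _ rfl)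

omit [IsAlgClosed K] in
theorem langPoly_eq_zero (hq : 2 ≤ q) (a : ℕ → K) (i : ℕ) (h : langPoly q a i = 0) :
    ∀ j ≤ i, a j = 0 := by
  induction i with
  | zero =>
    intro j hj
    obtain rfl : j = 0 := by omega
    rw [langPoly_zero] at h
    have := congrArg (fun f => coeff f q) h
    simpa using this
  | succ i ih =>
    rw [langPoly_succ] at h
    have h1 : coeff (langPoly q a i ^ q) q = 0 := by
      have h2 : X ^ (q + 1) ∣ langPoly q a i ^ q := by
        refine dvd_trans ?_ (pow_dvd_pow_of_dvd (X_pow_dvd_langPoly hq a i) q)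
        rw [← pow_mul]
        exact pow_dvd_pow _ (by nlinarith)
      exact X_pow_dvd_iff.mp h2 q (by omega)
    have h2 : a (i + 1) = 0 := by
      have := congrArg (fun f => coeff f q) h
      simpa [h1] using this
    rw [h2, map_zero, zero_mul, add_zero] at h
    have h3 := ih (pow_eq_zero_iff (by omega) |>.mp h)
    intro j hj
    rcases Nat.lt_or_ge j (i + 1) with h4 | h4
    · exact h3 j (by omega)
    · obtain rfl : j = i + 1 := by omega
      exact h2

theorem exists_langPoly_fixed (hq : 2 ≤ q) (a : ℕ → K) (i : ℕ) (h : langPoly q a i ≠ 0) :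
    ∃ t : K, t ≠ 0 ∧ (langPoly q a i).eval t = t := by
  obtain ⟨g, hg⟩ : X ^ 2 ∣ langPoly q a i := (pow_dvd_pow _ hq).trans (X_pow_dvd_langPoly hq a i)
  have hg0 : g ≠ 0 := by rintro rfl; simp at hg; exact h hg
  have hdeg : (X * g - 1 : K[X]).degree ≠ 0 := by
    have h1 : 0 < (X * g : K[X]).degree := by
      rw [degree_mul, degree_X, degree_eq_natDegree hg0]
      exact_mod_cast Nat.add_pos_left one_pos _
    rw [← C_1, degree_sub_C h1]
    exact h1.ne'
  obtain ⟨t, ht⟩ := IsAlgClosed.exists_root _ hdeg
  have ht' : t * g.eval t = 1 := by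
    have := ht.eq_zero
    simp only [eval_sub, eval_mul, eval_X, eval_one] at this
    exact sub_eq_zero.mp this
  refine ⟨t, by rintro rfl; simp at ht', ?_⟩
  rw [hg]
  simp only [eval_mul, eval_pow, eval_X]
  rw [pow_two, mul_assoc, ht', mul_one]

variable {V : Type*} [AddCommGroup V] [Module K V] [FiniteDimensional K V]

/-- An injective `q`-semilinear map on a non-zero space has a non-zero fixed vector. -/
theorem exists_fixed_ne_zero (hq : 2 ≤ q) (hσ : ∀ x, σ x = x ^ q) [Nontrivial V]
    (φ : V →ₛₗ[σ] V) (hφ : Function.Injective φ) : ∃ w : V, w ≠ 0 ∧ φ w = w := by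
  classical
  obtain ⟨v, hv⟩ := exists_ne (0 : V)
  let s : ℕ → V := fun i => φ^[i] v
  have hs : ∀ i, s (i + 1) = φ (s i) := fun i => Function.iterate_succ_apply' _ _ _
  have hex : ∃ r, s r ∈ Submodule.span K (s '' Set.Iio r) := by
    by_contra hcon
    push Not at hcon
    have hli : LinearIndependent K s := by
      rw [linearIndependent_iff']
      intro t
      induction t using Finset.induction_on_max with
      | empty => simp
      | insert r t hr ih =>
        intro g hg
        have hrt : r ∉ t := fun h => lt_irrefl _ (hr r h)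
        rw [Finset.sum_insert hrt] at hg
        have hgr : g r = 0 := by
          by_contra hne
          apply hcon r
          have : s r = -(g r)⁻¹ • ∑ i ∈ t, g i • s i := by
            have h1 : g r • s r = -∑ i ∈ t, g i • s i := eq_neg_of_add_eq_zero_left hg
            rw [neg_smul, ← smul_neg, ← h1, smul_smul, inv_mul_cancel₀ hne, one_smul]
          rw [this]
          refine Submodule.smul_mem _ _ (Submodule.sum_mem _ fun i hi => ?_)
          exact Submodule.smul_mem _ _ (Submodule.subset_span ⟨i, hr i hi, rfl⟩)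
        rw [hgr, zero_smul, zero_add] at hg
        intro i hi
        rcases Finset.mem_insert.mp hi with rfl | hi
        · exact hgr
        · exact ih g hg i hi
    exact Module.Finite.not_linearIndependent_of_infinite s hli
  let r := Nat.find hex
  have hr : s r ∈ Submodule.span K (s '' Set.Iio r) := Nat.find_spec hex
  have hr0 : r ≠ 0 := by
    intro h0
    rw [h0] at hr
    simp at hr
    exact hv hr
  obtain ⟨m, hm⟩ : ∃ m, r = m + 1 := ⟨r - 1, by omega⟩
  have hmin : s m ∉ Submodule.span K (s '' Set.Iio m) := Nat.find_min hex (by omega)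
  rw [hm] at hr
  have hr' : ∃ a : ℕ → K, s (m + 1) = ∑ i ∈ Finset.range (m + 1), a i • s i := by
    have : s '' Set.Iio (m + 1) = s '' (Finset.range (m + 1) : Set ℕ) := by simp
    rw [this, Submodule.mem_span_image_finset_iff_exists_fun'] at hr
    obtain ⟨a, ha⟩ := hr
    exact ⟨a, ha.symm⟩
  obtain ⟨a, ha⟩ := hr'
  have hne : langPoly q a m ≠ 0 := by
    intro h0
    have h1 := langPoly_eq_zero hq a m h0
    have h2 : s (m + 1) = 0 := by
      rw [ha]
      refine Finset.sum_eq_zero fun i hi => ?_
      rw [h1 i (by simpa [Nat.lt_succ_iff] using hi), zero_smul]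
    have h3 : φ^[m + 1] v = φ^[m + 1] 0 := by
      rw [Function.iterate_fixed (map_zero φ)]; exact h2
    exact hv (hφ.iterate _ h3)
  obtain ⟨t, ht0, ht⟩ := exists_langPoly_fixed hq a m hne
  let x : ℕ → K := fun i => (langPoly q a i).eval t
  have hx0 : x 0 = a 0 * t ^ q := by simp [x, langPoly_zero]
  have hxs : ∀ i, x (i + 1) = x i ^ q + a (i + 1) * t ^ q := by
    intro i; simp [x, langPoly_succ]
  have hxm : x m = t := ht
  refine ⟨∑ i ∈ Finset.range (m + 1), x i • s i, ?_, ?_⟩
  · intro h0
    rw [Finset.sum_range_succ, hxm] at h0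
    apply hmin
    have : s m = -t⁻¹ • ∑ i ∈ Finset.range m, x i • s i := by
      have h1 : t • s m = -∑ i ∈ Finset.range m, x i • s i := eq_neg_of_add_eq_zero_right h0
      rw [neg_smul, ← smul_neg, ← h1, smul_smul, inv_mul_cancel₀ ht0, one_smul]
    rw [this]
    refine Submodule.smul_mem _ _ (Submodule.sum_mem _ fun i hi => ?_)
    exact Submodule.smul_mem _ _ (Submodule.subset_span ⟨i, by simpa using hi, rfl⟩)
  · rw [map_sum]
    simp only [LinearMap.map_smulₛₗ, hσ, ← hs]
    rw [Finset.sum_range_succ, hxm, ha, Finset.sum_range_succ' (fun i => x i • s i),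
      Finset.sum_range_succ' (fun i => a i • s i), hx0, smul_add, Finset.smul_sum, ← add_assoc,
      ← Finset.sum_add_distrib]
    congr 1
    · refine Finset.sum_congr rfl fun i _ => ?_
      rw [hxs, add_smul, smul_smul, mul_comm (t ^ q)]
    · rw [smul_smul, mul_comm]

/-- The fixed vectors of an injective `q`-semilinear map span the space. -/
theorem span_fixed_eq_top (hq : 2 ≤ q) (hσ : ∀ x, σ x = x ^ q)
    (φ : V →ₛₗ[σ] V) (hφ : Function.Injective φ) :
    Submodule.span K {w : V | φ w = w} = ⊤ := by
  set W := Submodule.span K {w : V | φ w = w} with hW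
  have hWφ : W ≤ W.comap φ := by
    rw [hW, Submodule.span_le]
    intro w hw
    have hw' : φ w = w := hw
    show φ w ∈ Submodule.span K {w : V | φ w = w}
    rw [hw']
    exact Submodule.subset_span hw
  have hsurj : ∀ w ∈ W, ∃ w' ∈ W, φ w' = w := by
    intro w hw
    induction hw using Submodule.span_induction with
    | mem x hx => exact ⟨x, Submodule.subset_span hx, hx⟩
    | zero => exact ⟨0, W.zero_mem, map_zero _⟩
    | add x y _ _ hx hy =>
      obtain ⟨x', hx', rfl⟩ := hx
      obtain ⟨y', hy', rfl⟩ := hy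
      exact ⟨x' + y', W.add_mem hx' hy', map_add _ _ _⟩
    | smul c x _ hx =>
      obtain ⟨x', hx', rfl⟩ := hx
      obtain ⟨d, rfl⟩ := IsAlgClosed.exists_pow_nat_eq c (n := q) (by omega)
      exact ⟨d • x', W.smul_mem _ hx', by rw [LinearMap.map_smulₛₗ, hσ]⟩
  have hlang : ∀ w ∈ W, ∀ c : K, ∃ w' ∈ W, φ w' - w' = c • w := by
    intro w hw
    induction hw using Submodule.span_induction with
    | mem x hx =>
      intro c
      have hdeg : (X ^ q - X - C c : K[X]).degree ≠ 0 := by
        have h1 : (X ^ q - X : K[X]).degree = q := by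
          rw [degree_sub_eq_left_of_degree_lt, degree_X_pow]
          rw [degree_X_pow, degree_X]
          exact_mod_cast (by omega : 1 < q)
        have h2 : 0 < (X ^ q - X : K[X]).degree := by
          rw [h1]; exact_mod_cast (by omega : 0 < q)
        rw [degree_sub_C h2]
        exact h2.ne'
      obtain ⟨t, ht⟩ := IsAlgClosed.exists_root _ hdeg
      have ht' : t ^ q - t = c := by
        have := ht.eq_zero
        simp only [eval_sub, eval_pow, eval_X, eval_C] at this
        exact sub_eq_zero.mp this
      refine ⟨t • x, W.smul_mem _ (Submodule.subset_span hx), ?_⟩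
      have hx' : φ x = x := hx
      rw [LinearMap.map_smulₛₗ, hσ, hx', ← sub_smul, ht']
    | zero => intro c; exact ⟨0, W.zero_mem, by simp⟩
    | add x y _ _ hx hy =>
      intro c
      obtain ⟨x', hx', h1⟩ := hx c
      obtain ⟨y', hy', h2⟩ := hy c
      refine ⟨x' + y', W.add_mem hx' hy', ?_⟩
      rw [map_add, smul_add, ← h1, ← h2]; abel
    | smul d x _ hx =>
      intro c
      obtain ⟨x', hx', h1⟩ := hx (c * d)
      exact ⟨x', hx', by rw [h1, mul_smul]⟩
  by_contra hne
  have : Nontrivial (V ⧸ W) := Submodule.Quotient.nontrivial_iff.mpr hne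
  let ψ : (V ⧸ W) →ₛₗ[σ] (V ⧸ W) := W.mapQ W φ hWφ
  have hψ : Function.Injective ψ := by
    rw [injective_iff_map_eq_zero]
    intro u hu
    induction u using Submodule.Quotient.induction_on with
    | H u =>
      have h1 : φ u ∈ W := by
        rw [← Submodule.Quotient.mk_eq_zero]; exact hu
      obtain ⟨w, hw, h2⟩ := hsurj _ h1
      rw [Submodule.Quotient.mk_eq_zero, ← hφ h2]
      exact hw
  obtain ⟨u, hu0, hu⟩ := exists_fixed_ne_zero hq hσ ψ hψ
  induction u using Submodule.Quotient.induction_on with
  | H u =>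
    have h1 : φ u - u ∈ W := by
      rw [← Submodule.Quotient.eq]; exact hu
    obtain ⟨w, hw, h2⟩ := hlang _ h1 (-1)
    apply hu0
    rw [Submodule.Quotient.mk_eq_zero]
    have h3 : u + w ∈ W := by
      apply Submodule.subset_span
      show φ (u + w) = u + w
      rw [map_add, ← sub_eq_zero]
      have : φ u + φ w - (u + w) = (φ u - u) + (φ w - w) := by abel
      rw [this, h2]; simp
    simpa using W.sub_mem h3 hw

/-- An injective `q`-semilinear map has a basis of fixed vectors. -/
theorem exists_basis_fixed (hq : 2 ≤ q) (hσ : ∀ x, σ x = x ^ q)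
    (φ : V →ₛₗ[σ] V) (hφ : Function.Injective φ) {ι : Type*} [Fintype ι]
    (hι : Fintype.card ι = Module.finrank K V) :
    ∃ b : Module.Basis ι K V, ∀ i, φ (b i) = b i := by
  classical
  obtain ⟨s, hs, hspan, hli⟩ := exists_linearIndependent K {w : V | φ w = w}
  rw [span_fixed_eq_top hq hσ φ hφ] at hspan
  let b₀ : Module.Basis s K V := Module.Basis.mk hli (by rw [← hspan]; simp)
  have : Fintype s := FiniteDimensional.fintypeBasisIndex b₀
  let e : s ≃ ι := Fintype.equivOfCardEq (by rw [hι, Module.finrank_eq_card_basis b₀])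
  refine ⟨b₀.reindex e, fun i => ?_⟩
  rw [Module.Basis.reindex_apply, Module.Basis.mk_apply]
  exact hs (e.symm i).2

/-- **Lang's theorem for `GL_n`** (matrix form, any finite index type). -/
theorem lang_GL (hq : 2 ≤ q) (hσ : ∀ x, σ x = x ^ q) {ι : Type*} [Fintype ι] [DecidableEq ι]
    (g : GL ι K) : ∃ x : GL ι K, g = x * (Matrix.GeneralLinearGroup.map σ x)⁻¹ := by
  let φ : (ι → K) →ₛₗ[σ] (ι → K) :=
    { toFun := fun v => (g : Matrix ι ι K).mulVec (fun i => σ (v i))
      map_add' := fun u v => by
        rw [← Matrix.mulVec_add]; congr 1; ext i; simp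
      map_smul' := fun c v => by
        rw [← Matrix.mulVec_smul]; congr 1; ext i; simp }
  have hφ : Function.Injective φ := by
    intro u v h
    have h1 : (fun i => σ (u i)) = fun i => σ (v i) :=
      Matrix.mulVec_injective_iff_isUnit.mpr g.isUnit h
    ext i
    exact σ.injective (congrFun h1 i)
  obtain ⟨b, hb⟩ := exists_basis_fixed hq hσ φ hφ (ι := ι) (by simp)
  let x : Matrix ι ι K := Matrix.of fun i j => b j i
  have hx : IsUnit x := by
    rw [← Matrix.linearIndependent_cols_iff_isUnit]
    exact b.linearIndependent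
  refine ⟨hx.unit, ?_⟩
  rw [eq_mul_inv_iff_mul_eq]
  apply Units.ext
  ext i j
  have := congrFun (hb j) i
  simpa [φ, Matrix.mulVec, dotProduct, Matrix.mul_apply, x] using this

end Lang

end Cfsg.Lib.Known
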