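import Mathlib
import Cfsg.Agent.Known.QuadSum
import Cfsg.Agent.Class.HermSL2
import Cfsg.Agent.Class.OrthExt

/-!
The norm form of a quadratic extension of finite fields; `GU_m(q) ≤ O^±_{2m}(q)`.
-/

namespace Cfsg.Lib.Known

open Module Cfsg.Lib.Class QuadraticMap Matrix
open Cfsg.Lib.Class.Orth hiding orth stab mem_orth mem_orth'

variable {F K V : Type*} [Field F] [AddCommGroup V] [Module F V] [FiniteDimensional F V]

theorem isPlus_pi_iff [Finite F] {N : QuadraticForm F V} (hN : (polarBilin N).Nondegenerate)
    (he : Even (finrank F V)) (m : ℕ) :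
    (polarBilin (QuadraticMap.pi fun _ : Fin m => N)).Nondegenerate ∧
      (IsPlus (QuadraticMap.pi fun _ : Fin m => N) ↔ Even m ∨ IsPlus N) := by
  induction m with
  | zero => exact ⟨polarBilin_nondegenerate_of _ fun u _ => Subsingleton.elim _ _,
      iff_of_true ⟨⊥, by simp, by simp [finrank_zero_of_subsingleton]⟩ (Or.inl Even.zero)⟩
  | succ m ih =>
    have h : IsOSum (QuadraticMap.pi fun _ : Fin (m + 1) => N) N
        (QuadraticMap.pi fun _ : Fin m => N) (Fin.consLinearEquiv F fun _ => V) := fun a b => by
      simp [Fin.sum_univ_succ]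
    refine ⟨h.nondegenerate hN ih.1, ?_⟩
    rw [h.isPlus_iff (h.nondegenerate hN ih.1) he (by
      rw [Module.finrank_pi_fintype]; exact Finset.even_sum _ fun _ _ => he), ih.2,
      Nat.even_add_one]
    tauto

variable [Field K] [Fintype K] [Fintype F] {q : ℕ}

theorem exists_GU_hom_O (hK : Fintype.card K = q ^ 2) (hF : Fintype.card F = q) {m : ℕ}
    {Q : QuadraticForm F V} (hQ : (polarBilin Q).Nondegenerate) (hV : finrank F V = 2 * m)
    (hp : IsPlus Q ↔ Even m) : ∃ φ : GU m K q →* O Q, Function.Injective φ := by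
  obtain ⟨f, hf⟩ := Form.exists_ringHom_fixed hK hF
  letI := f.toAlgebra
  have hfa : ∀ a, f a ^ q = f a := fun a => (hf _).mpr ⟨a, rfl⟩
  obtain ⟨τ, hτ⟩ := Module.Projective.exists_dual_eq_one F (one_ne_zero (α := K))
  let B : LinearMap.BilinForm F K := LinearMap.mk₂ F (fun x y => τ (x * y ^ q))
    (fun x x' y => by rw [add_mul, map_add]) (fun a x y => by rw [smul_mul_assoc, map_smul])
    (fun x y y' => by
      rw [show (y + y') ^ q = y ^ q + y' ^ q from map_add (frobq hK) y y', mul_add, map_add])
    (fun a x y => by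
      rw [Algebra.smul_def, mul_pow, show algebraMap F K a ^ q = _ from hfa a, mul_left_comm,
        ← map_smul]; rfl)
  let N : QuadraticForm F K := B.toQuadraticMap
  have hN : ∀ x, f (N x) = x * x ^ q := fun x => by
    obtain ⟨a, ha⟩ := (hf (x * x ^ q)).mp (by
      change (x * x ^ q) ^ q = _
      rw [mul_pow, pow_q_pow_q hK, mul_comm])
    change f (τ (x * x ^ q)) = _
    rw [← ha, show f a = a • (1 : K) from Algebra.algebraMap_eq_smul_one a, map_smul, hτ,
      smul_eq_mul, mul_one]
    exact Algebra.algebraMap_eq_smul_one a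
  have h2 : finrank F K = 2 := Nat.pow_right_injective (Finite.one_lt_card (α := F)) (by
    simp only
    rw [← natCard_eq_pow_finrank, Nat.card_eq_fintype_card, Nat.card_eq_fintype_card, hK, hF])
  have hq := two_le_of_card_sq hK
  have hn : (polarBilin N).Nondegenerate := polarBilin_nondegenerate_of _ fun x hx => by
    by_contra h0
    have h3 : ∀ t : K, t ^ q = -t := fun t => by
      have h4 := congrArg f (hx (t * x))
      rw [polar, map_sub, map_sub, hN, hN, hN, map_zero,
        show (x + t * x) ^ q = x ^ q + (t * x) ^ q from map_add (frobq hK) _ _, mul_pow] at h4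
      exact mul_left_cancel₀ (mul_ne_zero h0 (pow_ne_zero q h0)) (by linear_combination h4)
    refine frobq_ne_id hK (RingHom.ext fun t => ?_)
    have h4 := h3 1
    rw [one_pow] at h4
    change t ^ q = t
    rw [h3]
    linear_combination (-t) * h4
  obtain ⟨h3, h4⟩ := isPlus_pi_iff hn (by rw [h2]; exact even_two) m
  obtain ⟨e, he⟩ := exists_equiv_of_isPlus_iff h3 hQ
    (by rw [Module.finrank_pi_fintype]; simp [h2]) (by rw [Module.finrank_pi_fintype]; simp [h2, hV, mul_comm])
    (by rw [h4, hp, or_iff_left (not_isPlus_of_anisotropic (by omega) fun w hw => by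
      simpa [hw, show q ≠ 0 by omega] using (hN w).symm)])
  have h5 : ∀ v, f (QuadraticMap.pi (fun _ : Fin m => N) v) = hermForm m K q v v := fun v => by
    simp [hN, hermForm]
  let ψ : GU m K q →* O (QuadraticMap.pi fun _ : Fin m => N) :=
    { toFun := fun g => ⟨(glLin _ K g.1).restrictScalars F, mem_O.2 fun v => f.injective (by
        rw [h5, h5]; exact g.2 v v)⟩
      map_one' := Subtype.ext (LinearEquiv.ext fun v => by simp)
      map_mul' := fun g g' => Subtype.ext (LinearEquiv.ext fun v => by simp) }
  refine ⟨(OCongr e one_ne_zero (by simpa using he)).toMonoidHom.comp ψ,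
    (MulEquiv.injective _).comp fun g g' h => Subtype.ext ((glLin _ K).injective ?_)⟩
  exact LinearEquiv.ext fun v => LinearEquiv.congr_fun (congrArg Subtype.val h) v

end Cfsg.Lib.Known
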