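/-
Small Ree groups: the Schur multiplier is trivial.
-/
import Cfsg.Agent.Known.ReeLocal
import Cfsg.Agent.Known.SzMult

set_option autoImplicit false

namespace Cfsg.Lib.Known.Ree

open Cfsg GL2 SzMult
open scoped commutatorElement

section Deg

variable {K A : Type*} [AddCommGroup K] [AddCommGroup A]

/-- All `n`-fold differences of `f` vanish. -/
def DegLT : ℕ → (K → A) → Prop
  | 0, f => ∀ x, f x = 0
  | n + 1, f => ∀ e, DegLT n fun x => f (x + e) - f x

theorem DegLT.of_zero {n : ℕ} {f : K → A} (h : ∀ x, f x = 0) : DegLT n f := by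
  induction n generalizing f with
  | zero => exact h
  | succ n ih => exact fun e => ih fun x => by simp [h]

theorem DegLT.add {n : ℕ} {f g : K → A} (hf : DegLT n f) (hg : DegLT n g) : DegLT n fun x => f x + g x := by
  induction n generalizing f g with
  | zero => exact fun x => by simp [hf x, hg x]
  | succ n ih => exact fun e => by simpa only [add_sub_add_comm] using ih (hf e) (hg e)

theorem DegLT.shift {n : ℕ} {f : K → A} (hf : DegLT n f) (e : K) : DegLT n fun x => f (x + e) := by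
  induction n generalizing f with
  | zero => exact fun x => hf _
  | succ n ih => exact fun e' => by simpa only [add_right_comm _ e] using ih (hf e')

theorem DegLT.const (n : ℕ) (c : A) : DegLT (n + 1) fun _ : K => c := fun _ => DegLT.of_zero fun _ => sub_self _

theorem DegLT.hom (φ : K →+ A) : DegLT 2 φ := fun _ _ _ => by simp

theorem DegLT.bilin {A' A'' : Type*} [AddCommGroup A'] [AddCommGroup A''] (B : A →+ A' →+ A'') {n i j : ℕ}
    {f : K → A} {g : K → A'} (h : i + j ≤ n + 1) (hf : DegLT i f) (hg : DegLT j g) :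
    DegLT n fun x => B (f x) (g x) := by
  induction n generalizing i j f g with
  | zero =>
    rcases i with _ | i
    · exact fun x => by simp [hf x]
    · obtain rfl : j = 0 := by omega
      exact fun x => by simp [hg x]
  | succ n ih =>
    rcases i with _ | i
    · exact DegLT.of_zero fun x => by simp [hf x]
    rcases j with _ | j
    · exact DegLT.of_zero fun x => by simp [hg x]
    intro e
    simpa using (ih (by omega) (hf e) (hg.shift e)).add (ih (by omega) hf (hg e))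

theorem DegLT.apply_zero [Fintype K] (h3 : ∀ x : K, x + x = -x) {k : ℕ} {f : K → A} (hf : DegLT (2 * k) f)
    (h : ∀ x, 3 • f x = 0) (S : Finset K) (hS : ∀ x ∈ S, -x ∈ S) (h0 : ∀ x ∉ S, f x = 0)
    (hc : 3 ^ k * S.card < 3 * Fintype.card K) : f 0 = 0 := by
  classical
  induction k generalizing f S with
  | zero => exact hf 0
  | succ k ih =>
    obtain ⟨e, -, he⟩ := Finset.exists_mem_notMem_of_card_lt_card (s := S) (t := Finset.univ) (by
      have : 1 * 3 * S.card ≤ 3 ^ (k + 1) * S.card := by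
        rw [pow_succ]; gcongr; exact Nat.one_le_pow _ _ (by norm_num)
      rw [Finset.card_univ]; omega)
    have he' : -e ∉ S := fun h => he (neg_neg e ▸ hS _ h)
    have key : ∀ x, f (x + e + e) - f (x + e) - (f (x + e) - f x) = f x + f (x + e) + f (x - e) := fun x => by
      rw [add_assoc x, h3, ← sub_eq_add_neg, ← sub_eq_zero, ← neg_eq_zero, ← h (x + e)]
      abel
    have := ih (hf e e) (fun x => by simp only [smul_sub, h, sub_self])
      (S ∪ (S.image (· - e) ∪ S.image (· + e))) (fun x hx => by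
        simp only [Finset.mem_union, Finset.mem_image] at hx ⊢
        rcases hx with hx | ⟨y, hy, rfl⟩ | ⟨y, hy, rfl⟩
        exacts [Or.inl (hS x hx), Or.inr (Or.inr ⟨_, hS y hy, by abel⟩), Or.inr (Or.inl ⟨_, hS y hy, by abel⟩)])
      (fun x hx => by
        simp only [Finset.mem_union, Finset.mem_image, not_or, not_exists, not_and] at hx
        rw [key, h0 x hx.1, h0 _ fun h => hx.2.1 _ h (by abel), h0 _ fun h => hx.2.2 _ h (by abel)]
        simp) (by
        have h1 := (Finset.card_union_le S _).trans (Nat.add_le_add_left ((Finset.card_union_le _ _).trans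
          (Nat.add_le_add (Finset.card_image_le (s := S) (f := (· - e)))
            (Finset.card_image_le (s := S) (f := (· + e))))) _)
        refine lt_of_le_of_lt ?_ hc
        rw [pow_succ, mul_assoc]
        exact Nat.mul_le_mul_left _ (by omega))
    rwa [key, zero_add, zero_sub, h0 e he, h0 _ he', add_zero, add_zero] at this

end Deg

theorem DegLT.mul {K : Type*} [Field K] {n i j : ℕ} {f g : K → K} (h : i + j ≤ n + 1) (hf : DegLT i f)
    (hg : DegLT j g) : DegLT n fun x => f x * g x := DegLT.bilin AddMonoidHom.mul h hf hg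

/-- An invariant biadditive map of small degree vanishes. -/
theorem biadd_eq_one {K A : Type*} [Field K] [Fintype K] [CommGroup A] (h3 : (3 : K) = 0) (hq : 27 ≤ Fintype.card K)
    (β : K → K → A) (hl : ∀ a a' b, β (a + a') b = β a b * β a' b) (hr : ∀ a b b', β a (b + b') = β a b * β a b')
    {i j : ℕ} {μ ν : K → K} (hμ : DegLT i μ) (hν : DegLT j ν) (hij : i + j ≤ 7) (h0 : μ 0 = 0)
    (hinv : ∀ l ≠ 0, ∀ a b, β (μ l * a) (ν l * b) = β a b) (a b : K) : β a b = 1 := by
  let B : K →+ K →+ Additive A := AddMonoidHom.mk' (fun a => AddMonoidHom.mk' (fun b => Additive.ofMul (β a b)) (hr a))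
    fun a a' => AddMonoidHom.ext (hl a a')
  have h1 : ∀ a b, 3 • B a b = 0 := fun a b => by rw [← map_nsmul, nsmul_eq_mul, Nat.cast_ofNat, h3, zero_mul, map_zero]
  have := DegLT.apply_zero (fun x => by linear_combination x * h3) (k := 3)
    ((DegLT.bilin B hij (hμ.mul le_rfl (DegLT.const 0 a)) (hν.mul le_rfl (DegLT.const 0 b))).add
      (DegLT.const 5 (-B a b))) (fun x => by simp only [smul_add, smul_neg, h1, neg_zero, add_zero]) {0} (by simp)
    (fun x hx => add_neg_eq_zero.2 (hinv x (by simpa using hx) a b)) (by rw [Finset.card_singleton]; omega)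
  rwa [h0, zero_mul, map_zero, AddMonoidHom.zero_apply, zero_add, neg_eq_zero] at this

theorem RTw.degLT_mul_σ {K : Type*} [Field K] (τ : RTw K) : DegLT 3 fun l : K => l * τ.σ l :=
  DegLT.mul (i := 2) (j := 2) le_rfl (DegLT.hom (AddMonoidHom.id K)) (DegLT.hom τ.σ.toAddMonoidHom)

theorem RTw.degLT_sq_mul_σ {K : Type*} [Field K] (τ : RTw K) : DegLT 4 fun l : K => l ^ 2 * τ.σ l := by
  simpa only [sq, mul_assoc] using
    DegLT.mul (n := 4) (i := 2) (f := fun l => l) le_rfl (DegLT.hom (AddMonoidHom.id K)) τ.degLT_mul_σ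

namespace ReeModel

variable {K : Type*} [Field K] [Fintype K] {τ : RTw K} {m : ℕ} {G : Type*} [Group G] (M : ReeModel τ m G)
  {Γ : Type*} [Group Γ] {σ : Γ →* G} (hσ : IsStemExtension σ)

theorem cm_t_w : cm hσ M.t M.w = 1 := by
  have h1 := cm_conj_of hσ M.commute_t_w M.s
  have h2 := cm_conj_of hσ M.commute_t_v M.s
  rw [s_conj_t, s_conj_w] at h1
  rw [s_conj_t, s_conj_v, cm_mul_right_of hσ M.commute_t_v] at h2
  simpa using h2

theorem cm_t {y : G} (hy : y * y = 1) (h : Commute y M.t) : cm hσ M.t y = 1 := by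
  have key : ∀ z, M.φ z * M.φ z = 1 → cm hσ M.t (M.φ z) = 1 := fun z hz => by
    rcases M.φ_mul_self_iff.1 hz with h | h
    · rw [M.φ_eq_one_iff.2 h, cm_one_right]
    · obtain ⟨u, rfl⟩ := isConj_iff.1 (isConj_of_trace_SL (g := (slLin K).w) (h := z) (by
        rw [trace_w_SL]
        intro h4
        exact τ.two_ne_zero (pow_eq_zero_iff (n := 2) (by norm_num) |>.1 (by linear_combination -h4)))
        (by rw [trace_w_SL, h]))
      rw [← M.cm_t_w hσ, ← cm_conj_of hσ M.commute_t_w (M.φ u), ← (M.commute_t_φ u).eq, mul_inv_cancel_right, map_mul,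
        map_mul, map_inv, φ_w]
  obtain ⟨z, rfl | rfl⟩ := M.exists_of_commute_t h
  · exact key z hy
  · rw [cm_mul_right_of hσ (M.commute_t_φ z), key z (by rwa [← mul_assoc, t_conj_φ] at hy), mul_one, cm,
      commutatorElement_self]

include hσ in
theorem pow_index_S {z : Γ} (hz : z ∈ σ.ker) : z ^ M.S.index = 1 := by
  have := M.finite
  refine Subgroup.mem_bot.1 ((Subgroup.commutator_le.2 fun a ha b hb => ?_ : _ ≤ ⊥) (stem_pow_index_mem hσ M.S
    (M.S.comap σ) (Subgroup.map_comap_eq_self_of_surjective hσ.1 _).ge hz))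
  rw [comm_eq_cm hσ, Subgroup.mem_bot]
  by_cases h : σ a = 1
  · rw [h, cm_one_left]
  · obtain ⟨M', h1⟩ := M.exists_t_eq (orderOf_eq_prime (by rw [sq, M.mul_self_of_mem_S ha]) h)
    exact h1 ▸ M'.cm_t hσ (M.mul_self_of_mem_S hb) (h1 ▸ M.commute_of_mem_S hb ha)

theorem cm_eq_one (hm : 1 ≤ m) (X Y : K → G) (hc : ∀ a b, Commute (X a) (Y b))
    (hl : ∀ a a' b, cm hσ (X (a + a')) (Y b) = cm hσ (X a' * X a) (Y b)) (hr : ∀ b b', Y (b + b') = Y b * Y b')
    {i j : ℕ} {μ ν : K → K} (hμ : DegLT i μ) (hν : DegLT j ν) (hij : i + j ≤ 7) (h0 : μ 0 = 0)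
    (hinv : ∀ l ≠ 0, ∃ k, (∀ a, M.h k * X a * (M.h k)⁻¹ = X (μ l * a)) ∧
      ∀ b, M.h k * Y b * (M.h k)⁻¹ = Y (ν l * b)) (a b : K) : cm hσ (X a) (Y b) = 1 :=
  letI := centralCommGroup (Subgroup.center Γ) le_rfl
  congrArg Subtype.val (biadd_eq_one (A := Subgroup.center Γ) τ.three (M.fin.le_card hm)
    (fun a b => ⟨_, cm_central hσ (hc a b)⟩) (fun a a' b => Subtype.ext ((hl a a' b).trans (cm_mul_left_of hσ (hc a b))))
    (fun a b b' => Subtype.ext ((congrArg _ (hr b b')).trans (cm_mul_right_of hσ (hc a b')))) hμ hν hij h0 (fun l hl a b => by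
      obtain ⟨k, h1, h2⟩ := hinv l hl
      exact Subtype.ext ((congrArg₂ _ (h1 a) (h2 b)).symm.trans (cm_conj_of hσ (hc a b) _))) a b)

theorem commute_Z (a b c z : K) : Commute (M.x a b c) (M.x 0 0 z) := (M.x_mul_Z ..).trans (M.Z_mul_x ..).symm

theorem commute_E (b c y z : K) : Commute (M.x 0 b c) (M.x 0 y z) := by
  rw [Commute, SemiconjBy, x_mul_E, x_mul_E, add_comm b, add_comm c]

theorem x_split (a b c : K) : M.x a b c = M.x a 0 0 * M.x 0 b c := by simp [x_mul]

theorem x_split' (b c : K) : M.x 0 b c = M.x 0 b 0 * M.x 0 0 c := by simp [x_mul]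

theorem cm_EZ (hm : 1 ≤ m) (b c z : K) : cm hσ (M.x 0 b c) (M.x 0 0 z) = 1 := by
  rw [x_split', cm_mul_left_of hσ (M.commute_Z ..),
    M.cm_eq_one hσ hm (M.x 0 0) (M.x 0 0) (M.commute_Z 0 0) (fun a a' b => by rw [x_mul_Z, add_comm])
      (fun _ _ => (M.x_mul_Z ..).symm) (DegLT.hom (AddMonoidHom.id K)) (DegLT.hom (AddMonoidHom.id K)) (by norm_num) rfl
      fun l hl => by
        obtain ⟨k, rfl⟩ := τ.exists_unit_sq_mul_σ hl
        exact ⟨k, fun a => by simp [h_conj_x], fun a => by simp [h_conj_x]⟩,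
    M.cm_eq_one hσ hm (M.x 0 · 0) (M.x 0 0) (M.commute_Z 0 · 0) (fun a a' b => by rw [x_mul_E, add_comm, add_zero])
      (fun _ _ => (M.x_mul_Z ..).symm) τ.degLT_mul_σ τ.degLT_sq_mul_σ le_rfl (by simp)
      fun l hl => ⟨Units.mk0 l hl, fun a => by simp [h_conj_x], fun a => by simp [h_conj_x]⟩, one_mul]

theorem cm_EE (hm : 1 ≤ m) (b c y z : K) : cm hσ (M.x 0 b c) (M.x 0 y z) = 1 := by
  rw [M.x_split' y, cm_mul_right_of hσ (M.commute_Z ..), M.cm_EZ hσ hm, x_split', cm_mul_left_of hσ (M.commute_E ..),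
    ← cm_inv, M.cm_EZ hσ hm,
    M.cm_eq_one hσ hm (M.x 0 · 0) (M.x 0 · 0) (fun _ _ => M.commute_E ..)
      (fun a a' b => by rw [x_mul_E, add_comm, add_zero]) (fun _ _ => by rw [x_mul_E, add_zero])
      τ.degLT_mul_σ τ.degLT_mul_σ (by norm_num) (by simp)
      fun l hl => ⟨Units.mk0 l hl, fun a => by simp [h_conj_x], fun a => by simp [h_conj_x]⟩]
  simp

theorem cm_UZ (hm : 1 ≤ m) (a b c z : K) : cm hσ (M.x a b c) (M.x 0 0 z) = 1 := by
  have key : ∀ a b c z, cm hσ (M.x a b c) (M.x 0 0 z) = cm hσ (M.x a 0 0) (M.x 0 0 z) := fun a b c z => by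
    rw [x_split, cm_mul_left_of hσ (M.commute_Z ..), M.cm_EZ hσ hm, one_mul]
  rw [key]
  exact M.cm_eq_one hσ hm (M.x · 0 0) (M.x 0 0) (M.commute_Z · 0 0) (fun a a' b => by rw [x_mul, key (a' + a), add_comm])
    (fun _ _ => (M.x_mul_Z ..).symm) (DegLT.hom (AddMonoidHom.id K)) τ.degLT_sq_mul_σ (by norm_num) rfl
    (fun l hl => ⟨Units.mk0 l hl, fun a => by simp [h_conj_x], fun a => by simp [h_conj_x]⟩) a z

include hσ in
theorem pow_index_U (hm : 1 ≤ m) {z : Γ} (hz : z ∈ σ.ker) : z ^ (M.U.index * (Fintype.card K - 1)) = 1 := by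
  classical
  have := M.finite
  let E : Subgroup Γ := M.E.comap σ
  let _ : CommGroup E := { (inferInstance : Group E) with
    mul_comm := fun x y => Subtype.ext (by
      obtain ⟨b, c, hb⟩ := x.2
      obtain ⟨b', c', hc⟩ := y.2
      rw [Subgroup.coe_mul, Subgroup.coe_mul, ← commutatorElement_eq_one_iff_mul_comm,
        comm_eq_cm hσ, hb, hc, M.cm_EE hσ hm]) }
  let c : Kˣ → E →* E := fun l => MonoidHom.mk'
    (fun x => ⟨lift hσ (M.h l) * x * (lift hσ (M.h l))⁻¹, by
      simpa [E] using M.conj_mem_E (M.h_mem_B l) x.2⟩) fun x y => Subtype.ext (by simp [mul_assoc])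
  have hc : ∀ l (x : E), (c l x : Γ) = lift hσ (M.h l) * x * (lift hσ (M.h l))⁻¹ := fun _ _ => rfl
  have conj_congr : ∀ {u v : Γ} (x : Γ), σ u = σ v → u * x * u⁻¹ = v * x * v⁻¹ := fun x h => by
    simpa [commutatorElement_def] using comm_congr hσ h (rfl : σ x = σ x)
  have hcc : ∀ l k x, c l (c k x) = c (l * k) x := fun l k x => Subtype.ext (by
    rw [hc, hc, hc, conj_congr (u := lift hσ (M.h (l * k))) (v := lift hσ (M.h l) * lift hσ (M.h k)) _ (by simp)]
    group)
  let p : E →* E := ∏ l, c l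
  have hp : ∀ x, p x = ∏ l, c l x := fun x => by simp [p]
  have hpc : ∀ k x, p (c k x) = p x := fun k x => by
    simp only [hp, hcc]
    exact Fintype.prod_equiv (Equiv.mulRight k) _ _ fun _ => rfl
  have hUU : ∀ a b c a' b' c', ⁅M.x a b c, M.x a' b' c'⁆ = M.x 0 (τ.σ a * a' - a * τ.σ a')
      (a * b' - b * a' - τ.σ a * a' ^ 2 + a ^ 2 * τ.σ a') := M.x_commutator
  have hmem : ∀ a b c a' b' c', cm hσ (M.x a b c) (M.x a' b' c') ∈ E := fun a b c a' b' c' => by
    simp only [E, Subgroup.mem_comap, σ_cm, hUU]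
    exact M.x_mem_E ..
  let β : K → K → K → K → K → K → E := fun a b c a' b' c' => p ⟨_, hmem a b c a' b' c'⟩
  have hl : ∀ a b c a' b' c' d e f, β a b c 0 (τ.σ a' * d - a' * τ.σ d)
      (a' * e - b' * d - τ.σ a' * d ^ 2 + a' ^ 2 * τ.σ d) = 1 → β (a + a') (b + b' - a * τ.σ a')
      (c + c' - b * a' + a * a' * τ.σ a' - a ^ 2 * τ.σ a') d e f = β a' b' c' d e f * β a b c d e f := by
    intro a b c a' b' c' d e f h
    rw [← one_mul (β a' b' c' d e f), ← h]
    simp only [β, ← map_mul]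
    congr 1
    apply Subtype.ext
    simp only [Subgroup.coe_mul]
    rw [← x_mul, cm_mul_left, ← hUU _ _ c' _ _ f, ← σ_cm hσ, ← σ_lift hσ (M.x a b c), ← comm_eq_cm, σ_lift,
      commutatorElement_def]
    group
  have hi : ∀ a b c a' b' c', β a b c a' b' c' = (β a' b' c' a b c)⁻¹ := fun a b c a' b' c' => by
    simp only [β, ← map_inv]
    exact congrArg p (Subtype.ext (cm_inv hσ _ _).symm)
  have h1 : ∀ a b c a' b' c', cm hσ (M.x a b c) (M.x a' b' c') = 1 → β a b c a' b' c' = 1 := fun a b c a' b' c' h =>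
    (congrArg p (Subtype.ext h)).trans (map_one p)
  have hZ : ∀ a b c z, β a b c 0 0 z = 1 := fun a b c z => h1 _ _ _ _ _ _ (M.cm_UZ hσ hm ..)
  have hE : ∀ b c y z, β 0 b c 0 y z = 1 := fun b c y z => h1 _ _ _ _ _ _ (M.cm_EE hσ hm ..)
  have hinv : ∀ l ≠ 0, ∀ a b c a' b' c', β (l * a) (l * τ.σ l * b) (l ^ 2 * τ.σ l * c) (l * a') (l * τ.σ l * b')
      (l ^ 2 * τ.σ l * c') = β a b c a' b' c' := fun l hl a b c a' b' c' => by
    simp only [β]
    rw [← hpc (Units.mk0 l hl) ⟨_, hmem a b c a' b' c'⟩]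
    exact congrArg p (Subtype.ext (by rw [hc, cm_conj, σ_lift, h_conj_x, h_conj_x]; rfl))
  have hUE : ∀ a b c y z, β a b c 0 y z = 1 := by
    have e1 : ∀ a b c y z, β a b c 0 y z = β a 0 0 0 y z := fun a b c y z => by
      simpa [hE] using hl a 0 0 0 b c 0 y z (by simp [hZ])
    have e2 : ∀ a y z y' z', β a 0 0 0 (y + y') (z + z') = β a 0 0 0 y z * β a 0 0 0 y' z' := fun a y z y' z' => by
      have := hl 0 y z 0 y' z' a 0 0 (hE ..)
      simp only [add_zero, map_zero, mul_zero, sub_zero] at this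
      rw [hi, this, mul_inv_rev, ← hi, ← hi]
    intro a b c y z
    have e3 := e2 a y 0 0 z
    rw [add_zero, zero_add, hZ, mul_one] at e3
    rw [e1, e3]
    exact biadd_eq_one τ.three (M.fin.le_card hm) (fun a y => β a 0 0 0 y 0) (fun a a' y => by
        rw [mul_comm, ← hl _ _ _ _ _ _ _ _ _ (by simp [hZ]), e1 _ (_ - _)])
      (fun a y y' => by simpa using e2 a y 0 y' 0) (DegLT.hom (AddMonoidHom.id K)) τ.degLT_mul_σ (by norm_num) rfl
      (fun l hl a y => by simpa using hinv l hl a 0 0 0 y 0) a y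
  have all : ∀ a b c d e f, β a b c d e f = 1 := by
    have e1 : ∀ a b c d e f, β a b c d e f = β a 0 0 d e f := fun a b c d e f => by
      simpa [hi 0, hUE] using hl a 0 0 0 b c d e f (hUE ..)
    have e2 : ∀ a a' d e f, β (a + a') 0 0 d e f = β a 0 0 d e f * β a' 0 0 d e f := fun a a' d e f => by
      rw [mul_comm, ← hl _ _ _ _ _ _ _ _ _ (hUE ..), e1 _ (_ - _)]
    intro a b c d e f
    rw [e1, hi, e1, biadd_eq_one τ.three (M.fin.le_card hm) (fun a d => β a 0 0 d 0 0) (fun a a' d => e2 ..)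
      (fun a d d' => by rw [hi, e2, mul_inv, ← hi, ← hi]) (DegLT.hom (AddMonoidHom.id K))
      (DegLT.hom (AddMonoidHom.id K)) (by norm_num) rfl (fun l hl a d => by simpa using hinv l hl a 0 0 d 0 0), inv_one]
  have hle : ⁅M.U.comap σ, M.U.comap σ⁆ ≤ p.ker.map E.subtype := by
    rw [Subgroup.commutator_le]
    rintro u ⟨a, b, c, hu⟩ v ⟨d, e, f, hv⟩
    exact ⟨⟨_, hmem a b c d e f⟩, all a b c d e f, by rw [comm_eq_cm hσ, hu, hv]; rfl⟩
  obtain ⟨y, hy, hyz⟩ := hle (stem_pow_index_mem hσ M.U (M.U.comap σ)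
    (Subgroup.map_comap_eq_self_of_surjective hσ.1 _).ge hz)
  have h2 : (y : Γ) = z ^ M.U.index := hyz
  have h3 : ∀ l, c l y = y := fun l => Subtype.ext (by
    rw [hc, h2, Subgroup.mem_center_iff.1 (hσ.2.1 (σ.ker.pow_mem hz _)), mul_inv_cancel_right])
  have h4 : p y = 1 := hy
  simp only [hp, h3, Finset.prod_const, Finset.card_univ, Fintype.card_units] at h4
  rw [pow_mul, ← h2]
  exact congrArg Subtype.val h4

include M in
theorem trivial_multiplier (hm : 1 ≤ m) : HasCyclicSchurMultiplier G 1 := by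
  have := M.finite
  have key : ∀ {p n : ℕ}, p.Prime → ¬ p ∣ n → (∀ (Γ : Type _) [Group Γ] (σ : Γ →* G), IsStemExtension σ →
      ∀ z ∈ σ.ker, z ^ n = 1) → PBound G p 1 0 := fun hp h1 h2 Γ _ _ σ hσ =>
    ⟨fun _ => 1, fun _ => one_mem _, fun l hl => absurd hl (by omega), fun z hz => mem_of_pow_coprime _
      (hp.coprime_iff_not_dvd.2 h1) (Subgroup.subset_closure (Or.inr ⟨z, hz, rfl⟩)) (by rw [h2 Γ σ hσ z hz]; exact one_mem _)⟩
  refine hasTrivialMultiplier_of_pBound fun p hp => ?_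
  by_cases h2 : p = 2
  · exact key hp (h2 ▸ M.not_two_dvd_index_S) fun Γ _ σ hσ z => M.pow_index_S hσ
  by_cases h3 : p = 3
  · exact key hp (h3 ▸ Nat.prime_three.not_dvd_mul M.not_three_dvd_index_U M.not_three_dvd_sub_one)
      fun Γ _ σ hσ z => M.pow_index_U hσ hm
  have := Fact.mk hp
  obtain ⟨P⟩ : Nonempty (Sylow p G) := inferInstance
  obtain ⟨x, hx⟩ := (Subgroup.isCyclic_iff_exists_zpowers_eq_top _).1
    (M.isCyclic_of_isPGroup hm (by have := hp.two_le; omega) P.isPGroup')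
  exact pBound_of_cyclic p x (hx ▸ (hp.coprime_iff_not_dvd.2 P.not_dvd_index).symm)

end ReeModel

end Cfsg.Lib.Known.Ree
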