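import Mathlib
import Cfsg.Agent.Known.WallNil
import Cfsg.Agent.Class.HermCount

/-!
Orders of centralisers of unipotent elements of given Jordan type in `GL` and `GU`.
-/

set_option autoImplicit false

namespace Cfsg.Lib.Known

open Module Polynomial Finset Cfsg.Lib.Class Cfsg.Lib.Class.Form

variable {F V : Type*} [Field F] [AddCommGroup V] [Module F V] [FiniteDimensional F V]

theorem card_units_End [Fintype F] :
    Nat.card (End F V)ˣ = ∏ i : Fin (finrank F V), (Fintype.card F ^ finrank F V -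
      Fintype.card F ^ (i : ℕ)) := by
  rw [← Matrix.card_GL_field]
  exact (Nat.card_congr (Matrix.GeneralLinearGroup.toLin' (Module.finBasis F V)).toEquiv).symm

section
variable {t : ℕ} {d : Fin t → ℕ} {g : End F V}

theorem pow_sup_eq_zero (hg : elDiv g = univ.val.map fun k => (X - 1, d k)) :
    (g - (1 : F) • 1) ^ univ.sup d = 0 := by
  rw [← aeval_X_sub_C_End, ← map_pow, C_1, aeval_pow_eq_zero_iff monic_X_sub_one
    irreducible_X_sub_one, hg]
  intro x hx
  obtain ⟨k, -, rfl⟩ := Multiset.mem_map.mp hx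
  exact ⟨rfl, le_sup (f := d) (mem_univ k)⟩

theorem finrank_lay_jordan (hg : elDiv g = univ.val.map fun k => (X - 1, d k)) (j : ℕ) :
    finrank F (Lay (g - (1 : F) • 1) j) = (univ.filter fun k => d k = j + 1).card := by
  classical
  rw [finrank_lay_eq_count, hg, Multiset.count_map, C_1]
  simp only [Prod.mk.injEq, true_and, eq_comm]
  rfl

theorem finrank_ker_jordan (hg : elDiv g = univ.val.map fun k => (X - 1, d k)) (j : ℕ) :
    finrank F (LinearMap.ker ((g - (1 : F) • 1) ^ j)) =
      ∑ i ∈ range (univ.sup d + 1), (univ.filter fun k => d k = i).card * min i j := by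
  rw [← aeval_X_sub_C_End, ← map_pow, C_1, finrank_ker_eq_kerDim g monic_X_sub_one
    irreducible_X_sub_one, hg, kerDim, Multiset.map_map]
  simp only [Function.comp, if_true, natDegree_X_sub_one, mul_one]
  change ∑ k, min (d k) j = _
  rw [← sum_fiberwise_of_maps_to (g := d) (t := range (univ.sup d + 1))
    fun k _ => mem_range.mpr (Nat.lt_succ_of_le (le_sup (f := d) (mem_univ k)))]
  refine sum_congr rfl fun i _ => ?_
  rw [sum_congr rfl fun k hk => by rw [(mem_filter.mp hk).2], sum_const, smul_eq_mul]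

theorem gamma_jordan (hd : ∀ k, 1 ≤ d k) (hg : elDiv g = univ.val.map fun k => (X - 1, d k)) :
    ∑ j : Fin (univ.sup d), finrank F (Lay (g - (1 : F) • 1) j) *
      finrank F (layerRad (g - (1 : F) • 1) j) =
    2 * (∑ i ∈ range (univ.sup d + 1), ∑ j ∈ range (univ.sup d + 1),
      if i < j then i * (univ.filter fun k => d k = i).card * (univ.filter fun k => d k = j).card
        else 0) + ∑ i ∈ range (univ.sup d + 1), (i - 1) * (univ.filter fun k => d k = i).card ^ 2 := by
  set a : ℕ → ℕ := fun i => (univ.filter fun k => d k = i).card with ha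
  set n := univ.sup d
  have h0 : a 0 = 0 := card_eq_zero.mpr (filter_eq_empty_iff.mpr fun k _ => by have := hd k; omega)
  have h1 : ∑ j : Fin n, finrank F (Lay (g - (1 : F) • 1) j) *
      finrank F (layerRad (g - (1 : F) • 1) j) + ∑ i ∈ range (n + 1), a i ^ 2 =
      ∑ i ∈ range (n + 1), ∑ j ∈ range (n + 1), a i * (a j * min j i) := by
    rw [sum_range_succ', sum_range_succ' (fun i => ∑ j ∈ range (n + 1), a i * (a j * min j i)), h0,
      Fin.sum_univ_eq_sum_range (fun j => finrank F (Lay (g - (1 : F) • 1) j) *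
        finrank F (layerRad (g - (1 : F) • 1) j))]
    simp only [zero_mul, sum_const_zero, add_zero, zero_pow two_ne_zero, ← sum_add_distrib]
    refine sum_congr rfl fun j _ => ?_
    rw [← mul_sum, ← finrank_ker_jordan hg, ← finrank_lay, finrank_lay_jordan hg]
    ring
  have h2 : ∑ i ∈ range (n + 1), (i - 1) * a i ^ 2 + ∑ i ∈ range (n + 1), a i ^ 2 =
      ∑ i ∈ range (n + 1), ∑ j ∈ range (n + 1), if i = j then i * a i ^ 2 else 0 := by
    rw [← sum_add_distrib]
    refine sum_congr rfl fun i hi => ?_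
    rw [sum_ite_eq, if_pos hi]
    rcases i with _ | i
    · simp [h0]
    · rw [Nat.add_sub_cancel]; ring
  refine Nat.add_right_cancel (m := ∑ i ∈ range (n + 1), a i ^ 2) ?_
  rw [h1, add_assoc, h2, two_mul]
  nth_rewrite 2 [sum_comm]
  simp only [← sum_add_distrib]
  refine sum_congr rfl fun i _ => sum_congr rfl fun j _ => ?_
  rcases lt_trichotomy i j with h | rfl | h
  · simp only [h, h.not_gt, h.ne, if_true, if_false, min_eq_right h.le]; ring
  · simp only [lt_irrefl, if_true, if_false, min_self]; ring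
  · simp only [h, h.not_gt, h.ne', if_true, if_false, min_eq_left h.le]; ring

theorem prod_lay_jordan {M : Type*} [CommMonoid M] (hd : ∀ k, 1 ≤ d k)
    (hg : elDiv g = univ.val.map fun k => (X - 1, d k)) (f : ℕ → M) (h0 : f 0 = 1) :
    ∏ j : Fin (univ.sup d), f (finrank F (Lay (g - (1 : F) • 1) j)) =
      ∏ i ∈ range (univ.sup d + 1), f (univ.filter fun k => d k = i).card := by
  rw [prod_range_succ', card_eq_zero.mpr (filter_eq_empty_iff.mpr fun k _ => by
    have := hd k; omega), h0, mul_one,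
    Fin.prod_univ_eq_prod_range (fun j => f (finrank F (Lay (g - (1 : F) • 1) j)))]
  exact prod_congr rfl fun j _ => by rw [finrank_lay_jordan hg]

end

theorem card_commute_GL {n : Type*} [Fintype n] [DecidableEq n] (A : Matrix n n F) (l : F) :
    Nat.card {g : GL n F // (g : Matrix n n F) * A = A * g} =
      Nat.card (centU (Matrix.toLin' A - l • 1)) := by
  refine Nat.card_congr (Matrix.GeneralLinearGroup.toLin.toEquiv.subtypeEquiv fun g => ?_)
  refine Iff.trans ?_ (Itw.sub_smul_iff l).symm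
  rw [itw_iff_commute, ← Matrix.toLin'.injective.eq_iff, Matrix.toLin'_mul, Matrix.toLin'_mul]
  rfl

theorem HForm.card_isomGroup_herm [Fintype F] {q : ℕ} (hF : Fintype.card F = q ^ 2) {σ : F →+* F}
    (hσ : σ ≠ RingHom.id F) {B : V →ₛₗ[σ] V →ₗ[F] F} {j : ℕ} (h : HForm B (1 * (-1) ^ j)) :
    Nat.card (isomGroup B) = guOrder q (finrank F V) := by
  obtain ⟨δ, hδ, hδ'⟩ : ∃ δ : F, δ ≠ 0 ∧ σ δ = (-1) ^ j * δ := by
    rcases Nat.even_or_odd j with hj | hj
    · exact ⟨1, one_ne_zero, by simp [hj.neg_one_pow]⟩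
    · obtain ⟨δ, hδ, hδ'⟩ := exists_trace_zero hσ h.invol
      exact ⟨δ, hδ, by rw [hj.neg_one_pow]; linear_combination hδ'⟩
  have h1 : Herm (δ • B) := herm_of_isSymm hσ h.invol ⟨fun u v => by
    simp only [LinearMap.smul_apply, smul_eq_mul, map_mul]
    rw [h.sym v u, hδ']; ring⟩ fun u hu => h.sep u fun v => by simpa [hδ] using hu v
  rw [← h1.card_isomGroup hF rfl]
  congr 2
  ext g
  simp [mem_isomGroup, hδ]

/-- The order of the centraliser of a unipotent element in the unitary group. -/
theorem WallData.card_centralizer_herm [Fintype F] {q : ℕ} (hF : Fintype.card F = q ^ 2)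
    {σ : F →+* F} (hσ : σ ≠ RingHom.id F) {B : V →ₛₗ[σ] V →ₗ[F] F} {g : End F V} {l : F}
    (h : WallData B 1 g l) {n : ℕ} (hN : (g - l • 1) ^ n = 0) :
    Nat.card ((isoU B).subgroupOf (centU (g - l • 1))) =
      q ^ (∑ j : Fin n, finrank F (Lay (g - l • 1) j) * finrank F (layerRad (g - l • 1) j)) *
        ∏ j : Fin n, guOrder q (finrank F (Lay (g - l • 1) j)) := by
  obtain ⟨η, hη⟩ := exists_trace_eq hσ h.hf.invol (n := 1) (map_one σ)
  have h1 := h.card_centralizer_mul hη hN
  have h2 := card_fixed_sq (V := layJ (g - l • 1)) h.hf.invol hσ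
    { toFun := fun ν => ⟨h.hf.adj ν, h.itw_adj ν.2.1, fun j => by
        rw [h.layMap_adj ν.2.1, ν.2.2, HForm.adj_zero]⟩
      map_zero' := Subtype.ext h.hf.adj_zero
      map_add' := fun a b => Subtype.ext (h.hf.adj_add _ _) }
    (fun a v => Subtype.ext (h.hf.adj_smul _ _)) fun v => Subtype.ext (h.hf.adj_adj _)
  simp only [AddMonoidHom.coe_mk, ZeroHom.coe_mk, Subtype.ext_iff] at h2
  have h3 : Nat.card (layJ (g - l • 1)) = (q ^ finrank F (layJ (g - l • 1))) ^ 2 := by
    rw [Module.natCard_eq_pow_finrank (K := F), Nat.card_eq_fintype_card, hF, ← pow_mul, ← pow_mul,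
      mul_comm]
  rw [h3] at h1 h2
  rw [Nat.pow_left_injective two_ne_zero h2, sq, mul_assoc, mul_comm] at h1
  have hq : 0 < q := Nat.pos_of_ne_zero (by
    rintro rfl
    exact absurd hF (by simp))
  rw [Nat.eq_of_mul_eq_mul_left (pow_pos hq _) h1, finrank_layJ hN]
  congr 1
  exact prod_congr rfl fun j _ => (h.hform_layB j).card_isomGroup_herm hF hσ

end Cfsg.Lib.Known
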