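import Mathlib
import Cfsg.Agent.Known.UnipCent
import Cfsg.Agent.Known.SpSemi
import Cfsg.Agent.Known.WallCount

/-!
Centralisers in symplectic groups: passage to endomorphisms, regular unipotent elements, and
fixed-point-free elements of order three.
-/

set_option autoImplicit false

namespace Cfsg.Lib.Known

open Module Polynomial Cfsg.Lib.Class Cfsg.Lib.Class.Form

variable {F V : Type*} [Field F] [AddCommGroup V] [Module F V]

theorem card_centralizer_Sp_End {m : ℕ} (A : Matrix.symplecticGroup (Fin m) F) :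
    Nat.card (Subgroup.centralizer ({A} : Set (Matrix.symplecticGroup (Fin m) F))) =
      Nat.card {z : End F (Fin m ⊕ Fin m → F) //
        (∀ u v, sympBilin m F (z u) (z v) = sympBilin m F u v) ∧
          Commute z (Matrix.toLin' (A : Matrix (Fin m ⊕ Fin m) (Fin m ⊕ Fin m) F))} := by
  have key : ∀ g : Matrix.symplecticGroup (Fin m) F,
      g ∈ Subgroup.centralizer ({A} : Set (Matrix.symplecticGroup (Fin m) F)) ↔
      Commute (Matrix.toLin' (g : Matrix (Fin m ⊕ Fin m) (Fin m ⊕ Fin m) F))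
        (Matrix.toLin' (A : Matrix (Fin m ⊕ Fin m) (Fin m ⊕ Fin m) F)) := fun g => by
    rw [Subgroup.mem_centralizer_singleton_iff, Subtype.ext_iff, ← Matrix.toLin'.injective.eq_iff,
      Submonoid.coe_mul, Submonoid.coe_mul, Matrix.toLin'_mul, Matrix.toLin'_mul]
    rfl
  refine Nat.card_congr (Equiv.ofBijective (fun g => ⟨Matrix.toLin'
    ((g.1 : Matrix.symplecticGroup (Fin m) F) : Matrix (Fin m ⊕ Fin m) (Fin m ⊕ Fin m) F),
    fun u v => by simpa only [Matrix.toLin'_apply] using sympBilin_mulVec g.1 u v,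
    (key _).mp g.2⟩) ⟨fun g g' h => ?_, fun z => ?_⟩)
  · exact Subtype.ext (Subtype.ext (Matrix.toLin'.injective (Subtype.mk.inj h)))
  · obtain ⟨g, hg⟩ := exists_Sp_of_isometry z.2.1
    exact ⟨⟨g, (key g).mpr (hg ▸ z.2.2)⟩, Subtype.ext hg⟩

theorem HForm.card_isoU_centU [FiniteDimensional F V] {σ : F →+* F} {B : V →ₛₗ[σ] V →ₗ[F] F}
    {ε : F} (h : HForm B ε) (g : End F V) (l : F) :
    Nat.card ((isoU B).subgroupOf (centU (g - l • 1))) =
      Nat.card {z : End F V // (∀ u v, B (z u) (z v) = B u v) ∧ Commute z g} := by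
  refine Nat.card_congr (Equiv.ofBijective (fun u => ⟨u.1.1, u.2,
    itw_iff_commute.mp ((Itw.sub_smul_iff l).mp u.1.2)⟩) ⟨fun g g' h =>
      Subtype.ext (Subtype.ext (Units.ext (Subtype.mk.inj h))), fun z => ?_⟩)
  have h1 := isUnit_End_of_injective (injective_of_isometry h z.2.1)
  exact ⟨⟨⟨h1.unit, (Itw.sub_smul_iff l).mpr (itw_iff_commute.mpr z.2.2)⟩, z.2.1⟩, rfl⟩

theorem card_isomGroup_of_subsingleton {σ : F →+* F} (B : V →ₛₗ[σ] V →ₗ[F] F) [Subsingleton V] :
    Nat.card (isomGroup B) = 1 :=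
  Nat.card_eq_one_iff_unique.mpr ⟨⟨fun _ _ => Subtype.ext (LinearEquiv.ext fun _ =>
    Subsingleton.elim _ _)⟩, ⟨1⟩⟩

theorem HForm.card_isomGroup_dim_one (h2 : (2 : F) ≠ 0) {B : LinearMap.BilinForm F V} {ε : F}
    (h : HForm (σ := RingHom.id F) B ε) (h1 : finrank F V = 1) :
    Nat.card (isomGroup (σ := RingHom.id F) B) = 2 := by
  obtain ⟨v, hv, hs⟩ := finrank_eq_one_iff'.mp h1
  have hB : B v v ≠ 0 := fun h0 => hv (h.sep v fun w => by
    obtain ⟨c, rfl⟩ := hs w
    rw [map_smul, h0, smul_zero])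
  rw [Nat.card_eq_two_iff]
  refine ⟨1, ⟨LinearEquiv.neg F, fun x y => by simp⟩, fun h0 => ?_, Set.eq_univ_of_forall fun g => ?_⟩
  · have h3 : v = -v := congrArg (fun g : isomGroup (σ := RingHom.id F) B => g.1 v) h0
    refine hv ((smul_eq_zero.mp (?_ : (2 : F) • v = 0)).resolve_left h2)
    rw [two_smul]; exact eq_neg_iff_add_eq_zero.mp h3
  · obtain ⟨c, hc⟩ := hs (g.1 v)
    have h3 := mem_isomGroup.mp g.2 v v
    rw [← hc] at h3
    simp only [map_smul, LinearMap.smul_apply, smul_eq_mul, RingHom.id_apply, ← mul_assoc] at h3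
    rcases mul_self_eq_one_iff.mp (mul_left_eq_self₀.mp h3 |>.resolve_right hB) with rfl | rfl
    · exact Or.inl (Subtype.ext (LinearEquiv.ext fun w => by
        obtain ⟨d, rfl⟩ := hs w
        rw [map_smul, ← hc, one_smul]; rfl))
    · exact Or.inr (Subtype.ext (LinearEquiv.ext fun w => by
        obtain ⟨d, rfl⟩ := hs w
        rw [map_smul, ← hc]; simp))

theorem layMap_self (N : End F V) (j : ℕ) : layMap N N j N = 0 :=
  LinearMap.ext fun u => by
    have h1 : (N ^ (j + 1)) (N (laySec N j u)) = 0 := by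
      rw [← End.mul_apply, ← pow_succ, pow_succ', End.mul_apply, pow_laySec, map_zero]
    rw [layMap_apply, LinearMap.zero_apply, layPr_eq_zero_iff h1]
    exact ⟨h1, _, by rw [pow_succ]; rfl⟩

/-- The centraliser of a regular unipotent element of a symplectic group. -/
theorem card_centralizer_regular_unipotent [Finite F] [FiniteDimensional F V] (h2 : (2 : F) ≠ 0)
    {B : LinearMap.BilinForm F V} {ε : F} {g : End F V} (h : WallData (σ := RingHom.id F) B ε g 1)
    {m : ℕ} (hm : 1 ≤ m) (hg : elDiv g = {(X - C 1, 2 * m)}) :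
    Nat.card ((isoU (σ := RingHom.id F) B).subgroupOf (centU (g - (1 : F) • 1))) =
      2 * Nat.card F ^ m := by
  classical
  set N := g - (1 : F) • 1 with hNd
  have hN : N ^ (2 * m) = 0 := pow_eq_zero_of_singleton hg
  have h1 := h.card_centralizer_mul (η := 2⁻¹) (by
    rw [RingHom.id_apply, ← two_mul, mul_inv_cancel₀ h2]) hN
  have hl : ∀ j, finrank F (Lay N j) = if j = 2 * m - 1 then 1 else 0 := fun j => by
    rw [finrank_lay_eq_count, hg, Multiset.count_singleton]
    exact if_congr (by simp only [Prod.mk.injEq, true_and]; omega) rfl rfl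
  let j0 : Fin (2 * m) := ⟨2 * m - 1, by omega⟩
  have hJ : finrank F (layJ N) = 2 * m - 1 := by
    rw [finrank_layJ hN, Finset.sum_eq_single j0 (fun j _ hj => by
      rw [hl, if_neg (fun h => hj (Fin.ext h)), zero_mul]) (by simp), hl, if_pos rfl, one_mul]
    have h3 := finrank_lay N (2 * m - 1)
    rw [hl, if_pos rfl, finrank_ker_pow_of_singleton hg] at h3
    change finrank F (layerRad N (2 * m - 1)) = _
    omega
  rw [Finset.prod_eq_single j0 (fun j _ hj => by
    have : Subsingleton (Lay N j) := finrank_zero_iff.mp (by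
      rw [hl, if_neg (fun h => hj (Fin.ext h))])
    exact card_isomGroup_of_subsingleton _) (by simp),
    (h.hform_layB _).card_isomGroup_dim_one h2 ((hl _).trans (if_pos rfl)),
    natCard_eq_pow_finrank (K := F) (V := layJ N), hJ] at h1
  -- the skew element `s`
  let a := h.hf.adj g
  have ha : g * a = 1 := h.hf.mul_adj_of_isometry h.hg
  have ha' : a * g = 1 := mul_eq_one_comm.mp ha
  let s := g - a
  have hs : h.hf.adj s = -s := by rw [h.hf.adj_sub, h.hf.adj_adj, neg_sub]
  have hsN : s = (1 + a) * N := by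
    simp only [s, hNd, one_smul, add_mul, mul_sub, one_mul, mul_one, ha']; abel
  have haN : Commute a N := h.hf.commute_adj_sub_smul h.hg
  have hc : Commute (1 + a) N := (Commute.one_left N).add_left haN
  have hu : IsUnit (1 + a) := by
    have h3 : 1 + a = (2 : F) • 1 + -(a * N) := by
      simp only [hNd, one_smul, mul_sub, ha', mul_one, two_smul]; abel
    rw [h3]
    refine IsNilpotent.isUnit_add_left_of_commute (IsNilpotent.neg ⟨2 * m, by
      rw [haN.mul_pow, hN, mul_zero]⟩) ?_ ((Commute.one_right _).smul_right _)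
    rw [← Algebra.algebraMap_eq_smul_one]
    exact (IsUnit.mk0 _ h2).map _
  have hli : LinearIndependent F fun i : Fin (2 * m) => s ^ (i : ℕ) := by
    have h3 : minpoly F s = X ^ (2 * m) := by
      obtain ⟨k, hk, h4⟩ := (dvd_prime_pow prime_X _).mp (minpoly.dvd F s (p := X ^ (2 * m)) (by
        rw [map_pow, aeval_X, hsN, hc.mul_pow, hN, mul_zero]))
      have h5 := eq_of_monic_of_associated (minpoly.monic (IsIntegral.of_finite F s))
        (monic_X_pow k) h4
      have h6 := minpoly.aeval F s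
      rw [h5, map_pow, aeval_X, hsN, hc.mul_pow, (hu.pow k).mul_right_eq_zero] at h6
      have h7 := finrank_ker_pow_of_singleton hg k
      rw [← hNd, h6, LinearMap.ker_zero, finrank_top, finrank_eq_of_singleton hg] at h7
      rw [h5, show k = 2 * m by omega]
    have h4 := linearIndependent_pow (K := F) s
    rw [h3, natDegree_X_pow] at h4
    exact h4
  have hsI : Itw N N s := itw_iff_commute.mpr (hsN ▸ hc.mul_left (Commute.refl N))
  have hsJ : ∀ k, s ^ (k + 1) ∈ layJ N := fun k => by
    have h3 : Itw N N (s ^ k * (1 + a)) :=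
      itw_iff_commute.mpr (((itw_iff_commute.mp hsI).pow_left k).mul_left hc)
    have h4 : s ^ (k + 1) = s ^ k * (1 + a) * N := by rw [mul_assoc, ← hsN, pow_succ]
    rw [h4]
    exact ⟨h3.comp fun _ => rfl, fun j => by rw [layMap_mul h3 fun _ => rfl, layMap_self, mul_zero]⟩
  let E : F → Submodule F (End F V) := fun c =>
    { carrier := {ν | ν ∈ layJ N ∧ h.hf.adj ν = c • ν}
      add_mem' := fun {x y} hx hy => ⟨add_mem hx.1 hy.1, by
        rw [h.hf.adj_add, hx.2, hy.2, smul_add]⟩
      zero_mem' := ⟨zero_mem _, by rw [h.hf.adj_zero, smul_zero]⟩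
      smul_mem' := fun t x hx => ⟨Submodule.smul_mem _ t hx.1, by
        rw [h.hf.adj_smul, hx.2, smul_comm]; rfl⟩ }
  have hE : ∀ k, s ^ (k + 1) ∈ E ((-1) ^ (k + 1)) := fun k => ⟨hsJ k, by
    rw [h.hf.adj_pow, hs, ← neg_one_smul F s, _root_.smul_pow]⟩
  have hE1 : m - 1 ≤ finrank F (E 1) := by
    have h3 := (hli.comp (fun i : Fin (m - 1) => ⟨2 * i + 1 + 1, by omega⟩) fun i j hij => by
      have := Fin.mk.inj hij; omega)
    have h4 := LinearIndependent.fintype_card_le_finrank (R := F)
      (b := fun i : Fin (m - 1) => (⟨s ^ (2 * (i : ℕ) + 1 + 1), by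
        simpa [pow_succ] using hE (2 * i + 1)⟩ : E 1)) (LinearIndependent.of_comp (E 1).subtype h3)
    rwa [Fintype.card_fin] at h4
  have hE2 : m ≤ finrank F (E (-1)) := by
    have h3 := (hli.comp (fun i : Fin m => ⟨2 * i + 1, by omega⟩) fun i j hij => by
      have := Fin.mk.inj hij; omega)
    have h4 := LinearIndependent.fintype_card_le_finrank (R := F)
      (b := fun i : Fin m => (⟨s ^ (2 * (i : ℕ) + 1), by
        simpa [pow_succ] using hE (2 * i)⟩ : E (-1))) (LinearIndependent.of_comp (E (-1)).subtype h3)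
    rwa [Fintype.card_fin] at h4
  have hE3 : finrank F (E 1) + finrank F (E (-1)) ≤ 2 * m - 1 := by
    rw [← hJ, ← Submodule.finrank_sup_add_finrank_inf_eq, show E 1 ⊓ E (-1) = ⊥ from
      eq_bot_iff.mpr fun ν hν => (smul_eq_zero.mp (by
        have := hν.1.2.symm.trans hν.2.2
        rw [neg_smul, one_smul] at this
        rw [two_smul]
        exact eq_neg_iff_add_eq_zero.mp this)).resolve_left h2, finrank_bot, add_zero]
    exact Submodule.finrank_mono (sup_le (fun _ h => h.1) fun _ h => h.1)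
  rw [show Nat.card {ν : layJ N // h.hf.adj ν = ν} = Nat.card (E 1) from
    Nat.card_congr ⟨fun x => ⟨x.1.1, x.1.2, x.2.trans (one_smul _ _).symm⟩,
      fun x => ⟨⟨x.1, x.2.1⟩, x.2.2.trans (one_smul _ _)⟩, fun _ => rfl, fun _ => rfl⟩,
    natCard_eq_pow_finrank (K := F) (V := E 1), show finrank F (E 1) = m - 1 by omega,
    show 2 * m - 1 = m + (m - 1) by omega, pow_add] at h1
  refine Nat.eq_of_mul_eq_mul_right (pow_pos Nat.card_pos (m - 1)) (h1.trans ?_)
  ring

theorem guOrder_int (q n : ℕ) (hq : 1 ≤ q) : (guOrder q n : ℤ) =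
    (q : ℤ) ^ (n * (n - 1) / 2) * ∏ i : Fin n, ((q : ℤ) ^ ((i : ℕ) + 1) - (-1) ^ ((i : ℕ) + 1)) := by
  rw [guOrder, Fin.prod_univ_eq_prod_range (fun i => (q : ℤ) ^ (i + 1) - (-1) ^ (i + 1))]
  push_cast
  refine congrArg _ (Finset.prod_congr rfl fun i _ => ?_)
  split_ifs with h
  · rw [h.add_one.neg_one_pow]; ring
  · rw [(Nat.not_even_iff_odd.mp h).add_one.neg_one_pow, Nat.cast_sub (Nat.one_le_pow _ _ hq)]
    push_cast; ring

/-- The centraliser of a quadratic element in the symplectic group is a unitary group. -/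
theorem card_centralizer_quadratic {K : Type*} [Field K] [Fintype K] [Algebra F K] [Module K V]
    [IsScalarTower F K V] [FiniteDimensional K V] {q : ℕ} (hK : Fintype.card K = q ^ 2)
    {B : LinearMap.BilinForm F V} (hB : B.Nondegenerate) (hA : B.IsAlt) {x : End F V}
    (hx : ∀ u v, B (x u) (x v) = B u v) {ω : K} (hω : ω ^ 2 + ω + 1 = 0)
    (hxω : ∀ v, x v = ω • v) (σ : K →+* K) (hσ : ∀ a, σ (algebraMap F K a) = algebraMap F K a)
    (hσω : σ ω = ω ^ 2) (hsp : ∀ k : K, ∃ a b : F, k = algebraMap F K a + algebraMap F K b * ω)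
    (hin : ∀ a : F, algebraMap F K a ≠ ω ^ 2) :
    Nat.card {z : End F V // (∀ u v, B (z u) (z v) = B u v) ∧ Commute z x} =
      guOrder q (finrank K V) := by
  have hi : ∀ a b : F, ω ^ 2 * algebraMap F K a = algebraMap F K b → a = 0 ∧ b = 0 := by
    intro a b h
    have ha : a = 0 := by
      by_contra ha
      refine hin (b / a) ?_
      rw [map_div₀, ← h, mul_div_assoc, div_self ((_root_.map_ne_zero _).mpr ha), mul_one]
    rw [ha, map_zero, mul_zero, eq_comm, map_eq_zero] at h
    exact ⟨ha, h⟩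
  have hs : ∀ (a b : F) (v : V),
      (algebraMap F K a + algebraMap F K b * ω) • v = a • v + b • x v := fun a b v => by
    rw [add_smul, mul_smul, algebraMap_smul, algebraMap_smul, hxω]
  have hxx : ∀ v, x (x v) = -v - x v := fun v => by
    rw [hxω, hxω, smul_smul, ← neg_one_smul K v, ← sub_smul]
    congr 1; linear_combination hω
  have hx1 : ∀ u v, B (x u) v = -B u v - B u (x v) := fun u v => by
    have := hx u (x (x v))
    rw [hxx (x v), hxx v] at this
    simp only [map_sub, map_neg] at this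
    linear_combination this
  let H : V →ₛₗ[σ] V →ₗ[K] K := LinearMap.mk₂'ₛₗ σ (RingHom.id K)
    (fun u v => ω ^ 2 * algebraMap F K (B u v) - algebraMap F K (B u (x v)))
    (fun u u' v => by simp only [map_add, LinearMap.add_apply]; ring)
    (fun k u v => by
      obtain ⟨a, b, rfl⟩ := hsp k
      simp only [hs, map_add, map_smul, LinearMap.add_apply, LinearMap.smul_apply, smul_eq_mul,
        hx, hx1 u v, map_mul, hσ, hσω, map_sub, map_neg]
      linear_combination (-(algebraMap F K b) * algebraMap F K (B u v) * (ω ^ 2 - ω + 1) ) * hω)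
    (fun u v v' => by simp only [map_add]; ring)
    (fun k u v => by
      obtain ⟨a, b, rfl⟩ := hsp k
      simp only [hs, map_add, map_smul, smul_eq_mul, hxx, map_mul, map_sub, map_neg,
        RingHom.id_apply]
      linear_combination (algebraMap F K b * algebraMap F K (B u (x v)) -
        algebraMap F K b * algebraMap F K (B u v) * (ω - 1)) * hω)
  have hH : ∀ u v, H u v = ω ^ 2 * algebraMap F K (B u v) - algebraMap F K (B u (x v)) :=
    fun _ _ => rfl
  have hσ1 : σ ≠ RingHom.id K := fun h => by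
    rw [h, RingHom.id_apply] at hσω
    rcases mul_eq_zero.mp (show ω * (ω - 1) = 0 by linear_combination -hσω) with h | h
    · exact hin 0 (by rw [h]; simp)
    · exact hin 1 (by rw [sub_eq_zero.mp h]; simp)
  have hHerm : Herm H := herm_of_isSymm hσ1 (fun k => by
      obtain ⟨a, b, rfl⟩ := hsp k
      simp only [map_add, map_mul, hσ, hσω, map_pow]
      linear_combination (algebraMap F K b * (ω ^ 2 - ω)) * hω)
    ⟨fun u v => by
      rw [hH, hH, ← hA.neg_eq u v, ← hA.neg_eq (x u) v, hx1 u v]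
      simp only [map_sub, map_mul, map_pow, hσ, hσω, map_neg]
      linear_combination (algebraMap F K (B u v) * (ω ^ 2 - ω + 1)) * hω⟩
    fun u hu => hB.1 u fun v => (hi _ _ (sub_eq_zero.mp (hu v))).1
  rw [← hHerm.card_isomGroup hK rfl]
  have k1 : ∀ (g : isomGroup H) u v, B (g.1 u) (g.1 v) = B u v := fun g u v => by
    have h1 := mem_isomGroup.mp g.2 u v
    rw [hH, hH] at h1
    exact sub_eq_zero.mp (hi (B (g.1 u) (g.1 v) - B u v) (B (g.1 u) (x (g.1 v)) - B u (x v)) (by
      rw [map_sub, map_sub]; linear_combination h1)).1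
  have k2 : ∀ (g : isomGroup H) v, g.1 (x v) = x (g.1 v) := fun g v => by
    rw [hxω, hxω, map_smul]
  refine (Nat.card_congr (Equiv.ofBijective (fun g : isomGroup H =>
    (⟨(g.1.restrictScalars F).toLinearMap, k1 g, LinearMap.ext (k2 g)⟩ :
      {z : End F V // (∀ u v, B (z u) (z v) = B u v) ∧ Commute z x}))
        ⟨fun g g' h => ?_, fun z => ?_⟩)).symm
  · exact Subtype.ext (LinearEquiv.ext fun v => LinearMap.congr_fun (Subtype.mk.inj h) v)
  · have h1 : ∀ v, z.1 (x v) = x (z.1 v) := LinearMap.congr_fun z.2.2.eq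
    let z' : V →ₗ[K] V :=
      { toFun := z.1
        map_add' := map_add _
        map_smul' := fun k v => by
          obtain ⟨a, b, rfl⟩ := hsp k
          rw [RingHom.id_apply, hs, hs, map_add, map_smul, map_smul, h1] }
    have h2 : Function.Injective z' := fun u v h => sub_eq_zero.mp (hB.1 _ fun w => by
      rw [← z.2.1, map_sub z.1, sub_eq_zero.mpr (show z.1 u = z.1 v from h)]; simp)
    refine ⟨⟨LinearEquiv.ofBijective z' ⟨h2, LinearMap.injective_iff_surjective.mp h2⟩,
      mem_isomGroup.mpr fun u v => ?_⟩, rfl⟩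
    change H (z.1 u) (z.1 v) = H u v
    rw [hH, hH, ← h1, z.2.1, z.2.1]

end Cfsg.Lib.Known
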