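import Mathlib.GroupTheory.Sylow
import Mathlib.GroupTheory.SpecificGroups.Cyclic

/-!
Counting elements of order `p` when a Sylow `p`-subgroup has order `p`.
-/

set_option autoImplicit false

namespace Cfsg.Lib.Known

open Subgroup

variable {G : Type*} [Group G]

/-- A subgroup of prime order `p` is generated by each of its non-identity elements. -/
theorem zpowers_eq_of_card_prime [Finite G] {p : ℕ} (hp : p.Prime) {P : Subgroup G}
    (hP : Nat.card P = p) {x : G} (hx : x ∈ P) (hx1 : x ≠ 1) : zpowers x = P := by
  have hle : zpowers x ≤ P := by simpa using hx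
  have hdvd : Nat.card (zpowers x) ∣ p := hP ▸ Subgroup.card_dvd_of_le hle
  rcases (Nat.dvd_prime hp).1 hdvd with h | h
  · exfalso
    rw [Nat.card_zpowers, orderOf_eq_one_iff] at h
    exact hx1 h
  · exact Subgroup.eq_of_le_of_card_ge hle (by rw [h, hP])

/-- A non-identity element of a subgroup of prime order `p` has order `p`. -/
theorem orderOf_eq_of_mem_card_prime [Finite G] {p : ℕ} (hp : p.Prime) {P : Subgroup G}
    (hP : Nat.card P = p) {x : G} (hx : x ∈ P) (hx1 : x ≠ 1) : orderOf x = p := by
  rw [← Nat.card_zpowers, zpowers_eq_of_card_prime hp hP hx hx1, hP]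

/-- All Sylow `p`-subgroups have the same order. -/
theorem sylow_card_eq [Finite G] {p : ℕ} [Fact p.Prime] (P Q : Sylow p G) :
    Nat.card (Q : Subgroup G) = Nat.card (P : Subgroup G) := by
  rw [P.card_eq_multiplicity, Q.card_eq_multiplicity]

/-- An element of order `p` generates a Sylow `p`-subgroup if these have order `p`. -/
theorem exists_sylow_eq_zpowers [Finite G] {p : ℕ} [hp : Fact p.Prime] (P : Sylow p G)
    (hP : Nat.card (P : Subgroup G) = p) {x : G} (hx : orderOf x = p) :
    ∃ Q : Sylow p G, (Q : Subgroup G) = zpowers x := by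
  have h1 : IsPGroup p (zpowers x) := IsPGroup.of_card (n := 1) (by rw [Nat.card_zpowers, hx, pow_one])
  obtain ⟨Q, hQ⟩ := h1.exists_le_sylow
  refine ⟨Q, (Subgroup.eq_of_le_of_card_ge hQ ?_).symm⟩
  rw [Nat.card_zpowers, hx, sylow_card_eq P Q, hP]

/-- If Sylow `p`-subgroups have order `p`, the number of elements of order `p` is
`n_p * (p - 1)`. -/
theorem card_orderOf_eq_of_sylow_card_prime [Finite G] {p : ℕ} [hp : Fact p.Prime]
    (P : Sylow p G) (hP : Nat.card (P : Subgroup G) = p) :
    Nat.card {x : G // orderOf x = p} = Nat.card (Sylow p G) * (p - 1) := by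
  classical
  have key : ∀ x : {x : G // orderOf x = p}, ∃ Q : Sylow p G, (Q : Subgroup G) = zpowers x.1 :=
    fun x => exists_sylow_eq_zpowers P hP x.2
  choose f hf using key
  have e : {x : G // orderOf x = p} ≃ Σ Q : Sylow p G, {x : {x : G // orderOf x = p} // f x = Q} :=
    (Equiv.sigmaFiberEquiv f).symm
  have hfib : ∀ Q : Sylow p G, Nat.card {x : {x : G // orderOf x = p} // f x = Q} = p - 1 := by
    intro Q
    have hQ : Nat.card (Q : Subgroup G) = p := by rw [sylow_card_eq P Q, hP]
    have e2 : {x : {x : G // orderOf x = p} // f x = Q} ≃ {y : (Q : Subgroup G) // y ≠ 1} :=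
      { toFun := fun x => ⟨⟨x.1.1, by
            have h := hf x.1
            rw [x.2] at h
            rw [h]; exact mem_zpowers _⟩, by
            intro h
            have h1 : x.1.1 = 1 := congrArg Subtype.val h
            have h2 := x.1.2
            rw [h1, orderOf_one] at h2
            exact hp.out.ne_one h2.symm⟩
        invFun := fun y => ⟨⟨y.1.1, orderOf_eq_of_mem_card_prime hp.out hQ y.1.2
            (fun h => y.2 (Subtype.ext h))⟩, by
            apply Sylow.ext
            rw [hf]
            exact zpowers_eq_of_card_prime hp.out hQ y.1.2 (fun h => y.2 (Subtype.ext h))⟩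
        left_inv := fun x => rfl
        right_inv := fun y => rfl }
    rw [Nat.card_congr e2]
    have := Fintype.ofFinite (Q : Subgroup G)
    rw [Nat.card_eq_fintype_card, Fintype.card_subtype_compl, Fintype.card_subtype_eq,
      ← Nat.card_eq_fintype_card, hQ]
  have := Fintype.ofFinite (Sylow p G)
  rw [Nat.card_congr e, Nat.card_sigma]
  simp [hfib]

end Cfsg.Lib.Known
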